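import Cfsg.Agent.H92.RtRR
import Mathlib

/-!
# The class equation for class functions on elements of odd order of `PSL₂(q)`, `q ≡ 3 mod 8`, `q = 3^N` (helper84)
-/

set_option autoImplicit false
set_option linter.style.haveILetI false
set_option linter.unusedSectionVars false

namespace Cfsg.Agent.H84.RtSum

open Cfsg.Agent.H92.Rt

open Classical in
/-- number of `g` conjugating `y` into `S` -/
noncomputable def wt {K : Type*} [Group K] [Fintype K] (S : Set K) (y : K) : ℕ :=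
  ∑ g : K, if g⁻¹ * y * g ∈ S then 1 else 0

section General

variable {K : Type*} [Group K] [Fintype K]

theorem conj_sum {R : Type*} [CommSemiring R] (S : Set K) (f : K → R) (hf : ∀ g y : K, f (g * y * g⁻¹) = f y) :
    ∑ y : K, (wt S y : R) * f y = (Nat.card K : R) * ∑ x : K, S.indicator f x := by
  classical
  have h1 : ∀ y : K, (wt S y : R) * f y = ∑ g : K, S.indicator f (g⁻¹ * y * g) := by
    intro y
    unfold wt
    rw [Nat.cast_sum, Finset.sum_mul]
    refine Finset.sum_congr rfl fun g _ => ?_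
    have h2 : f (g⁻¹ * y * g) = f y := by
      have := hf g⁻¹ y
      rwa [inv_inv] at this
    by_cases hg : g⁻¹ * y * g ∈ S
    · rw [Set.indicator_of_mem hg, h2, if_pos hg]; simp
    · rw [Set.indicator_of_notMem hg, if_neg hg]; simp
  rw [Finset.sum_congr rfl fun y _ => h1 y, Finset.sum_comm]
  have h3 : ∀ g : K, ∑ y : K, S.indicator f (g⁻¹ * y * g) = ∑ x : K, S.indicator f x := by
    intro g
    have := Equiv.sum_comp (MulAut.conj g⁻¹).toEquiv (fun x => S.indicator f x)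
    rw [← this]
    refine Finset.sum_congr rfl fun y _ => ?_
    show S.indicator f (g⁻¹ * y * g) = S.indicator f (g⁻¹ * y * g⁻¹⁻¹)
    rw [inv_inv]
  rw [Finset.sum_congr rfl fun g _ => h3 g, Finset.sum_const, Finset.card_univ, nsmul_eq_mul,
    Nat.card_eq_fintype_card]

theorem wt_eq_card (S : Set K) (y : K) : wt S y = Nat.card {g : K // g⁻¹ * y * g ∈ S} := by
  classical
  unfold wt
  rw [Finset.sum_boole, Nat.card_eq_fintype_card, Fintype.card_subtype]
  rfl

theorem wt_le_of {S : Set K} {y : K} {H : Subgroup K} {g0 : K}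
    (h : ∀ g : K, g⁻¹ * y * g ∈ S → g⁻¹ * g0 ∈ H) : wt S y ≤ Nat.card H := by
  rw [wt_eq_card]
  refine Nat.card_le_card_of_injective (fun g : {g : K // g⁻¹ * y * g ∈ S} => (⟨(g : K)⁻¹ * g0, h g g.2⟩ : H)) ?_
  intro a b hab
  have h1 : (a : K)⁻¹ * g0 = (b : K)⁻¹ * g0 := congrArg Subtype.val hab
  exact Subtype.ext (inv_injective (mul_right_cancel h1))

theorem wt_le_of2 {S : Set K} {y : K} {H : Subgroup K} {g0 g1 : K}
    (h : ∀ g : K, g⁻¹ * y * g ∈ S → g⁻¹ * g0 ∈ H ∨ g⁻¹ * g1 ∈ H) : wt S y ≤ 2 * Nat.card H := by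
  classical
  rw [wt_eq_card]
  have h1 : Nat.card {g : K // g⁻¹ * y * g ∈ S} ≤ Nat.card (H ⊕ H) := by
    refine Nat.card_le_card_of_injective (fun g : {g : K // g⁻¹ * y * g ∈ S} =>
      if h0 : (g : K)⁻¹ * g0 ∈ H then (Sum.inl ⟨(g : K)⁻¹ * g0, h0⟩ : H ⊕ H)
      else Sum.inr ⟨(g : K)⁻¹ * g1, (h g g.2).resolve_left h0⟩) ?_
    intro a b hab
    dsimp only at hab
    split_ifs at hab with ha hb hb
    · have h1 : (a : K)⁻¹ * g0 = (b : K)⁻¹ * g0 := congrArg Subtype.val (Sum.inl.inj hab)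
      exact Subtype.ext (inv_injective (mul_right_cancel h1))
    · have h1 : (a : K)⁻¹ * g1 = (b : K)⁻¹ * g1 := congrArg Subtype.val (Sum.inr.inj hab)
      exact Subtype.ext (inv_injective (mul_right_cancel h1))
  rw [Nat.card_sum] at h1
  omega

theorem wt_pos {S : Set K} {y : K} (h : wt S y ≠ 0) : ∃ g : K, g⁻¹ * y * g ∈ S := by
  by_contra hcon
  push Not at hcon
  apply h
  rw [wt_eq_card]
  haveI : IsEmpty {g : K // g⁻¹ * y * g ∈ S} := ⟨fun g => hcon g g.2⟩
  exact Nat.card_of_isEmpty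

theorem finsum_eq {R : Type*} [CommSemiring R] (S : Set K) (f : K → R) :
    ∑ᶠ u ∈ S, f u = ∑ x : K, S.indicator f x := by
  rw [finsum_mem_def, finsum_eq_sum_of_fintype]

end General

section

variable {K : Type*} [Group K] [Finite K] {q m : ℕ} {U A : Subgroup K} {k s r : K} (D : KD0 q m U A k s r)

include D

theorem three_dvd : 3 ∣ q := by
  obtain ⟨N, hN⟩ := D.q3
  rcases Nat.eq_zero_or_pos N with h | h
  · have := D.q27
    rw [hN, h] at this
    omega
  · rw [hN]; exact dvd_pow_self 3 h.ne'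

theorem mpos : 7 ≤ m := by
  have := D.q27
  have := D.qm
  omega

theorem cardB : Nat.card (Subgroup.normalizer (U : Set K)) = q * (2 * m - 1) := by
  have h1 := D.cardNU
  have h2 : q - 1 = (2 * m - 1) * 2 := by
    have := D.qm; have := D.q27; omega
  rw [h2, ← mul_assoc] at h1
  exact Nat.eq_of_mul_eq_mul_right (by norm_num) h1

theorem cardK' : Nat.card K = q * (2 * m - 1) * (4 * m) := by
  have h1 := D.cardK
  have h2 : q - 1 = (2 * m - 1) * 2 := by
    have := D.qm; have := D.q27; omega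
  rw [h2, D.qm] at h1
  have h3 : q * ((2 * m - 1) * 2) * (4 * m) = (q * (2 * m - 1) * (4 * m)) * 2 := by ring
  rw [h3] at h1
  exact Nat.eq_of_mul_eq_mul_right (by norm_num) h1

theorem indexU : ¬ 3 ∣ U.index := by
  intro hd
  have h1 := U.card_mul_index
  rw [D.cardU, cardK' D, mul_assoc] at h1
  have hq : 0 < q := by have := D.q27; omega
  have h2 : U.index = (2 * m - 1) * (4 * m) := Nat.eq_of_mul_eq_mul_left hq h1
  rw [h2] at hd
  have h3 := three_dvd D
  have h4 := D.qm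
  have h5 := mpos D
  rcases (Nat.Prime.dvd_mul Nat.prime_three).1 hd with h6 | h6 <;> omega

theorem cube_mem {x : K} (hx : x ∈ Subgroup.normalizer (U : Set K)) (h3 : x ^ 3 = 1) : x ∈ U := by
  haveI : Fact (Nat.Prime 3) := ⟨Nat.prime_three⟩
  have hUp : IsPGroup 3 U := by
    rintro ⟨y, hy⟩
    refine ⟨1, ?_⟩
    apply Subtype.ext
    show y ^ 3 ^ 1 = 1
    rw [pow_one]; exact D.Uexp y hy
  let S : Sylow 3 K := hUp.toSylow (indexU D)
  have hS : (S : Subgroup K) = U := IsPGroup.toSylow_coe hUp (indexU D)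
  have hxp : IsPGroup 3 (Subgroup.zpowers x) := by
    rintro ⟨y, hy⟩
    obtain ⟨i, rfl⟩ := Subgroup.mem_zpowers_iff.1 hy
    refine ⟨1, ?_⟩
    apply Subtype.ext
    show (x ^ i) ^ 3 ^ 1 = 1
    rw [pow_one, ← zpow_natCast, ← zpow_mul, mul_comm, zpow_mul]
    rw [show (x ^ ((3 : ℕ) : ℤ)) = 1 by rw [zpow_natCast]; exact h3, one_zpow]
  have h1 := hxp.inf_normalizer_sylow S
  have h2 : x ∈ Subgroup.zpowers x ⊓ Subgroup.normalizer (S : Set K) := by
    refine ⟨Subgroup.mem_zpowers x, ?_⟩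
    have : (S : Set K) = (U : Set K) := congrArg (fun H : Subgroup K => (H : Set K)) hS
    rw [this]; exact hx
  rw [h1] at h2
  have h3 := h2.2
  rw [hS] at h3
  exact h3

theorem conjU {b u : K} (hb : b ∈ Subgroup.normalizer (U : Set K)) (hu : u ∈ U) : b * u * b⁻¹ ∈ U :=
  (Subgroup.mem_normalizer_iff.1 hb u).1 hu

theorem stab_triv {g u : K} (hg : g ∉ Subgroup.normalizer (U : Set K)) (hu : u ∈ U)
    (h : g⁻¹ * u * g ∈ Subgroup.normalizer (U : Set K)) : u = 1 := by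
  by_contra hu1
  have h1 : (g⁻¹ * u * g) ^ 3 = 1 := by
    have h2 : g⁻¹ * u * g = g⁻¹ * u * g⁻¹⁻¹ := by rw [inv_inv]
    rw [h2, conj_pow, D.Uexp u hu]; group
  have h3 := cube_mem D h h1
  apply hg
  have h4 := D.UTI g⁻¹ u hu hu1 (by rw [inv_inv]; exact h3)
  exact inv_inv g ▸ (Subgroup.inv_mem _ h4)

theorem trans {g1 g2 : K} (h1 : g1 ∉ Subgroup.normalizer (U : Set K)) (h2 : g2 ∉ Subgroup.normalizer (U : Set K)) :
    ∃ u ∈ U, g2⁻¹ * (u * g1) ∈ Subgroup.normalizer (U : Set K) := by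
  classical
  haveI := Fintype.ofFinite K
  set B := Subgroup.normalizer (U : Set K) with hB
  have hidx : Nat.card (K ⧸ B) = q + 1 := by
    have h3 := B.card_mul_index
    rw [cardB D, cardK' D, ← D.qm] at h3
    have hpos : 0 < q * (2 * m - 1) := by
      have := D.q27; have := mpos D
      exact Nat.mul_pos (by omega) (by omega)
    exact Nat.eq_of_mul_eq_mul_left hpos h3
  have hmk : ∀ {g : K}, g ∉ B → (QuotientGroup.mk g : K ⧸ B) ≠ QuotientGroup.mk 1 := by
    intro g hg he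
    apply hg
    have := QuotientGroup.eq.1 he.symm
    simpa using this
  have hug : ∀ {u g : K}, u ∈ U → g ∉ B → u * g ∉ B := by
    intro u g hu hg hug
    apply hg
    have h3 : u ∈ B := Subgroup.le_normalizer hu
    have := B.mul_mem (B.inv_mem h3) hug
    simpa using this
  let F : U → {p : K ⧸ B // p ≠ QuotientGroup.mk 1} := fun u =>
    ⟨QuotientGroup.mk ((u : K) * g1), hmk (hug u.2 h1)⟩
  have hF : Function.Injective F := by
    intro u u' huu
    have h3 : (QuotientGroup.mk ((u : K) * g1) : K ⧸ B) = QuotientGroup.mk ((u' : K) * g1) :=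
      congrArg Subtype.val huu
    rw [QuotientGroup.eq] at h3
    have h4 : ((u : K) * g1)⁻¹ * ((u' : K) * g1) = g1⁻¹ * ((u : K)⁻¹ * (u' : K)) * g1 := by group
    rw [h4] at h3
    have h5 := stab_triv D h1 (U.mul_mem (U.inv_mem u.2) u'.2) h3
    exact Subtype.ext (inv_mul_eq_one.1 h5)
  have hcard : Nat.card {p : K ⧸ B // p ≠ QuotientGroup.mk 1} ≤ Nat.card U := by
    rw [D.cardU, Nat.card_eq_fintype_card]
    have h3 : Fintype.card {p : K ⧸ B // p ≠ QuotientGroup.mk 1} = Fintype.card (K ⧸ B) - 1 := by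
      simp only [ne_eq, Fintype.card_subtype_compl, Fintype.card_subtype_eq]
    rw [h3, ← Nat.card_eq_fintype_card, hidx]
    omega
  have hbij : Function.Bijective F := by
    exact hF.bijective_of_nat_card_le hcard
  obtain ⟨u, hu⟩ := hbij.2 ⟨QuotientGroup.mk g2, hmk h2⟩
  refine ⟨u, u.2, ?_⟩
  have h3 : (QuotientGroup.mk ((u : K) * g1) : K ⧸ B) = QuotientGroup.mk g2 := congrArg Subtype.val hu
  exact QuotientGroup.eq.1 h3.symm

theorem fix2 {b h1 h2 : K} (hb : b ∈ Subgroup.normalizer (U : Set K)) (hbU : b ∉ U)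
    (hh1 : h1 ∉ Subgroup.normalizer (U : Set K)) (hh2 : h2 ∉ Subgroup.normalizer (U : Set K))
    (h1b : h1 * b * h1⁻¹ ∈ Subgroup.normalizer (U : Set K)) (h2b : h2 * b * h2⁻¹ ∈ Subgroup.normalizer (U : Set K)) :
    h1 * h2⁻¹ ∈ Subgroup.normalizer (U : Set K) := by
  set B := Subgroup.normalizer (U : Set K) with hB
  have hg1 : h1⁻¹ ∉ B := fun h => hh1 (inv_inv h1 ▸ B.inv_mem h)
  have hg2 : h2⁻¹ ∉ B := fun h => hh2 (inv_inv h2 ▸ B.inv_mem h)
  obtain ⟨u, hu, hub⟩ := trans D hg1 hg2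
  rw [inv_inv] at hub
  -- e = b⁻¹ u⁻¹ b u
  have he : b⁻¹ * (u⁻¹ * b * u) ∈ U := by
    have h3 : b⁻¹ * u⁻¹ * b⁻¹⁻¹ ∈ U := conjU D (B.inv_mem hb) (U.inv_mem hu)
    have h4 : b⁻¹ * (u⁻¹ * b * u) = (b⁻¹ * u⁻¹ * b⁻¹⁻¹) * u := by group
    rw [h4]; exact U.mul_mem h3 hu
  have h5 : (h1⁻¹)⁻¹ * (b⁻¹ * (u⁻¹ * b * u)) * h1⁻¹ ∈ B := by
    have h6 : (h1⁻¹)⁻¹ * (b⁻¹ * (u⁻¹ * b * u)) * h1⁻¹ =
        (h1 * b * h1⁻¹)⁻¹ * ((h2 * (u * h1⁻¹))⁻¹ * (h2 * b * h2⁻¹) * (h2 * (u * h1⁻¹))) := by group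
    rw [h6]
    exact B.mul_mem (B.inv_mem h1b) (B.mul_mem (B.mul_mem (B.inv_mem hub) h2b) hub)
  have h6 := stab_triv D hg1 he h5
  have h7 : b * u = u * b := by
    rw [inv_mul_eq_one] at h6
    calc b * u = u * (u⁻¹ * b * u) := by group
      _ = u * b := by rw [← h6]
  have hu1 : u = 1 := by
    by_contra hu1
    exact hbU (D.Ucent u hu hu1 b h7)
  rw [hu1, one_mul] at hub
  have := B.inv_mem hub
  rw [mul_inv_rev, inv_inv] at this
  exact this

theorem pow_B {b : K} (hb : b ∈ Subgroup.normalizer (U : Set K)) (hbU : b ∉ U) : b ^ (2 * m - 1) = 1 := by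
  set B := Subgroup.normalizer (U : Set K) with hB
  haveI : (U.subgroupOf B).Normal := Subgroup.normal_in_normalizer
  have h1 : (U.subgroupOf B).index = 2 * m - 1 := by
    have h2 := (U.subgroupOf B).card_mul_index
    have h3 : Nat.card (U.subgroupOf B) = q := by
      rw [Nat.card_congr (Subgroup.subgroupOfEquivOfLe (Subgroup.le_normalizer (H := U))).toEquiv, D.cardU]
    rw [h3, cardB D] at h2
    exact Nat.eq_of_mul_eq_mul_left (by have := D.q27; omega) h2
  have h2 := (U.subgroupOf B).pow_index_mem ⟨b, hb⟩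
  rw [h1, Subgroup.mem_subgroupOf] at h2
  have h3 : b ^ (2 * m - 1) ∈ U := h2
  by_contra h4
  apply hbU
  exact D.Ucent _ h3 h4 b (by rw [← pow_succ', ← pow_succ])

theorem coords : ¬ 3 ∣ m ∧ ¬ 3 ∣ (2 * m - 1) ∧ m.Coprime (2 * m - 1) ∧ Odd (2 * m - 1) := by
  have h1 := three_dvd D
  have h2 := D.qm
  have h3 := mpos D
  refine ⟨by omega, by omega, ?_, ⟨m - 1, by omega⟩⟩
  rw [Nat.coprime_iff_gcd_eq_one]
  have h4 : Nat.gcd m (2 * m - 1) ∣ 1 := by
    have h5 : Nat.gcd m (2 * m - 1) ∣ 2 * m := (Nat.gcd_dvd_left _ _).mul_left 2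
    have h6 := Nat.gcd_dvd_right m (2 * m - 1)
    have h7 := (Nat.dvd_add_right h6).1 (by rw [show 2 * m - 1 + 1 = 2 * m by omega]; exact h5)
    exact h7
  exact Nat.dvd_one.1 h4

omit D in
theorem eq_one_of {a b : ℕ} (hab : a.Coprime b) {y : K} (ha : y ^ a = 1) (hb : y ^ b = 1) : y = 1 := by
  rw [← orderOf_eq_one_iff]
  exact Nat.eq_one_of_dvd_coprimes hab (orderOf_dvd_of_pow_eq_one ha) (orderOf_dvd_of_pow_eq_one hb)

omit D in
theorem conj_pow_one {g y : K} {n : ℕ} (h : (g⁻¹ * y * g) ^ n = 1) : y ^ n = 1 := by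
  have h1 : g⁻¹ * y * g = g⁻¹ * y * g⁻¹⁻¹ := by rw [inv_inv]
  rw [h1, conj_pow, inv_inv] at h
  have h2 : y ^ n = g * (g⁻¹ * y ^ n * g) * g⁻¹ := by group
  rw [h2, h]; group

theorem powA {a : K} (ha : a ∈ A) : a ^ m = 1 := by
  have h1 := A.orderOf_dvd_natCard ha
  rw [D.cardA] at h1
  exact orderOf_dvd_iff_pow_eq_one.1 h1

theorem kpow : k ^ m = k := by
  obtain ⟨j, hj⟩ := D.modd
  rw [hj, pow_succ, pow_mul, sq, D.k2, one_pow, one_mul]

theorem kapow {a : K} (ha : a ∈ A) : (k * a) ^ m = k := by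
  rw [(show Commute k a from (D.Ak a ha).symm).mul_pow, powA D ha, kpow D, mul_one]

theorem ka_even {a : K} (ha : a ∈ A) : ¬ Odd (orderOf (k * a)) := by
  intro h
  have h1 : orderOf k = 2 := orderOf_eq_prime (by rw [sq]; exact D.k2) D.k1
  have h2 : orderOf k ∣ orderOf (k * a) := by
    have := orderOf_pow_dvd (x := k * a) m
    rwa [kapow D ha] at this
  rw [h1] at h2
  exact (Nat.not_even_iff_odd.2 h) (even_iff_two_dvd.2 h2)

theorem U_odd {x : K} (hx : x ∈ U) : Odd (orderOf x) := by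
  have h1 : orderOf x ∣ 3 := orderOf_dvd_of_pow_eq_one (D.Uexp x hx)
  exact Odd.of_dvd_nat (by decide) h1

theorem B_odd {x : K} (hx : x ∈ Subgroup.normalizer (U : Set K)) (hxU : x ∉ U) : Odd (orderOf x) :=
  Odd.of_dvd_nat (coords D).2.2.2 (orderOf_dvd_of_pow_eq_one (pow_B D hx hxU))

theorem A_odd {x : K} (hx : x ∈ A) : Odd (orderOf x) :=
  Odd.of_dvd_nat D.modd (orderOf_dvd_of_pow_eq_one (powA D hx))

variable [Fintype K]

theorem wtU_le (y : K) : wt {u : K | u ∈ U ∧ u ≠ 1} y ≤ Nat.card (Subgroup.normalizer (U : Set K)) := by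
  by_cases h0 : wt {u : K | u ∈ U ∧ u ≠ 1} y = 0
  · rw [h0]; exact Nat.zero_le _
  · obtain ⟨g0, hg0, hg01⟩ := wt_pos h0
    refine wt_le_of (g0 := g0) fun g hg => ?_
    refine D.UTI (g⁻¹ * g0) _ hg0 hg01 ?_
    have h1 : g⁻¹ * g0 * (g0⁻¹ * y * g0) * (g⁻¹ * g0)⁻¹ = g⁻¹ * y * g := by group
    rw [h1]; exact hg.1

theorem wtB_le (y : K) : wt {b : K | b ∈ Subgroup.normalizer (U : Set K) ∧ b ∉ U} y ≤
    2 * Nat.card (Subgroup.normalizer (U : Set K)) := by
  by_cases h0 : wt {b : K | b ∈ Subgroup.normalizer (U : Set K) ∧ b ∉ U} y = 0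
  · rw [h0]; exact Nat.zero_le _
  · obtain ⟨g0, hg0, hg0U⟩ := wt_pos h0
    by_cases hex : ∃ g1 : K, g1⁻¹ * y * g1 ∈ {b : K | b ∈ Subgroup.normalizer (U : Set K) ∧ b ∉ U} ∧
        g1⁻¹ * g0 ∉ Subgroup.normalizer (U : Set K)
    · obtain ⟨g1, hg1, hg10⟩ := hex
      refine wt_le_of2 (g0 := g0) (g1 := g1) fun g hg => ?_
      by_cases hgB : g⁻¹ * g0 ∈ Subgroup.normalizer (U : Set K)
      · exact Or.inl hgB
      · right
        have e1 : g⁻¹ * g0 * (g0⁻¹ * y * g0) * (g⁻¹ * g0)⁻¹ = g⁻¹ * y * g := by group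
        have e2 : g1⁻¹ * g0 * (g0⁻¹ * y * g0) * (g1⁻¹ * g0)⁻¹ = g1⁻¹ * y * g1 := by group
        have h2 := fix2 D hg0 hg0U hgB hg10 (by rw [e1]; exact hg.1) (by rw [e2]; exact hg1.1)
        have e3 : g⁻¹ * g0 * (g1⁻¹ * g0)⁻¹ = g⁻¹ * g1 := by group
        rwa [e3] at h2
    · push Not at hex
      have h1 : wt {b : K | b ∈ Subgroup.normalizer (U : Set K) ∧ b ∉ U} y ≤
          Nat.card (Subgroup.normalizer (U : Set K)) := wt_le_of (g0 := g0) fun g hg => hex g hg
      omega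

theorem comm_k_of {x h : K} (hx : x ∈ A) (hx1 : x ≠ 1) (h1 : h * x = x * h) : h * k = k * h := by
  obtain ⟨b, hb, h2 | h2⟩ := D.Acent x hx hx1 h h1
  · rw [h2]; exact D.Ak b hb
  · rw [h2, mul_assoc, D.Ak b hb]

theorem wtA_le (y : K) : wt {a : K | a ∈ A ∧ a ≠ 1} y ≤ 4 * m := by
  by_cases h0 : wt {a : K | a ∈ A ∧ a ≠ 1} y = 0
  · rw [h0]; exact Nat.zero_le _
  · obtain ⟨g0, hg0, hg01⟩ := wt_pos h0
    rw [← D.cardCk]
    refine wt_le_of (g0 := g0) fun g hg => ?_
    rw [Subgroup.mem_centralizer_singleton_iff]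
    have h1 : g⁻¹ * g0 * (g0⁻¹ * y * g0) * (g⁻¹ * g0)⁻¹ = g⁻¹ * y * g := by group
    set h := g⁻¹ * g0 with hh
    set x := g0⁻¹ * y * g0 with hx
    rcases D.ATI h x hg0 hg01 (by rw [h1]; exact hg.1) with h2 | h2
    · exact comm_k_of D hg0 hg01 (mul_inv_eq_iff_eq_mul.1 h2)
    · have h3 : (s * h) * x * (s * h)⁻¹ = x := by
        have h4 : (s * h) * x * (s * h)⁻¹ = s * (h * x * h⁻¹) * s⁻¹ := by group
        rw [h4, h2, D.sA _ (A.inv_mem hg0), inv_inv]
      have h5 := comm_k_of D hg0 hg01 (mul_inv_eq_iff_eq_mul.1 h3)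
      have h6 : s * (h * k) = s * (k * h) := by
        calc s * (h * k) = (s * h) * k := by group
          _ = k * (s * h) := h5
          _ = (k * s) * h := by group
          _ = (s * k) * h := by rw [D.sck]
          _ = s * (k * h) := by group
      exact mul_left_cancel h6

theorem wtK_le (y : K) : wt {x : K | ∃ a ∈ A, x = k * a} y ≤ 4 * m := by
  by_cases h0 : wt {x : K | ∃ a ∈ A, x = k * a} y = 0
  · rw [h0]; exact Nat.zero_le _
  · obtain ⟨g0, a0, ha0, hg0⟩ := wt_pos h0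
    rw [← D.cardCk]
    refine wt_le_of (g0 := g0) fun g hg => ?_
    obtain ⟨a, ha, hga⟩ := hg
    rw [Subgroup.mem_centralizer_singleton_iff]
    have h1 : (g⁻¹ * g0) * (g0⁻¹ * y * g0) * (g⁻¹ * g0)⁻¹ = g⁻¹ * y * g := by group
    rw [hg0, hga] at h1
    have h2 : ((g⁻¹ * g0) * (k * a0) * (g⁻¹ * g0)⁻¹) ^ m = (k * a) ^ m := by rw [h1]
    rw [conj_pow, kapow D ha0, kapow D ha] at h2
    exact mul_inv_eq_iff_eq_mul.1 h2

/-- the weight of an element -/
noncomputable def N (U A : Subgroup K) (m : ℕ) (y : K) : ℕ :=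
  (wt ({1} : Set K) y) * 2 + 2 * (4 * m) * wt {u : K | u ∈ U ∧ u ≠ 1} y +
    (4 * m) * wt {b : K | b ∈ Subgroup.normalizer (U : Set K) ∧ b ∉ U} y +
    2 * Nat.card (Subgroup.normalizer (U : Set K)) * wt {a : K | a ∈ A ∧ a ≠ 1} y

omit D in
theorem wt_one_le (y : K) : wt ({1} : Set K) y ≤ Nat.card K := by
  rw [wt_eq_card]
  exact Nat.card_le_card_of_injective (fun g => (g : K)) Subtype.val_injective

theorem N_le (y : K) : N U A m y ≤ 2 * Nat.card K := by
  obtain ⟨c1, c2, c3, c4⟩ := coords D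
  have hK : Nat.card K = Nat.card (Subgroup.normalizer (U : Set K)) * (4 * m) := by
    rw [cardK' D, cardB D]
  have hU := wtU_le D y
  have hB := wtB_le D y
  have hA := wtA_le D y
  have h1 := wt_one_le y
  have e1 : wt ({1} : Set K) y ≠ 0 → y = 1 := by
    intro h
    obtain ⟨g, hg⟩ := wt_pos h
    have h2 : g⁻¹ * y * g = 1 := hg
    have h3 : y = g * (g⁻¹ * y * g) * g⁻¹ := by group
    rw [h3, h2]; group
  have eU : wt {u : K | u ∈ U ∧ u ≠ 1} y ≠ 0 → y ^ 3 = 1 ∧ y ≠ 1 := by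
    intro h
    obtain ⟨g, hg, hg1⟩ := wt_pos h
    refine ⟨conj_pow_one (g := g) (D.Uexp _ hg), ?_⟩
    rintro rfl
    apply hg1; group
  have eB : wt {b : K | b ∈ Subgroup.normalizer (U : Set K) ∧ b ∉ U} y ≠ 0 → y ^ (2 * m - 1) = 1 ∧ y ≠ 1 := by
    intro h
    obtain ⟨g, hg, hg1⟩ := wt_pos h
    refine ⟨conj_pow_one (g := g) (pow_B D hg hg1), ?_⟩
    rintro rfl
    apply hg1
    have : g⁻¹ * 1 * g = 1 := by group
    rw [this]; exact U.one_mem
  have eA : wt {a : K | a ∈ A ∧ a ≠ 1} y ≠ 0 → y ^ m = 1 ∧ y ≠ 1 := by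
    intro h
    obtain ⟨g, hg, hg1⟩ := wt_pos h
    refine ⟨conj_pow_one (g := g) (powA D hg), ?_⟩
    rintro rfl
    apply hg1; group
  have c5 : Nat.Coprime 3 m := (Nat.Prime.coprime_iff_not_dvd Nat.prime_three).2 c1
  have c6 : Nat.Coprime 3 (2 * m - 1) := (Nat.Prime.coprime_iff_not_dvd Nat.prime_three).2 c2
  unfold N
  by_cases z1 : wt ({1} : Set K) y = 0
  · by_cases zU : wt {u : K | u ∈ U ∧ u ≠ 1} y = 0
    · by_cases zB : wt {b : K | b ∈ Subgroup.normalizer (U : Set K) ∧ b ∉ U} y = 0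
      · rw [z1, zU, zB, hK]
        have := Nat.mul_le_mul_left (2 * Nat.card (Subgroup.normalizer (U : Set K))) hA
        calc _ = 2 * Nat.card (Subgroup.normalizer (U : Set K)) * wt {a : K | a ∈ A ∧ a ≠ 1} y := by ring
          _ ≤ 2 * Nat.card (Subgroup.normalizer (U : Set K)) * (4 * m) := this
          _ = _ := by ring
      · have zA : wt {a : K | a ∈ A ∧ a ≠ 1} y = 0 := by
          by_contra h
          exact (eA h).2 (eq_one_of c3 (eA h).1 (eB zB).1)
        rw [z1, zU, zA, hK]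
        have := Nat.mul_le_mul_left (4 * m) hB
        calc _ = 4 * m * wt {b : K | b ∈ Subgroup.normalizer (U : Set K) ∧ b ∉ U} y := by ring
          _ ≤ 4 * m * (2 * Nat.card (Subgroup.normalizer (U : Set K))) := this
          _ = _ := by ring
    · have zB : wt {b : K | b ∈ Subgroup.normalizer (U : Set K) ∧ b ∉ U} y = 0 := by
        by_contra h
        exact (eB h).2 (eq_one_of c6 (eU zU).1 (eB h).1)
      have zA : wt {a : K | a ∈ A ∧ a ≠ 1} y = 0 := by
        by_contra h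
        exact (eA h).2 (eq_one_of c5 (eU zU).1 (eA h).1)
      rw [z1, zB, zA, hK]
      have := Nat.mul_le_mul_left (2 * (4 * m)) hU
      calc _ = 2 * (4 * m) * wt {u : K | u ∈ U ∧ u ≠ 1} y := by ring
        _ ≤ 2 * (4 * m) * Nat.card (Subgroup.normalizer (U : Set K)) := this
        _ = _ := by ring
  · have hy := e1 z1
    have zU : wt {u : K | u ∈ U ∧ u ≠ 1} y = 0 := by
      by_contra h; exact (eU h).2 hy
    have zB : wt {b : K | b ∈ Subgroup.normalizer (U : Set K) ∧ b ∉ U} y = 0 := by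
      by_contra h; exact (eB h).2 hy
    have zA : wt {a : K | a ∈ A ∧ a ≠ 1} y = 0 := by
      by_contra h; exact (eA h).2 hy
    rw [zU, zB, zA]
    calc _ = wt ({1} : Set K) y * 2 := by ring
      _ ≤ Nat.card K * 2 := Nat.mul_le_mul_right 2 h1
      _ = _ := by ring

/-- the weighted sum of a class function -/
theorem N_sum {R : Type*} [CommSemiring R] (f : K → R) (hf : ∀ g y : K, f (g * y * g⁻¹) = f y) :
    ∑ y : K, (N U A m y : R) * f y = (Nat.card K : R) * (2 * (∑ x : K, ({1} : Set K).indicator f x) +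
      2 * (4 * m) * (∑ x : K, {u : K | u ∈ U ∧ u ≠ 1}.indicator f x) +
      (4 * m) * (∑ x : K, {b : K | b ∈ Subgroup.normalizer (U : Set K) ∧ b ∉ U}.indicator f x) +
      2 * (Nat.card (Subgroup.normalizer (U : Set K)) : R) * (∑ x : K, {a : K | a ∈ A ∧ a ≠ 1}.indicator f x)) := by
  have h1 := conj_sum ({1} : Set K) f hf
  have h2 := conj_sum {u : K | u ∈ U ∧ u ≠ 1} f hf
  have h3 := conj_sum {b : K | b ∈ Subgroup.normalizer (U : Set K) ∧ b ∉ U} f hf
  have h4 := conj_sum {a : K | a ∈ A ∧ a ≠ 1} f hf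
  have h5 : ∀ y : K, (N U A m y : R) * f y = 2 * ((wt ({1} : Set K) y : R) * f y) +
      2 * (4 * m) * ((wt {u : K | u ∈ U ∧ u ≠ 1} y : R) * f y) +
      (4 * m) * ((wt {b : K | b ∈ Subgroup.normalizer (U : Set K) ∧ b ∉ U} y : R) * f y) +
      2 * (Nat.card (Subgroup.normalizer (U : Set K)) : R) * ((wt {a : K | a ∈ A ∧ a ≠ 1} y : R) * f y) := by
    intro y
    unfold N
    push_cast
    ring
  rw [Finset.sum_congr rfl fun y _ => h5 y, Finset.sum_add_distrib, Finset.sum_add_distrib, Finset.sum_add_distrib,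
    ← Finset.mul_sum, ← Finset.mul_sum, ← Finset.mul_sum, ← Finset.mul_sum, h1, h2, h3, h4]
  ring

omit D in
theorem sum_ind_one {R : Type*} [CommSemiring R] (f : K → R) : ∑ x : K, ({1} : Set K).indicator f x = f 1 := by
  classical
  rw [Finset.sum_eq_single 1]
  · exact Set.indicator_of_mem rfl f
  · intro b _ hb
    have hb' : b ∉ ({1} : Set K) := hb
    exact Set.indicator_of_notMem hb' f
  · intro h; exact absurd (Finset.mem_univ _) h

open Classical in
/-- indicator function of the odd order elements -/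
noncomputable def od (y : K) : ℕ := if Odd (orderOf y) then 1 else 0

omit D in
theorem orderOf_conj' (g y : K) : orderOf (g * y * g⁻¹) = orderOf y := by
  have := orderOf_injective (MulAut.conj g).toMonoidHom (MulAut.conj g).injective y
  simpa using this

omit D in
theorem od_class (g y : K) : (od (g * y * g⁻¹) : ℕ) = od y := by
  unfold od
  rw [orderOf_conj']

omit D in
theorem sum_ind_card (S : Set K) (f : K → ℕ) (hf : ∀ x ∈ S, f x = 1) : ∑ x : K, S.indicator f x = Nat.card S := by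
  classical
  have h1 : ∀ x : K, S.indicator f x = if x ∈ S then 1 else 0 := by
    intro x
    by_cases hx : x ∈ S
    · rw [Set.indicator_of_mem hx, hf x hx, if_pos hx]
    · rw [Set.indicator_of_notMem hx, if_neg hx]
  rw [Finset.sum_congr rfl fun x _ => h1 x, Finset.sum_boole, Nat.card_eq_fintype_card, Fintype.card_subtype]
  rfl

omit D in
theorem card_sub_one (H : Subgroup K) : Nat.card ({x : K | x ∈ H ∧ x ≠ 1} : Set K) + 1 = Nat.card H := by
  classical
  have h1 : ({x : K | x ∈ H ∧ x ≠ 1} : Set K) = (H : Set K) \ {1} := by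
    ext x; simp
  have h2 : Set.ncard ((H : Set K) \ {1}) + 1 = Set.ncard (H : Set K) :=
    Set.ncard_sdiff_singleton_add_one H.one_mem (Set.toFinite _)
  rw [h1]
  exact h2

omit D in
theorem card_diff {H B : Subgroup K} (h : H ≤ B) :
    Nat.card ({x : K | x ∈ B ∧ x ∉ H} : Set K) + Nat.card H = Nat.card B := by
  have h1 : ({x : K | x ∈ B ∧ x ∉ H} : Set K) = (B : Set K) \ (H : Set K) := rfl
  rw [h1]
  exact Set.ncard_sdiff_add_ncard_of_subset h (Set.toFinite _)

theorem card_kA : Nat.card ({x : K | ∃ a ∈ A, x = k * a} : Set K) = m := by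
  rw [← D.cardA]
  symm
  refine Nat.card_congr (Equiv.ofBijective (fun a : A => (⟨k * (a : K), a, a.2, rfl⟩ : {x : K | ∃ a ∈ A, x = k * a})) ⟨?_, ?_⟩)
  · intro a b hab
    exact Subtype.ext (mul_left_cancel (congrArg Subtype.val hab))
  · rintro ⟨x, a, ha, rfl⟩
    exact ⟨⟨a, ha⟩, rfl⟩

/-- the number of elements of even order -/
theorem even_card : Nat.card K ≤ 4 * ∑ y : K, (1 - od y) := by
  have h1 := conj_sum {x : K | ∃ a ∈ A, x = k * a} (fun y : K => 1 - od y) (fun g y => by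
    simp only [od_class])
  simp only [Nat.cast_id] at h1
  rw [sum_ind_card, card_kA D] at h1
  · have h2 : ∑ y : K, wt {x : K | ∃ a ∈ A, x = k * a} y * (1 - od y) ≤ ∑ y : K, (4 * m) * (1 - od y) :=
      Finset.sum_le_sum fun y _ => Nat.mul_le_mul_right _ (wtK_le D y)
    rw [h1, ← Finset.mul_sum] at h2
    have hm : 0 < m := by have := mpos D; omega
    apply Nat.le_of_mul_le_mul_right (c := m) _ hm
    calc Nat.card K * m ≤ 4 * m * ∑ y : K, (1 - od y) := h2
      _ = _ := by ring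
  · rintro x ⟨a, ha, rfl⟩
    unfold od
    rw [if_neg (ka_even D ha)]

theorem odd_card : 4 * ∑ y : K, od y ≤ 3 * Nat.card K := by
  have h1 := even_card D
  have h2 : ∑ y : K, (1 - od y) + ∑ y : K, od y = Nat.card K := by
    rw [← Finset.sum_add_distrib]
    have h3 : ∀ y : K, (1 - od y) + od y = 1 := by
      intro y; unfold od; split_ifs <;> rfl
    rw [Finset.sum_congr rfl fun y _ => h3 y]
    simp [Nat.card_eq_fintype_card]
  omega

theorem total : ∑ y : K, N U A m y * od y = Nat.card K * (6 * m * Nat.card (Subgroup.normalizer (U : Set K))) := by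
  have h1 := N_sum D (fun y : K => od y) (fun g y => od_class g y)
  simp only [Nat.cast_id] at h1
  rw [h1, sum_ind_one, sum_ind_card _ _ (fun x hx => by unfold od; rw [if_pos (U_odd D hx.1)]),
    sum_ind_card _ _ (fun x hx => by unfold od; rw [if_pos (B_odd D hx.1 hx.2)]),
    sum_ind_card _ _ (fun x hx => by unfold od; rw [if_pos (A_odd D hx.1)])]
  congr 1
  have e1 := card_sub_one U
  have e2 := card_diff (Subgroup.le_normalizer (H := U))
  have e3 := card_sub_one A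
  rw [D.cardU] at e1 e2
  rw [D.cardA] at e3
  rw [cardB D] at e2 ⊢
  have e4 : od (1 : K) = 1 := by unfold od; rw [orderOf_one, if_pos odd_one]
  rw [e4]
  have hm := mpos D
  have hq := D.qm
  obtain ⟨m', rfl⟩ : ∃ m', m = m' + 1 := ⟨m - 1, by omega⟩
  have hq' : q = 4 * m' + 3 := by omega
  subst hq'
  have f1 : Nat.card ({u : K | u ∈ U ∧ u ≠ 1} : Set K) = 4 * m' + 2 := by omega
  have f3 : Nat.card ({a : K | a ∈ A ∧ a ≠ 1} : Set K) = m' := by omega
  have f0 : 2 * (m' + 1) - 1 = 2 * m' + 1 := by omega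
  rw [f0] at e2 ⊢
  have f2 : Nat.card ({b : K | b ∈ Subgroup.normalizer (U : Set K) ∧ b ∉ U} : Set K) = (4 * m' + 3) * (2 * m') := by
    have : (4 * m' + 3) * (2 * m' + 1) = (4 * m' + 3) * (2 * m') + (4 * m' + 3) := by ring
    rw [this] at e2
    exact Nat.add_right_cancel e2
  rw [f1, f2, f3]
  ring

theorem N_eq {y : K} (hy : Odd (orderOf y)) : N U A m y = 2 * Nat.card K := by
  have h1 : ∀ y ∈ (Finset.univ : Finset K), N U A m y * od y ≤ 2 * Nat.card K * od y := fun y _ =>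
    Nat.mul_le_mul_right _ (N_le D y)
  have h2 := Finset.sum_le_sum h1
  have h3 : ∑ y : K, 2 * Nat.card K * od y ≤ ∑ y : K, N U A m y * od y := by
    rw [total D, ← Finset.mul_sum]
    have h4 := odd_card D
    have hK : Nat.card K = Nat.card (Subgroup.normalizer (U : Set K)) * (4 * m) := by
      rw [cardK' D, cardB D]
    have h5 : 2 * ∑ y : K, od y ≤ 6 * m * Nat.card (Subgroup.normalizer (U : Set K)) := by
      have h6 : 3 * Nat.card K = 2 * (6 * m * Nat.card (Subgroup.normalizer (U : Set K))) := by rw [hK]; ring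
      rw [h6] at h4
      omega
    calc 2 * Nat.card K * ∑ y : K, od y = Nat.card K * (2 * ∑ y : K, od y) := by ring
      _ ≤ _ := Nat.mul_le_mul_left _ h5
  have h4 := (Finset.sum_eq_sum_iff_of_le h1).1 (le_antisymm h2 h3) y (Finset.mem_univ _)
  have h5 : od y = 1 := by unfold od; rw [if_pos hy]
  rw [h5, mul_one, mul_one] at h4
  exact h4

end

/-- [P1c] -/
theorem sumOdd_of {K : Type*} [Group K] [Finite K] {q m : ℕ} {U A : Subgroup K} {k s r : K} (D : KD0 q m U A k s r) :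
    ∀ [Fintype K] (f : K → ℂ), (∀ g y : K, f (g * y * g⁻¹) = f y) → (∀ y : K, ¬ Odd (orderOf y) → f y = 0) →
    2 * ∑ y : K, f y = 2 * f 1 + 2 * ((q : ℂ) + 1) * (∑ᶠ u ∈ {u : K | u ∈ U ∧ u ≠ 1}, f u) +
      ((q : ℂ) + 1) * (∑ᶠ b ∈ {b : K | b ∈ Subgroup.normalizer (U : Set K) ∧ b ∉ U}, f b) +
      (q : ℂ) * ((q : ℂ) - 1) * (∑ᶠ a ∈ {a : K | a ∈ A ∧ a ≠ 1}, f a) := by
  intro _ f hf hf0
  rw [finsum_eq, finsum_eq, finsum_eq]
  have h1 := N_sum D f hf
  rw [sum_ind_one] at h1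
  have h2 : ∀ y : K, (N U A m y : ℂ) * f y = (Nat.card K : ℂ) * (2 * f y) := by
    intro y
    by_cases hy : Odd (orderOf y)
    · rw [N_eq D hy]; push_cast; ring
    · rw [hf0 y hy]; ring
  rw [Finset.sum_congr rfl fun y _ => h2 y, ← Finset.mul_sum, ← Finset.mul_sum] at h1
  have hK : (Nat.card K : ℂ) ≠ 0 := by
    exact_mod_cast (Nat.card_pos (α := K)).ne'
  have h3 := mul_left_cancel₀ hK h1
  rw [h3]
  have e1 : (q : ℂ) + 1 = 4 * (m : ℂ) := by exact_mod_cast D.qm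
  have e2 : (Nat.card (Subgroup.normalizer (U : Set K)) : ℂ) * 2 = (q : ℂ) * ((q : ℂ) - 1) := by
    have h4 := D.cardNU
    have h5 : 1 ≤ q := by have := D.q27; omega
    have h6 : ((Nat.card (Subgroup.normalizer (U : Set K)) * 2 : ℕ) : ℂ) = ((q * (q - 1) : ℕ) : ℂ) := by rw [h4]
    push_cast [Nat.cast_sub h5] at h6
    exact h6
  rw [← e2, e1]
  ring

end Cfsg.Agent.H84.RtSum
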