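import Mathlib
import Cfsg.Prelude.Def_RootSubgroups
set_option autoImplicit false

/-! The involutions of `A₆` form a class of root involutions. -/

namespace Cfsg.Agent.H84.AltSix

open Cfsg Equiv

/-- a fixed double transposition -/
def d0 : Perm (Fin 6) := swap 0 1 * swap 2 3

set_option maxRecDepth 100000 in
theorem pairs : ∀ e : Perm (Fin 6), e * e = 1 → (Finset.univ.filter (fun i => e i ≠ i)).card = 4 →
   (d0 * e = e * d0) ∨ (d0*e)^3=1 ∨ (d0*e)^5=1 ∨ ((d0*e)^4=1 ∧ (d0*e)^2≠1) := by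
  decide +kernel

theorem cyc {g : Perm (Fin 6)} (hg : g ∈ alternatingGroup (Fin 6)) (h2 : orderOf g = 2) : g.cycleType = {2, 2} := by
  obtain ⟨n, hn⟩ := Perm.cycleType_prime_order (σ := g) (by rw [h2]; exact Nat.prime_two)
  rw [h2] at hn
  have hs : Perm.sign g = 1 := Perm.mem_alternatingGroup.1 hg
  rw [Perm.sign_of_cycleType, hn] at hs
  have hc : g.support.card ≤ 6 := by
    have := Finset.card_le_univ g.support
    simpa using this
  rw [← Perm.sum_cycleType, hn] at hc
  simp only [Multiset.sum_replicate, smul_eq_mul, Multiset.card_replicate] at hs hc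
  have hn3 : n ≤ 2 := by omega
  interval_cases n
  · exfalso; revert hs; decide
  · rw [hn]; rfl
  · exfalso; revert hs; decide

theorem d0_mem : d0 ∈ alternatingGroup (Fin 6) := by
  rw [Perm.mem_alternatingGroup]; decide

theorem d0_order : orderOf d0 = 2 := by
  apply orderOf_eq_prime
  · decide
  · decide

/-- `d0` in the alternating group -/
def δ : alternatingGroup (Fin 6) := ⟨d0, d0_mem⟩

abbrev D : Set (alternatingGroup (Fin 6)) := {g | orderOf g = 2}

theorem mem_D {g : alternatingGroup (Fin 6)} : g ∈ D ↔ orderOf (g : Perm (Fin 6)) = 2 := by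
  rw [Subgroup.orderOf_coe]; rfl

theorem δ_mem : δ ∈ D := mem_D.2 d0_order

theorem conj_all {a b : alternatingGroup (Fin 6)} (ha : a ∈ D) (hb : b ∈ D) : ∃ g, b = g * a * g⁻¹ := by
  have h1 := cyc a.2 (mem_D.1 ha)
  have h2 := cyc b.2 (mem_D.1 hb)
  have h3 : IsConj a b := by
    apply alternatingGroup.isConj_of
    · rw [Perm.isConj_iff_cycleType_eq, h1, h2]
    · rw [← Perm.sum_cycleType, h1]; simp
  obtain ⟨g, hg⟩ := isConj_iff.1 h3
  exact ⟨g, hg.symm⟩

theorem key {e : alternatingGroup (Fin 6)} (he : e ∈ D) :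
    (δ * e = e * δ ∨ Odd (orderOf (δ * e)) ∨ (orderOf (δ * e) = 4 ∧ (δ * e) ^ 2 ∈ D)) ∧ orderOf (δ * e) ≤ 5 := by
  have h2 := mem_D.1 he
  have hee : (e : Perm (Fin 6)) * e = 1 := by
    have := pow_orderOf_eq_one (e : Perm (Fin 6))
    rwa [h2, pow_two] at this
  have hcard : (Finset.univ.filter (fun i => (e : Perm (Fin 6)) i ≠ i)).card = 4 := by
    have h3 : (e : Perm (Fin 6)).support.card = 4 := by
      rw [← Perm.sum_cycleType, cyc e.2 h2]; rfl
    rw [← h3]
    congr 1
  have hpow : ∀ n : ℕ, (d0 * (e : Perm (Fin 6))) ^ n = 1 → (δ * e) ^ n = 1 := by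
    intro n hn
    apply Subtype.ext
    rw [Subgroup.coe_pow]
    exact hn
  rcases pairs e hee hcard with h | h | h | ⟨h, h'⟩
  · have h4 : δ * e = e * δ := Subtype.ext h
    refine ⟨Or.inl h4, ?_⟩
    have h5 : (δ * e) ^ 2 = 1 := by
      have hdd : δ * δ = 1 := Subtype.ext (by decide : d0 * d0 = 1)
      have hee' : e * e = 1 := Subtype.ext hee
      rw [pow_two]
      calc δ * e * (δ * e) = δ * (e * δ) * e := by group
        _ = δ * δ * (e * e) := by rw [← h4]; group
        _ = 1 := by rw [hdd, hee', one_mul]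
    have := Nat.le_of_dvd (by norm_num) (orderOf_dvd_of_pow_eq_one h5)
    omega
  · have h4 := orderOf_dvd_of_pow_eq_one (hpow 3 h)
    refine ⟨Or.inr (Or.inl ?_), (Nat.le_of_dvd (by norm_num) h4).trans (by norm_num)⟩
    exact Odd.of_dvd_nat (by decide) h4
  · have h4 := orderOf_dvd_of_pow_eq_one (hpow 5 h)
    refine ⟨Or.inr (Or.inl ?_), (Nat.le_of_dvd (by norm_num) h4).trans (by norm_num)⟩
    exact Odd.of_dvd_nat (by decide) h4
  · have h4 := hpow 4 h
    have h5 : (δ * e) ^ 2 ≠ 1 := by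
      intro h6
      apply h'
      have := congrArg Subtype.val h6
      rwa [Subgroup.coe_pow] at this
    have h6 : orderOf (δ * e) = 4 := by
      have : orderOf (δ * e) = 2 ^ (1 + 1) := orderOf_eq_prime_pow (by simpa using h5) (by simpa using h4)
      simpa using this
    refine ⟨Or.inr (Or.inr ⟨h6, ?_⟩), by omega⟩
    show orderOf ((δ * e) ^ 2) = 2
    rw [orderOf_pow, h6]; norm_num

theorem conj_order (g x : alternatingGroup (Fin 6)) : orderOf (g * x * g⁻¹) = orderOf x := by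
  have := orderOf_injective (MulAut.conj g).toMonoidHom (MulAut.conj g).injective x
  simpa using this

theorem conj_D {d g : alternatingGroup (Fin 6)} (hd : d ∈ D) : g * d * g⁻¹ ∈ D := by
  show orderOf (g * d * g⁻¹) = 2
  rw [conj_order]; exact hd

theorem key' {a b : alternatingGroup (Fin 6)} (ha : a ∈ D) (hb : b ∈ D) :
    (a * b = b * a ∨ Odd (orderOf (a * b)) ∨ (orderOf (a * b) = 4 ∧ (a * b) ^ 2 ∈ D)) ∧ orderOf (a * b) ≤ 5 := by
  obtain ⟨g, rfl⟩ := conj_all δ_mem ha
  have hb' : g⁻¹ * b * g ∈ D := by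
    have := conj_D (g := g⁻¹) hb
    rwa [inv_inv] at this
  obtain ⟨e, he⟩ : ∃ e, e = g⁻¹ * b * g := ⟨_, rfl⟩
  have hbe : b = g * e * g⁻¹ := by rw [he]; group
  rw [← he] at hb'
  have e1 : g * δ * g⁻¹ * b = g * (δ * e) * g⁻¹ := by rw [hbe]; group
  rw [e1, conj_order, conj_pow]
  obtain ⟨h1, h2⟩ := key hb'
  refine ⟨?_, h2⟩
  rcases h1 with h | h | ⟨h, h'⟩
  · left
    rw [h, hbe]; group
  · exact Or.inr (Or.inl h)
  · exact Or.inr (Or.inr ⟨h, conj_D h'⟩)

theorem main : IsRootInvolutionClass D ∧ ∀ d ∈ D, ∀ e ∈ D, orderOf (d * e) ≤ 5 := by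
  refine ⟨⟨⟨fun d hd => hd, ?_, fun d hd g => conj_D hd, fun a ha b hb => (key' ha hb).1⟩, ⟨δ, δ_mem⟩, fun a ha b hb => conj_all ha hb⟩,
    fun d hd e he => (key' hd he).2⟩
  have hsimple : IsSimpleGroup (alternatingGroup (Fin 6)) := alternatingGroup.isSimpleGroup (by simp)
  have hn : (Subgroup.closure D).Normal := by
    refine ⟨fun x hx g => ?_⟩
    induction hx using Subgroup.closure_induction with
    | mem x hx => exact Subgroup.subset_closure (conj_D hx)
    | one => simp
    | mul x y _ _ hx hy =>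
      have : g * (x * y) * g⁻¹ = (g * x * g⁻¹) * (g * y * g⁻¹) := by group
      rw [this]; exact mul_mem hx hy
    | inv x _ hx =>
      have : g * x⁻¹ * g⁻¹ = (g * x * g⁻¹)⁻¹ := by group
      rw [this]; exact inv_mem hx
  rcases hn.eq_bot_or_eq_top with h | h
  · exfalso
    have h1 : δ ∈ Subgroup.closure D := Subgroup.subset_closure δ_mem
    rw [h, Subgroup.mem_bot] at h1
    have h2 : orderOf δ = 2 := δ_mem
    rw [h1, orderOf_one] at h2
    omega
  · exact h

end Cfsg.Agent.H84.AltSix
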