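import Mathlib
import Cfsg.Prelude.Def_RootSubgroups
set_option autoImplicit false

/-! Basic facts about quadratic elements of `GL(M)` and the subgroups `E(σ)`. -/

namespace Cfsg.Agent.H84

open Cfsg

variable {k : Type*} [Field k] {M : Type*} [AddCommGroup M] [Module k M]

/-- the element `1 + x` of GL(M) for `x * x = 0`. -/
def unip (x : M →ₗ[k] M) (hx : x * x = 0) : LinearMap.GeneralLinearGroup k M where
  val := 1 + x
  inv := 1 - x
  val_inv := by
    have : (1 + x) * (1 - x) = 1 - x * x := by noncomm_ring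
    rw [this, hx, sub_zero]
  inv_val := by
    have : (1 - x) * (1 + x) = 1 - x * x := by noncomm_ring
    rw [this, hx, sub_zero]

@[simp] theorem unip_val (x : M →ₗ[k] M) (hx : x * x = 0) :
    ((unip x hx : LinearMap.GeneralLinearGroup k M) : M →ₗ[k] M) = 1 + x := rfl

theorem smul_sq_zero {x : M →ₗ[k] M} (hx : x * x = 0) (c : k) : (c • x) * (c • x) = 0 := by
  rw [smul_mul_smul_comm, hx, smul_zero]

theorem mul_sub_one {σ τ : LinearMap.GeneralLinearGroup k M}
    (h : ((σ : M →ₗ[k] M) - 1) * ((τ : M →ₗ[k] M) - 1) = 0) :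
    ((σ * τ : LinearMap.GeneralLinearGroup k M) : M →ₗ[k] M) - 1 =
      ((σ : M →ₗ[k] M) - 1) + ((τ : M →ₗ[k] M) - 1) := by
  have h1 : ((σ * τ : LinearMap.GeneralLinearGroup k M) : M →ₗ[k] M) - 1 =
      ((σ : M →ₗ[k] M) - 1) * ((τ : M →ₗ[k] M) - 1) + (((σ : M →ₗ[k] M) - 1) + ((τ : M →ₗ[k] M) - 1)) := by
    rw [Units.val_mul]; noncomm_ring
  rw [h1, h, zero_add]

theorem inv_sub_one {σ : LinearMap.GeneralLinearGroup k M}
    (h : ((σ : M →ₗ[k] M) - 1) * ((σ : M →ₗ[k] M) - 1) = 0) :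
    ((σ⁻¹ : LinearMap.GeneralLinearGroup k M) : M →ₗ[k] M) - 1 = -((σ : M →ₗ[k] M) - 1) := by
  have h1 : (σ : M →ₗ[k] M) * (1 + 1 - (σ : M →ₗ[k] M)) = 1 := by
    have : (σ : M →ₗ[k] M) * (1 + 1 - (σ : M →ₗ[k] M)) =
      1 - ((σ : M →ₗ[k] M) - 1) * ((σ : M →ₗ[k] M) - 1) := by noncomm_ring
    rw [this, h, sub_zero]
  have h2 : ((σ⁻¹ : LinearMap.GeneralLinearGroup k M) : M →ₗ[k] M) = 1 + 1 - (σ : M →ₗ[k] M) := by
    rw [Units.inv_eq_of_mul_eq_one_right h1]
  rw [h2]; noncomm_ring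

theorem range_le_ker {x : M →ₗ[k] M} (hx : x * x = 0) : LinearMap.range x ≤ LinearMap.ker x := by
  rintro _ ⟨m, rfl⟩
  exact LinearMap.congr_fun hx m

theorem mul_eq_zero_of {x y : M →ₗ[k] M} (h : LinearMap.range y ≤ LinearMap.ker x) : x * y = 0 := by
  ext m
  exact h ⟨m, rfl⟩

theorem mem_of_scalarFamily {G : Subgroup (LinearMap.GeneralLinearGroup k M)}
    {σ : LinearMap.GeneralLinearGroup k M} (hσ : σ ∈ quadraticElements G) (c : k)
    (h : (c • ((σ : M →ₗ[k] M) - 1)) * (c • ((σ : M →ₗ[k] M) - 1)) = 0) :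
    unip (c • ((σ : M →ₗ[k] M) - 1)) h ∈ G :=
  hσ.2.2 ⟨c, rfl⟩

theorem quad_of_eq {G : Subgroup (LinearMap.GeneralLinearGroup k M)}
    {σ τ υ : LinearMap.GeneralLinearGroup k M} (hσ : σ ∈ quadraticElements G) (hτ : τ ∈ quadraticElements G)
    (hυ : (υ : M →ₗ[k] M) - 1 = ((σ : M →ₗ[k] M) - 1) + ((τ : M →ₗ[k] M) - 1))
    (hστ : ((σ : M →ₗ[k] M) - 1) * ((τ : M →ₗ[k] M) - 1) = 0)
    (hτσ : ((τ : M →ₗ[k] M) - 1) * ((σ : M →ₗ[k] M) - 1) = 0) (hυ1 : υ ≠ 1) :
    υ ∈ quadraticElements G := by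
  have hσ2 := hσ.2.1.1
  have hτ2 := hτ.2.1.1
  set x := (σ : M →ₗ[k] M) - 1 with hx
  set y := (τ : M →ₗ[k] M) - 1 with hy
  have key : ∀ c : k, ∀ ρ : LinearMap.GeneralLinearGroup k M, (ρ : M →ₗ[k] M) = 1 + c • (x + y) → ρ ∈ G := by
    intro c ρ hρ
    have e1 := mem_of_scalarFamily hσ c (smul_sq_zero hσ2 c)
    have e2 := mem_of_scalarFamily hτ c (smul_sq_zero hτ2 c)
    have e3 : ρ = unip (c • ((σ : M →ₗ[k] M) - 1)) (smul_sq_zero hσ2 c) *
        unip (c • ((τ : M →ₗ[k] M) - 1)) (smul_sq_zero hτ2 c) := by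
      apply Units.ext
      rw [Units.val_mul, unip_val, unip_val, hρ, ← hx, ← hy]
      have : (1 + c • x) * (1 + c • y) = 1 + c • (x + y) + (c * c) • (x * y) := by
        rw [mul_add, add_mul, add_mul, smul_mul_smul_comm, smul_add]; simp only [one_mul, mul_one]; abel
      rw [this, hστ, smul_zero, add_zero]
    rw [e3]
    exact mul_mem e1 e2
  refine ⟨key 1 υ ?_, ⟨?_, ?_⟩, ?_⟩
  · rw [one_smul, ← hυ]; abel
  · rw [hυ]
    have : (x + y) * (x + y) = x * x + x * y + y * x + y * y := by noncomm_ring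
    rw [this, hσ2, hτ2, hστ, hτσ]; simp
  · intro h
    apply hυ1
    apply Units.ext
    rw [sub_eq_zero] at h
    rw [h]; rfl
  · rintro ρ ⟨c, hc⟩
    apply key c ρ
    rw [hc, hυ]

theorem inv_quad {G : Subgroup (LinearMap.GeneralLinearGroup k M)}
    {σ : LinearMap.GeneralLinearGroup k M} (hσ : σ ∈ quadraticElements G) : σ⁻¹ ∈ quadraticElements G := by
  have h := inv_sub_one hσ.2.1.1
  refine ⟨inv_mem hσ.1, ⟨?_, ?_⟩, ?_⟩
  · rw [h, neg_mul_neg]; exact hσ.2.1.1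
  · rw [h, neg_ne_zero]; exact hσ.2.1.2
  · rintro ρ ⟨c, hc⟩
    apply hσ.2.2
    refine ⟨-c, ?_⟩
    rw [hc, h, smul_neg, neg_smul]

theorem inv_sameAction {G : Subgroup (LinearMap.GeneralLinearGroup k M)}
    {σ τ : LinearMap.GeneralLinearGroup k M} (hτ : τ ∈ sameActionClass G σ) : τ⁻¹ ∈ sameActionClass G σ := by
  obtain ⟨⟨h1, h2⟩, h3, h4⟩ := hτ
  have h := inv_sub_one h1.2.1.1
  refine ⟨⟨inv_quad h1, ?_⟩, ?_, ?_⟩
  · intro ρ hρ
    have := h2 ρ hρ
    unfold commutatorRank at this ⊢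
    rwa [h, LinearMap.range_neg]
  · rw [h, LinearMap.ker_neg, h3]
  · rw [h, LinearMap.range_neg, h4]

theorem sameAction_mul_zero {G : Subgroup (LinearMap.GeneralLinearGroup k M)}
    {σ τ υ : LinearMap.GeneralLinearGroup k M} (hτ : τ ∈ sameActionClass G σ) (hυ : υ ∈ sameActionClass G σ) :
    ((τ : M →ₗ[k] M) - 1) * ((υ : M →ₗ[k] M) - 1) = 0 := by
  apply mul_eq_zero_of
  rw [hυ.2.2, ← hτ.2.2]
  exact range_le_ker hτ.1.1.2.1.1

theorem sameAction_mul [FiniteDimensional k M] {G : Subgroup (LinearMap.GeneralLinearGroup k M)}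
    {σ τ υ : LinearMap.GeneralLinearGroup k M} (hτ : τ ∈ sameActionClass G σ) (hυ : υ ∈ sameActionClass G σ)
    (hne : τ * υ ≠ 1) : τ * υ ∈ sameActionClass G σ := by
  have h0 := sameAction_mul_zero hτ hυ
  have h0' := sameAction_mul_zero hυ hτ
  have h1 := mul_sub_one h0
  have hq := quad_of_eq hτ.1.1 hυ.1.1 h1 h0 h0' hne
  have hr : LinearMap.range (((τ * υ : LinearMap.GeneralLinearGroup k M) : M →ₗ[k] M) - 1) ≤
      LinearMap.range ((σ : M →ₗ[k] M) - 1) := by
    rw [h1]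
    rintro _ ⟨m, rfl⟩
    rw [LinearMap.add_apply]
    refine add_mem ?_ ?_
    · rw [← hτ.2.2]; exact ⟨m, rfl⟩
    · rw [← hυ.2.2]; exact ⟨m, rfl⟩
  have hk : LinearMap.ker ((σ : M →ₗ[k] M) - 1) ≤
      LinearMap.ker (((τ * υ : LinearMap.GeneralLinearGroup k M) : M →ₗ[k] M) - 1) := by
    rw [h1]
    intro m hm
    have a1 : m ∈ LinearMap.ker ((τ : M →ₗ[k] M) - 1) := by rw [hτ.2.1]; exact hm
    have a2 : m ∈ LinearMap.ker ((υ : M →ₗ[k] M) - 1) := by rw [hυ.2.1]; exact hm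
    rw [LinearMap.mem_ker] at a1 a2 ⊢
    rw [LinearMap.add_apply, a1, a2, add_zero]
  have hmin := hτ.1.2 _ hq
  unfold commutatorRank at hmin
  rw [hτ.2.2] at hmin
  have hreq : LinearMap.range (((τ * υ : LinearMap.GeneralLinearGroup k M) : M →ₗ[k] M) - 1) =
      LinearMap.range ((σ : M →ₗ[k] M) - 1) := Submodule.eq_of_le_of_finrank_le hr hmin
  refine ⟨⟨hq, ?_⟩, ?_, hreq⟩
  · intro ρ hρ
    unfold commutatorRank
    rw [hreq, ← hτ.2.2]
    exact hτ.1.2 ρ hρ
  · symm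
    apply Submodule.eq_of_le_of_finrank_le hk
    have e1 := LinearMap.finrank_range_add_finrank_ker ((σ : M →ₗ[k] M) - 1)
    have e2 := LinearMap.finrank_range_add_finrank_ker (((τ * υ : LinearMap.GeneralLinearGroup k M) : M →ₗ[k] M) - 1)
    rw [hreq] at e2
    omega

theorem sameAction_comm {G : Subgroup (LinearMap.GeneralLinearGroup k M)}
    {σ τ υ : LinearMap.GeneralLinearGroup k M} (hτ : τ ∈ sameActionClass G σ) (hυ : υ ∈ sameActionClass G σ) :
    τ * υ = υ * τ := by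
  have h1 := mul_sub_one (sameAction_mul_zero hτ hυ)
  have h2 := mul_sub_one (sameAction_mul_zero hυ hτ)
  apply Units.ext
  rw [← sub_left_inj (a := (1 : M →ₗ[k] M)), h1, h2, add_comm]

/-- `E(σ) = E_σ ∪ {1}` -/
theorem sameActionSubgroup_coe [FiniteDimensional k M] {G : Subgroup (LinearMap.GeneralLinearGroup k M)}
    (σ : LinearMap.GeneralLinearGroup k M) :
    (sameActionSubgroup G σ : Set (LinearMap.GeneralLinearGroup k M)) = sameActionClass G σ ∪ {1} := by
  apply Set.Subset.antisymm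
  · intro x hx
    refine Subgroup.closure_induction (p := fun x _ => x ∈ sameActionClass G σ ∪ {1}) ?_ ?_ ?_ ?_ hx
    · intro x hx; exact Or.inl hx
    · exact Or.inr rfl
    · intro x y _ _ hx hy
      by_cases hxy : x * y = 1
      · exact Or.inr hxy
      rcases hx with hx | hx
      · rcases hy with hy | hy
        · exact Or.inl (sameAction_mul hx hy hxy)
        · rw [Set.mem_singleton_iff.mp hy, mul_one]; exact Or.inl hx
      · rw [Set.mem_singleton_iff.mp hx, one_mul]; exact hy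
    · intro x _ hx
      rcases hx with hx | hx
      · exact Or.inl (inv_sameAction hx)
      · rw [Set.mem_singleton_iff.mp hx, inv_one]; exact Or.inr rfl
  · rintro x (hx | hx)
    · exact Subgroup.subset_closure hx
    · rw [Set.mem_singleton_iff.mp hx]; exact one_mem _

theorem pow_sub_one' {σ : LinearMap.GeneralLinearGroup k M}
    (h : ((σ : M →ₗ[k] M) - 1) * ((σ : M →ₗ[k] M) - 1) = 0) (n : ℕ) :
    ((σ ^ n : LinearMap.GeneralLinearGroup k M) : M →ₗ[k] M) - 1 = n • ((σ : M →ₗ[k] M) - 1) := by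
  induction n with
  | zero => simp
  | succ n ih =>
    rw [pow_succ, mul_sub_one, ih, succ_nsmul]
    rw [ih, smul_mul_assoc, h, smul_zero]

theorem sameActionSubgroup_comm [FiniteDimensional k M] {G : Subgroup (LinearMap.GeneralLinearGroup k M)}
    (σ : LinearMap.GeneralLinearGroup k M) {x y : LinearMap.GeneralLinearGroup k M}
    (hx : x ∈ sameActionSubgroup G σ) (hy : y ∈ sameActionSubgroup G σ) : x * y = y * x := by
  have hx' : x ∈ sameActionClass G σ ∪ {1} := by rw [← sameActionSubgroup_coe]; exact hx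
  have hy' : y ∈ sameActionClass G σ ∪ {1} := by rw [← sameActionSubgroup_coe]; exact hy
  rcases hx' with hx | hx
  · rcases hy' with hy | hy
    · exact sameAction_comm hx hy
    · rw [Set.mem_singleton_iff.mp hy, mul_one, one_mul]
  · rw [Set.mem_singleton_iff.mp hx, mul_one, one_mul]

theorem sameActionSubgroup_pow [FiniteDimensional k M] {G : Subgroup (LinearMap.GeneralLinearGroup k M)}
    (σ : LinearMap.GeneralLinearGroup k M) {x : LinearMap.GeneralLinearGroup k M}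
    (hx : x ∈ sameActionSubgroup G σ) (p : ℕ) (hp : ringChar k = p) : x ^ p = 1 := by
  have hx' : x ∈ sameActionClass G σ ∪ {1} := by rw [← sameActionSubgroup_coe]; exact hx
  rcases hx' with hx | hx
  · have h := pow_sub_one' hx.1.1.2.1.1 p
    apply Units.ext
    rw [← sub_eq_zero, Units.val_one, h, ← Nat.cast_smul_eq_nsmul k, ← hp, ringChar.Nat.cast_ringChar, zero_smul]
  · rw [Set.mem_singleton_iff.mp hx, one_pow]

end Cfsg.Agent.H84
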