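import Mathlib
import Cfsg.Prelude.Def_RootSubgroups
import Cfsg.Agent.H84.Quad
set_option autoImplicit false

/-! Quadratic families `1 + k x` in a linear group: basic calculus (used for quadratic pairs). -/

namespace Cfsg.Agent.H84.QP

open Cfsg

variable {k : Type*} [Field k] {M : Type*} [AddCommGroup M] [Module k M]

/-- `x² = 0` and `1 + k x ⊆ G` -/
def Fam (G : Subgroup (LinearMap.GeneralLinearGroup k M)) (x : M →ₗ[k] M) : Prop :=
  x * x = 0 ∧ ∀ c : k, ∃ g ∈ G, (g : M →ₗ[k] M) = 1 + c • x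

/-- the rank of an endomorphism -/
noncomputable def rk (x : M →ₗ[k] M) : ℕ := Module.finrank k (LinearMap.range x)

/-- families of minimal rank -/
def Root (G : Subgroup (LinearMap.GeneralLinearGroup k M)) (a : M →ₗ[k] M) : Prop :=
  Fam G a ∧ a ≠ 0 ∧ ∀ x, Fam G x → x ≠ 0 → rk a ≤ rk x

variable {G : Subgroup (LinearMap.GeneralLinearGroup k M)}

theorem Fam.unip_mem {x : M →ₗ[k] M} (h : Fam G x) (c : k) (h2 : (c • x) * (c • x) = 0) :
    unip (c • x) h2 ∈ G := by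
  obtain ⟨g, hg, hg'⟩ := h.2 c
  have : unip (c • x) h2 = g := Units.ext (by rw [unip_val, hg'])
  rw [this]; exact hg

theorem Fam.unip_mem' {x : M →ₗ[k] M} (h : Fam G x) : unip x h.1 ∈ G := by
  obtain ⟨g, hg, hg'⟩ := h.2 1
  rw [one_smul] at hg'
  have : unip x h.1 = g := Units.ext (by rw [unip_val, hg'])
  rw [this]; exact hg

theorem Fam.zero : Fam G (0 : M →ₗ[k] M) :=
  ⟨by simp, fun c => ⟨1, one_mem _, by simp⟩⟩

theorem Fam.smul {x : M →ₗ[k] M} (h : Fam G x) (c : k) : Fam G (c • x) := by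
  refine ⟨smul_sq_zero h.1 c, fun d => ?_⟩
  obtain ⟨g, hg, hg'⟩ := h.2 (d * c)
  exact ⟨g, hg, by rw [hg', mul_smul]⟩

theorem Fam.neg {x : M →ₗ[k] M} (h : Fam G x) : Fam G (-x) := by
  have := h.smul (-1)
  rwa [neg_smul, one_smul] at this

theorem Fam.of_smul {x : M →ₗ[k] M} {c : k} (hc : c ≠ 0) (h : Fam G (c • x)) : Fam G x := by
  have := h.smul c⁻¹
  rwa [smul_smul, inv_mul_cancel₀ hc, one_smul] at this

theorem Fam.add {x y : M →ₗ[k] M} (hx : Fam G x) (hy : Fam G y) (hxy : x * y = 0) (hyx : y * x = 0) :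
    Fam G (x + y) := by
  refine ⟨by rw [add_mul, mul_add, mul_add, hx.1, hy.1, hxy, hyx]; simp, fun c => ?_⟩
  obtain ⟨g, hg, hg'⟩ := hx.2 c
  obtain ⟨h, hh, hh'⟩ := hy.2 c
  refine ⟨g * h, mul_mem hg hh, ?_⟩
  rw [Units.val_mul, hg', hh', mul_add, add_mul, add_mul, smul_mul_smul_comm, hxy, smul_add]
  simp only [one_mul, mul_one, smul_zero, add_zero]; abel

theorem Fam.sub {x y : M →ₗ[k] M} (hx : Fam G x) (hy : Fam G y) (hxy : x * y = 0) (hyx : y * x = 0) :
    Fam G (x - y) := by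
  rw [sub_eq_add_neg]
  exact hx.add hy.neg (by rw [mul_neg, hxy, neg_zero]) (by rw [neg_mul, hyx, neg_zero])

theorem Fam.conj {x : M →ₗ[k] M} (h : Fam G x) {g : LinearMap.GeneralLinearGroup k M} (hg : g ∈ G) :
    Fam G ((g : M →ₗ[k] M) * x * ((g⁻¹ : LinearMap.GeneralLinearGroup k M) : M →ₗ[k] M)) := by
  have e : ((g⁻¹ : LinearMap.GeneralLinearGroup k M) : M →ₗ[k] M) * (g : M →ₗ[k] M) = 1 := by
    rw [← Units.val_mul, inv_mul_cancel, Units.val_one]
  have e' : (g : M →ₗ[k] M) * ((g⁻¹ : LinearMap.GeneralLinearGroup k M) : M →ₗ[k] M) = 1 := by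
    rw [← Units.val_mul, mul_inv_cancel, Units.val_one]
  refine ⟨?_, fun c => ?_⟩
  · calc (g : M →ₗ[k] M) * x * ((g⁻¹ : LinearMap.GeneralLinearGroup k M) : M →ₗ[k] M) *
        ((g : M →ₗ[k] M) * x * ((g⁻¹ : LinearMap.GeneralLinearGroup k M) : M →ₗ[k] M))
        = (g : M →ₗ[k] M) * x * (((g⁻¹ : LinearMap.GeneralLinearGroup k M) : M →ₗ[k] M) * (g : M →ₗ[k] M)) * x *
          ((g⁻¹ : LinearMap.GeneralLinearGroup k M) : M →ₗ[k] M) := by noncomm_ring
      _ = (g : M →ₗ[k] M) * (x * x) * ((g⁻¹ : LinearMap.GeneralLinearGroup k M) : M →ₗ[k] M) := by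
          rw [e]; noncomm_ring
      _ = 0 := by rw [h.1]; simp
  · obtain ⟨t, ht, ht'⟩ := h.2 c
    refine ⟨g * t * g⁻¹, mul_mem (mul_mem hg ht) (inv_mem hg), ?_⟩
    rw [Units.val_mul, Units.val_mul, ht', mul_add, add_mul, mul_one, e', mul_smul_comm, smul_mul_assoc]

theorem unip_inv (x : M →ₗ[k] M) (hx : x * x = 0) :
    (((unip x hx)⁻¹ : LinearMap.GeneralLinearGroup k M) : M →ₗ[k] M) = 1 - x := rfl

theorem Fam.conj1 {x y : M →ₗ[k] M} (hx : Fam G x) (hy : Fam G y) :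
    Fam G ((1 + y) * x * (1 - y)) := by
  have := hx.conj hy.unip_mem'
  rwa [unip_inv, unip_val] at this

/-- commutators of two non-opposite families -/
theorem Fam.comm {a b : M →ₗ[k] M} (ha : Fam G a) (hb : Fam G b) (h1 : a * b * a = 0) (h2 : b * a * b = 0) :
    Fam G (a * b - b * a) := by
  have ha2 := ha.1
  have hb2 := hb.1
  refine ⟨?_, fun c => ?_⟩
  · have : (a * b - b * a) * (a * b - b * a) =
        (a * b * a) * b - a * (b * b) * a - b * (a * a) * b + (b * a * b) * a := by noncomm_ring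
    rw [this, h1, h2, ha2, hb2]; simp
  · obtain ⟨g, hg, hg'⟩ := ha.2 c
    obtain ⟨h, hh, hh'⟩ := hb.2 1
    obtain ⟨g', hg1, hg1'⟩ := ha.2 (-c)
    obtain ⟨h', hh1, hh1'⟩ := hb.2 (-1)
    refine ⟨g * h * g' * h', mul_mem (mul_mem (mul_mem hg hh) hg1) hh1, ?_⟩
    rw [Units.val_mul, Units.val_mul, Units.val_mul, hg', hh', hg1', hh1']
    set u := c • a with hu
    have hu2 : u * u = 0 := by rw [hu]; exact smul_sq_zero ha2 c
    have hub : u * b * u = 0 := by
      rw [hu, smul_mul_assoc, smul_mul_smul_comm, h1, smul_zero]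
    have hbu : b * u * b = 0 := by
      rw [hu, mul_smul_comm, smul_mul_assoc, h2, smul_zero]
    have e1 : c • (a * b - b * a) = u * b - b * u := by
      rw [hu, smul_sub, smul_mul_assoc, mul_smul_comm]
    rw [e1, neg_smul, ← hu, one_smul, neg_smul, one_smul]
    have : (1 + u) * (1 + b) * (1 + -u) * (1 + -b) =
        1 + (u * b - b * u) - u * u - b * b + (u * u) * b + b * u * b - u * b * u - u * (b * b) + (u * b * u) * b := by
      noncomm_ring
    rw [this, hu2, hb2, hub, hbu]; simp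

theorem rk_mul_le_left [FiniteDimensional k M] (x y : M →ₗ[k] M) : rk (x * y) ≤ rk x :=
  Submodule.finrank_mono (by rintro _ ⟨m, rfl⟩; exact ⟨y m, rfl⟩)

theorem rk_mul_le_right [FiniteDimensional k M] (x y : M →ₗ[k] M) : rk (x * y) ≤ rk y := by
  have : LinearMap.range (x * y) = (LinearMap.range y).map x := LinearMap.range_comp y x
  unfold rk
  rw [this]
  exact Submodule.finrank_map_le x _

theorem rk_conj [FiniteDimensional k M] (g : LinearMap.GeneralLinearGroup k M) (x : M →ₗ[k] M) :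
    rk ((g : M →ₗ[k] M) * x * ((g⁻¹ : LinearMap.GeneralLinearGroup k M) : M →ₗ[k] M)) = rk x := by
  apply le_antisymm
  · exact (rk_mul_le_left _ _).trans (rk_mul_le_right _ _)
  · have e : ((g⁻¹ : LinearMap.GeneralLinearGroup k M) : M →ₗ[k] M) * (g : M →ₗ[k] M) = 1 := by
      rw [← Units.val_mul, inv_mul_cancel, Units.val_one]
    have : x = ((g⁻¹ : LinearMap.GeneralLinearGroup k M) : M →ₗ[k] M) *
        ((g : M →ₗ[k] M) * x * ((g⁻¹ : LinearMap.GeneralLinearGroup k M) : M →ₗ[k] M)) * (g : M →ₗ[k] M) := by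
      calc x = 1 * x * 1 := by simp
        _ = _ := by rw [← e]; noncomm_ring
    conv_lhs => rw [this]
    exact (rk_mul_le_left _ _).trans (rk_mul_le_right _ _)

theorem Root.conj [FiniteDimensional k M] {a : M →ₗ[k] M} (h : Root G a)
    {g : LinearMap.GeneralLinearGroup k M} (hg : g ∈ G) :
    Root G ((g : M →ₗ[k] M) * a * ((g⁻¹ : LinearMap.GeneralLinearGroup k M) : M →ₗ[k] M)) := by
  refine ⟨h.1.conj hg, fun h0 => h.2.1 ?_, fun x hx hx0 => ?_⟩
  · have e : ((g⁻¹ : LinearMap.GeneralLinearGroup k M) : M →ₗ[k] M) * (g : M →ₗ[k] M) = 1 := by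
      rw [← Units.val_mul, inv_mul_cancel, Units.val_one]
    calc a = 1 * a * 1 := by simp
      _ = ((g⁻¹ : LinearMap.GeneralLinearGroup k M) : M →ₗ[k] M) *
        ((g : M →ₗ[k] M) * a * ((g⁻¹ : LinearMap.GeneralLinearGroup k M) : M →ₗ[k] M)) * (g : M →ₗ[k] M) := by
          rw [← e]; noncomm_ring
      _ = 0 := by rw [h0]; simp
  · rw [rk_conj]; exact h.2.2 x hx hx0

theorem Root.conj1 [FiniteDimensional k M] {a y : M →ₗ[k] M} (h : Root G a) (hy : Fam G y) :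
    Root G ((1 + y) * a * (1 - y)) := by
  have := h.conj hy.unip_mem'
  rwa [unip_inv, unip_val] at this

theorem Root.of_rk_le {a x : M →ₗ[k] M} (h : Root G a) (hx : Fam G x) (hx0 : x ≠ 0) (hle : rk x ≤ rk a) :
    Root G x :=
  ⟨hx, hx0, fun y hy hy0 => hle.trans (h.2.2 y hy hy0)⟩

theorem Root.rk_eq {a x : M →ₗ[k] M} (h : Root G a) (hx : Root G x) : rk a = rk x :=
  le_antisymm (h.2.2 x hx.1 hx.2.1) (hx.2.2 a h.1 h.2.1)

/-- elements of `𝒬(G)` -/
theorem mem_quadraticElements_iff {σ : LinearMap.GeneralLinearGroup k M} :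
    σ ∈ quadraticElements G ↔ Fam G ((σ : M →ₗ[k] M) - 1) ∧ (σ : M →ₗ[k] M) - 1 ≠ 0 := by
  constructor
  · rintro ⟨h1, h2, h3⟩
    refine ⟨⟨h2.1, fun c => ?_⟩, h2.2⟩
    have hh := smul_sq_zero h2.1 c
    refine ⟨unip _ hh, h3 ⟨c, rfl⟩, rfl⟩
  · rintro ⟨h1, h2⟩
    refine ⟨?_, ⟨h1.1, h2⟩, ?_⟩
    · obtain ⟨g, hg, hg'⟩ := h1.2 1
      have : σ = g := Units.ext (by rw [hg', one_smul]; abel)
      rw [this]; exact hg
    · rintro τ ⟨c, hc⟩
      obtain ⟨g, hg, hg'⟩ := h1.2 c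
      have : τ = g := Units.ext (by rw [hg', hc])
      rw [this]; exact hg

theorem mem_minimal_iff {σ : LinearMap.GeneralLinearGroup k M} :
    σ ∈ minimalQuadraticElements G ↔ Root G ((σ : M →ₗ[k] M) - 1) := by
  constructor
  · rintro ⟨h1, h2⟩
    obtain ⟨h3, h4⟩ := mem_quadraticElements_iff.1 h1
    refine ⟨h3, h4, fun x hx hx0 => ?_⟩
    have h5 : (unip x hx.1) ∈ quadraticElements G := by
      rw [mem_quadraticElements_iff, unip_val, add_sub_cancel_left]
      exact ⟨hx, hx0⟩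
    have h6 := h2 _ h5
    unfold commutatorRank at h6
    rwa [unip_val, add_sub_cancel_left] at h6
  · rintro ⟨h1, h2, h3⟩
    refine ⟨mem_quadraticElements_iff.2 ⟨h1, h2⟩, fun τ hτ => ?_⟩
    obtain ⟨h4, h5⟩ := mem_quadraticElements_iff.1 hτ
    exact h3 _ h4 h5

theorem unip_mem_minimal {a : M →ₗ[k] M} (h : Root G a) : unip a h.1.1 ∈ minimalQuadraticElements G := by
  rw [mem_minimal_iff, unip_val, add_sub_cancel_left]; exact h

end Cfsg.Agent.H84.QP
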