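import Mathlib
import Cfsg.Agent.H84.QP1
set_option autoImplicit false

/-! Quadratic pairs: the relation between a minimal family and an arbitrary family. -/

namespace Cfsg.Agent.H84.QP

open Cfsg

variable {k : Type*} [Field k] {M : Type*} [AddCommGroup M] [Module k M]
variable {G : Subgroup (LinearMap.GeneralLinearGroup k M)}

/-- `b'` is the inverse of `a` in the family of `b`. -/
structure Opp (a b b' : M →ₗ[k] M) : Prop where
  range_eq : LinearMap.range b' = LinearMap.range b
  ker_eq : LinearMap.ker b' = LinearMap.ker b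
  aba : a * b' * a = a
  bab : b' * a * b' = b'

/-- the two facts about minimal families we need -/
structure Good (G : Subgroup (LinearMap.GeneralLinearGroup k M)) : Prop where
  p1 : ∀ a b, Root G a → Root G b → (a * b * a = 0 ∧ b * a * b = 0) ∨ ∃ b', Root G b' ∧ Opp a b b'
  opp : ∀ a, Root G a → ∃ b, Root G b ∧ a * b * a ≠ 0

theorem mul_left_of_range {x y b : M →ₗ[k] M} (h : LinearMap.range y ≤ LinearMap.range b) (hx : x * b = b) :
    x * y = y := by
  ext m
  obtain ⟨n, hn⟩ := h ⟨m, rfl⟩
  have : (x * b) n = b n := by rw [hx]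
  change x (y m) = y m
  rw [← hn]; exact this

theorem mul_right_of_ker {x y b : M →ₗ[k] M} (h : LinearMap.ker b ≤ LinearMap.ker y) (hx : b * x = b) :
    y * x = y := by
  have : y * (x - 1) = 0 := by
    ext m
    have h1 : (x - 1) m ∈ LinearMap.ker b := by
      rw [LinearMap.mem_ker]
      change b (x m - m) = 0
      rw [map_sub]
      have : (b * x) m = b m := by rw [hx]
      change b (x m) = b m at this
      rw [this, sub_self]
    exact h h1
  rw [mul_sub, mul_one, sub_eq_zero] at this
  exact this

/-- commutation is inherited by inverses -/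
theorem Opp.commute {a b b' κ : M →ₗ[k] M} (h : Opp a b b') (h1 : κ * a = a * κ) (h2 : κ * b = b * κ) :
    κ * b' = b' * κ := by
  have ea : (b' * a) * b' = b' := h.bab
  have eb : b' * (a * b') = b' := by rw [← mul_assoc]; exact h.bab
  -- `b' a` is the identity on `range b'`
  have r1 : LinearMap.range (κ * b') ≤ LinearMap.range b' := by
    rw [h.range_eq]
    rintro _ ⟨m, rfl⟩
    have hm : b' m ∈ LinearMap.range b := by rw [← h.range_eq]; exact ⟨m, rfl⟩
    obtain ⟨n, hn⟩ := hm
    refine ⟨κ n, ?_⟩
    change b (κ n) = κ (b' m)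
    rw [← hn]
    have := LinearMap.congr_fun h2 n
    exact this.symm
  have r2 : LinearMap.ker b' ≤ LinearMap.ker (b' * κ) := by
    intro m hm
    have hm1 : m ∈ LinearMap.ker b := by rw [← h.ker_eq]; exact hm
    have : κ m ∈ LinearMap.ker b' := by
      rw [h.ker_eq, LinearMap.mem_ker]
      have := LinearMap.congr_fun h2 m
      change κ (b m) = b (κ m) at this
      rw [← this, LinearMap.mem_ker.1 hm1, map_zero]
    exact this
  have e1 : (b' * a) * (κ * b') = κ * b' := mul_left_of_range r1 ea
  have e2 : (b' * κ) * (a * b') = b' * κ := mul_right_of_ker r2 eb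
  calc κ * b' = b' * a * κ * b' := by rw [mul_assoc (b' * a), e1]
    _ = b' * κ * (a * b') := by rw [mul_assoc b' a κ, ← h1]; noncomm_ring
    _ = b' * κ := e2

/-- uniqueness of inverses up to scalars -/
theorem Opp.eq_mul {a b b' κ : M →ₗ[k] M} (h : Opp a b b') (h1 : κ * a = a * κ) (h2 : κ * b = b * κ)
    (h3 : a * b * a = κ * a) : b = κ * b' := by
  have ea : (b' * a) * b' = b' := h.bab
  have eb : b' * (a * b') = b' := by rw [← mul_assoc]; exact h.bab
  have e1 : (b' * a) * b = b := mul_left_of_range h.range_eq.ge ea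
  have e2 : b * (a * b') = b := mul_right_of_ker h.ker_eq.le eb
  have e3 := h.commute h1 h2
  calc b = b' * a * b * (a * b') := by rw [e1, e2]
    _ = b' * (a * b * a) * b' := by noncomm_ring
    _ = b' * κ * a * b' := by rw [h3]; noncomm_ring
    _ = κ * (b' * a * b') := by rw [← e3]; noncomm_ring
    _ = κ * b' := by rw [ea]

/-- group inverse in a ring -/
theorem group_inv {R : Type*} [Ring R] {z r : R} (hzr : z * r = r * z) (h : z * z * r = z) :
    ∃ w, z * w * z = z ∧ w * z * w = w ∧ ∀ y, z * y = y * z → w * y = y * w := by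
  have p1 : z * r * z = z := by rw [mul_assoc, ← hzr, ← mul_assoc, h]
  have p2 : z * r * (z * r) = z * r := by rw [← mul_assoc, p1]
  obtain ⟨w, hw⟩ : ∃ w, w = z * r * r := ⟨_, rfl⟩
  have zw : z * w = z * r := by rw [hw, ← mul_assoc, ← mul_assoc, h]
  have wz : w * z = z * r := by rw [hw, mul_assoc, ← hzr, p2]
  have w2 : z * w * z = z := by rw [zw, p1]
  have w3 : w * z * w = w := by rw [wz, hw, ← mul_assoc, p2]
  have w1 : z * w = w * z := zw.trans wz.symm
  refine ⟨w, w2, w3, fun y hy => ?_⟩
  have a1 : (w * z) * y = (w * z) * y * (w * z) := by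
    have : (w * z) * y * (1 - w * z) = 0 := by
      calc (w * z) * y * (1 - w * z) = w * (z * y) - w * (z * y) * w * z := by noncomm_ring
        _ = w * (y * z) - w * (y * z) * w * z := by rw [hy]
        _ = w * y * (z - z * w * z) := by noncomm_ring
        _ = 0 := by rw [w2]; simp
    rw [mul_sub, mul_one, sub_eq_zero] at this
    exact this
  have a2 : y * (w * z) = (w * z) * y * (w * z) := by
    have : (1 - z * w) * y * (w * z) = 0 := by
      calc (1 - z * w) * y * (w * z) = (1 - z * w) * y * (z * w) := by rw [← w1]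
        _ = (y * z - z * w * (y * z)) * w := by noncomm_ring
        _ = (z * y - z * w * (z * y)) * w := by rw [← hy]
        _ = (z - z * w * z) * y * w := by noncomm_ring
        _ = 0 := by rw [w2]; simp
    rw [w1, sub_mul, sub_mul, one_mul, sub_eq_zero] at this
    exact this
  have a3 : (w * z) * y = y * (w * z) := a1.trans a2.symm
  calc w * y = w * z * w * y := by rw [w3]
    _ = w * (z * w) * y := by rw [mul_assoc w z w]
    _ = w * (w * z) * y := by rw [w1]
    _ = w * ((w * z) * y) := by rw [mul_assoc w (w * z) y]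
    _ = w * (y * (w * z)) := by rw [a3]
    _ = w * y * (w * z) := by rw [mul_assoc]
    _ = w * y * (z * w) := by rw [w1]
    _ = w * (y * z) * w := by noncomm_ring
    _ = w * (z * y) * w := by rw [hy]
    _ = (w * z) * y * w := by noncomm_ring
    _ = y * (w * z) * w := by rw [a3]
    _ = y * (w * z * w) := by noncomm_ring
    _ = y * w := by rw [w3]

end Cfsg.Agent.H84.QP
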