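import Mathlib
import Cfsg.Agent.H84.QP2
set_option autoImplicit false

/-! Quadratic pairs: splitting off a minimal family from an arbitrary one. -/

namespace Cfsg.Agent.H84.QP

open Cfsg

theorem comm2 {R : Type*} [Ring R] {u v : R} (h : u * v = v * u) (y : R) : u * (v * y) = v * (u * y) := by
  rw [← mul_assoc, h, mul_assoc]

theorem zero2 {R : Type*} [Ring R] {u v : R} (h : u * v = 0) (y : R) : u * (v * y) = 0 := by
  rw [← mul_assoc, h, zero_mul]

theorem ass1 {R : Type*} [Ring R] {u v w t : R} (h : u * v * w = t) : u * (v * w) = t := by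
  rw [← mul_assoc, h]

theorem ass2 {R : Type*} [Ring R] {u v w t : R} (h : u * v * w = t) (y : R) : u * (v * (w * y)) = t * y := by
  rw [← mul_assoc, ← mul_assoc, h]

section ring
variable {R : Type*} [Ring R]

/-- `E(ρ) = (1 + ρ a) X (1 - ρ a)` -/
def EE (a X ρ : R) : R := (1 + ρ * a) * X * (1 - ρ * a)

theorem a_EE_a {a X ρ : R} (ha : a * a = 0) (haX : a * X * a = a) (h1 : ρ * a = a * ρ) :
    a * EE a X ρ * a = a := by
  unfold EE
  have e1 : a * (1 + ρ * a) = a := by rw [h1, mul_add, ← mul_assoc, ha]; simp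
  have e2 : (1 - ρ * a) * a = a := by rw [sub_mul, mul_assoc, ha]; simp
  calc a * ((1 + ρ * a) * X * (1 - ρ * a)) * a = (a * (1 + ρ * a)) * X * ((1 - ρ * a) * a) := by noncomm_ring
    _ = a := by rw [e1, e2, haX]

theorem EE_a_EE {a X ρ : R} (ha : a * a = 0) (hXa : X * a * X = X) (h1 : ρ * a = a * ρ) :
    EE a X ρ * a * EE a X ρ = EE a X ρ := by
  unfold EE
  have e1 : a * (1 + ρ * a) = a := by rw [h1, mul_add, ← mul_assoc, ha]; simp
  have e2 : (1 - ρ * a) * a = a := by rw [sub_mul, mul_assoc, ha]; simp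
  calc (1 + ρ * a) * X * (1 - ρ * a) * a * ((1 + ρ * a) * X * (1 - ρ * a))
      = (1 + ρ * a) * X * ((1 - ρ * a) * a) * (1 + ρ * a) * X * (1 - ρ * a) := by noncomm_ring
    _ = (1 + ρ * a) * X * (a * (1 + ρ * a)) * X * (1 - ρ * a) := by rw [e2]; noncomm_ring
    _ = (1 + ρ * a) * (X * a * X) * (1 - ρ * a) := by rw [e1]; noncomm_ring
    _ = _ := by rw [hXa]

theorem EE_EE_EE {a X ρ σ : R} (ha : a * a = 0) (hX : X * X = 0) (hXa : X * a * X = X)
    (h1 : ρ * a = a * ρ) (h2 : ρ * X = X * ρ) (h3 : σ * a = a * σ) (h4 : σ * X = X * σ) (h5 : ρ * σ = σ * ρ) :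
    EE a X σ * EE a X ρ * EE a X σ = -((ρ - σ) * (ρ - σ)) * EE a X σ := by
  unfold EE
  obtain ⟨δ, hδ⟩ : ∃ δ, δ = ρ - σ := ⟨_, rfl⟩
  have d1 : δ * a = a * δ := by rw [hδ, sub_mul, mul_sub, h1, h3]
  have d2 : δ * X = X * δ := by rw [hδ, sub_mul, mul_sub, h2, h4]
  have d3 : δ * σ = σ * δ := by rw [hδ, sub_mul, mul_sub, h5]
  have aa : ∀ u v : R, v * a = a * v → (u * a) * (v * a) = 0 := by
    intro u v hv
    rw [mul_assoc, hv, ← mul_assoc a, ha]; simp
  have e1 : (1 - σ * a) * (1 + ρ * a) = 1 + δ * a := by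
    have := aa σ ρ h1
    calc (1 - σ * a) * (1 + ρ * a) = 1 + (ρ - σ) * a - (σ * a) * (ρ * a) := by noncomm_ring
      _ = 1 + δ * a := by rw [this, hδ, sub_zero]
  have e2 : (1 - ρ * a) * (1 + σ * a) = 1 - δ * a := by
    have := aa ρ σ h3
    calc (1 - ρ * a) * (1 + σ * a) = 1 - (ρ - σ) * a - (ρ * a) * (σ * a) := by noncomm_ring
      _ = 1 - δ * a := by rw [this, hδ, sub_zero]
  have e3 : X * (1 + δ * a) * X = δ * X := by
    calc X * (1 + δ * a) * X = X * X + (X * δ) * a * X := by noncomm_ring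
      _ = δ * (X * a * X) := by rw [hX, ← d2]; noncomm_ring
      _ = δ * X := by rw [hXa]
  have e4 : X * (1 - δ * a) * X = - (δ * X) := by
    calc X * (1 - δ * a) * X = X * X - (X * δ) * a * X := by noncomm_ring
      _ = -(δ * (X * a * X)) := by rw [hX, ← d2]; noncomm_ring
      _ = -(δ * X) := by rw [hXa]
  have s0 : δ * (σ * a) = (σ * a) * δ := by
    rw [← mul_assoc, d3, mul_assoc, d1, mul_assoc]
  calc (1 + σ * a) * X * (1 - σ * a) * ((1 + ρ * a) * X * (1 - ρ * a)) * ((1 + σ * a) * X * (1 - σ * a))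
      = (1 + σ * a) * X * ((1 - σ * a) * (1 + ρ * a)) * X * ((1 - ρ * a) * (1 + σ * a)) * X * (1 - σ * a) := by
        noncomm_ring
    _ = (1 + σ * a) * (X * (1 + δ * a) * X) * (1 - δ * a) * X * (1 - σ * a) := by
        rw [e1, e2]; noncomm_ring
    _ = (1 + σ * a) * δ * (X * (1 - δ * a) * X) * (1 - σ * a) := by rw [e3]; noncomm_ring
    _ = -((δ + (σ * a) * δ) * δ) * X * (1 - σ * a) := by rw [e4]; noncomm_ring
    _ = -((δ + δ * (σ * a)) * δ) * X * (1 - σ * a) := by rw [s0]
    _ = -(δ * (δ + (σ * a) * δ)) * X * (1 - σ * a) := by noncomm_ring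
    _ = -(δ * (δ + δ * (σ * a))) * X * (1 - σ * a) := by rw [s0]
    _ = -(δ * δ) * ((1 + σ * a) * X * (1 - σ * a)) := by noncomm_ring
    _ = _ := by rw [hδ]

end ring

variable {k : Type*} [Field k] {M : Type*} [AddCommGroup M] [Module k M]
variable {G : Subgroup (LinearMap.GeneralLinearGroup k M)}

/-- the first step: the group inverse of `z = ax + xa` and the inverse family -/
theorem split_aux [FiniteDimensional k M] (hG : Good G) {a x : M →ₗ[k] M} (ha : Root G a) (hx : Fam G x)
    (hne : a * x * a * x * a ≠ 0) :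
    ∃ w : M →ₗ[k] M, (a * x + x * a) * w * (a * x + x * a) = a * x + x * a ∧ w * (a * x + x * a) * w = w ∧
      (∀ y, (a * x + x * a) * y = y * (a * x + x * a) → w * y = y * w) ∧ (a * x + x * a) * w * a = a ∧
      Root G (w * x + w * w * (a * x - x * a) - w * w * a) := by
  have ha2 := ha.1.1
  have hx2 := hx.1
  obtain ⟨z, hz⟩ : ∃ z, z = a * x + x * a := ⟨_, rfl⟩
  rw [← hz]
  have za' : z * a = a * x * a := by rw [hz]; noncomm_ring [ha2]
  have za'' : a * z = a * x * a := by rw [hz]; noncomm_ring [zero2 ha2]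
  have zx' : z * x = x * a * x := by rw [hz]; noncomm_ring [hx2]
  have zx'' : x * z = x * a * x := by rw [hz]; noncomm_ring [zero2 hx2]
  have za : a * z = z * a := by rw [za', za'']
  have zx : x * z = z * x := by rw [zx', zx'']
  have hA := ha.conj1 hx
  obtain ⟨A, hA'⟩ : ∃ A, A = (1 + x) * a * (1 - x) := ⟨_, rfl⟩
  rw [← hA'] at hA
  have hAe : A = a + (x * a - a * x) - z * x := by rw [hA', zx']; noncomm_ring
  have zA : A * z = z * A := by
    rw [hA']; noncomm_ring [za, zx, comm2 za, comm2 zx]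
  have aAa : a * A * a = -(z * z) * a := by
    have h1 : z * z * a = a * x * a * x * a := by
      rw [mul_assoc, za', ← mul_assoc, ← mul_assoc, za']
    rw [neg_mul, h1, hA']
    noncomm_ring [ha2, zero2 ha2]
  rcases hG.p1 a A ha hA with ⟨h0, -⟩ | ⟨e, he, ho⟩
  · exfalso
    apply hne
    have : a * x * a * x * a = -(a * A * a) := by
      rw [aAa, neg_mul, neg_neg, mul_assoc z z a, za', ← mul_assoc, ← mul_assoc, za']
    rw [this, h0, neg_zero]
  · have hAz : A = -(z * z) * e :=
      ho.eq_mul (by noncomm_ring [za, comm2 za]) (by noncomm_ring [zA, comm2 zA]) aAa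
    have ze : e * z = z * e := (ho.commute za.symm zA.symm).symm
    have he2 : e * e = 0 := he.1.1
    -- `a = z² s`
    obtain ⟨s, hs⟩ : ∃ s, s = -((1 - x) * e * (1 + x)) := ⟨_, rfl⟩
    have zs : s * z = z * s := by
      rw [hs]; noncomm_ring [ze, zx, comm2 ze, comm2 zx]
    have has : a = z * z * s := by
      have h1 : a = (1 - x) * A * (1 + x) := by
        rw [hA']; noncomm_ring [hx2, zero2 hx2]
      rw [hs, h1, hAz]
      noncomm_ring [zx, comm2 zx]
    have hr : z * (s * x + x * s) = (s * x + x * s) * z := by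
      noncomm_ring [zs, zx, comm2 zs, comm2 zx]
    have hzzr : z * z * (s * x + x * s) = z := by
      have h1 : z * z * (s * x + x * s) = (z * z * s) * x + x * (z * z * s) := by
        noncomm_ring [zx, comm2 zx]
      rw [h1, ← has, ← hz]
    obtain ⟨w, w1, w2, w3⟩ := group_inv hr hzzr
    have wz : w * z = z * w := w3 z rfl
    have wx : x * w = w * x := (w3 x zx.symm).symm
    have wa : a * w = w * a := (w3 a za.symm).symm
    have we : e * w = w * e := (w3 e ze.symm).symm
    have w1' : z * (z * w) = z := by rw [← wz, ← mul_assoc, w1]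
    have w1'' : ∀ y, z * (z * (w * y)) = z * y := fun y => by rw [← mul_assoc, ← mul_assoc, mul_assoc z z w, w1']
    have w2' : z * (w * w) = w := by rw [← mul_assoc, ← wz, w2]
    have w2'' : ∀ y, z * (w * (w * y)) = w * y := fun y => by
      rw [← mul_assoc, ← mul_assoc, mul_assoc z w w, w2']
    have zwa : z * w * a = a := by
      rw [has]; noncomm_ring [wz, comm2 wz, w1', w1'', w2', w2'']
    have zwe : z * w * e = e := by
      calc z * w * e = z * w * (e * a * e) := by rw [ho.bab]
        _ = e * (z * w * a) * e := by noncomm_ring [ze, comm2 ze, we, comm2 we]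
        _ = e := by rw [zwa, ho.bab]
    refine ⟨w, w1, w2, w3, zwa, ?_⟩
    have hfin : e = w * x + w * w * (a * x - x * a) - w * w * a := by
      have h1 : w * w * A = -e := by
        rw [hAz, ← zwe]
        noncomm_ring [wz, comm2 wz, w1', w1'', w2', w2'']
      have h2 : w * w * (z * x) = w * x := by
        noncomm_ring [wz, comm2 wz, w1', w1'', w2', w2'']
      calc e = -(w * w * A) := by rw [h1, neg_neg]
        _ = w * w * (z * x) + w * w * (a * x - x * a) - w * w * a := by rw [hAe]; noncomm_ring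
        _ = _ := by rw [h2]
    rw [← hfin]
    exact he

/-- uniqueness of group inverses -/
theorem group_inv_unique {R : Type*} [Ring R] {z w v : R} (w1 : z * w * z = z) (w2 : w * z * w = w)
    (w3 : w * z = z * w) (v1 : z * v * z = z) (v2 : v * z * v = v) (v3 : v * z = z * v) : w = v := by
  have h1 : z * w = z * v := by
    calc z * w = w * z := w3.symm
      _ = w * (z * v * z) := by rw [v1]
      _ = (w * z) * (v * z) := by noncomm_ring
      _ = (z * w) * (z * v) := by rw [w3, v3]
      _ = (z * w * z) * v := by noncomm_ring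
      _ = z * v := by rw [w1]
  calc w = w * z * w := w2.symm
    _ = z * w * w := by rw [w3]
    _ = z * v * w := by rw [h1]
    _ = v * (z * w) := by rw [← v3]; noncomm_ring
    _ = v * (z * v) := by rw [h1]
    _ = v := by rw [← mul_assoc, v2]

/-- B3: `(ρ-σ)² a` is a family -/
theorem split_fam [FiniteDimensional k M] (hG : Good G) {a X ρ σ : M →ₗ[k] M} (ha : Root G a)
    (hX : X * X = 0) (haX : a * X * a = a) (hXa : X * a * X = X)
    (h1 : a * ρ = ρ * a) (h2 : X * ρ = ρ * X) (h3 : a * σ = σ * a) (h4 : X * σ = σ * X) (h5 : σ * ρ = ρ * σ)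
    (hp : Root G (EE a X σ)) (hq : Root G (EE a X ρ)) : Fam G ((ρ - σ) * (ρ - σ) * a) := by
  have ha2 := ha.1.1
  have e1 := EE_EE_EE (ρ := ρ) (σ := σ) ha2 hX hXa h1.symm h2.symm h3.symm h4.symm h5.symm
  have e2 : a * EE a X ρ * a = a := a_EE_a ha2 haX h1.symm
  have e3 : a * EE a X σ * a = a := a_EE_a ha2 haX h3.symm
  have e4 : EE a X ρ * a * EE a X ρ = EE a X ρ := EE_a_EE ha2 hXa h1.symm
  obtain ⟨D, hD⟩ : ∃ D, D = (ρ - σ) * (ρ - σ) := ⟨_, rfl⟩
  have Da : a * D = D * a := by rw [hD]; noncomm_ring [h1, h3, comm2 h1, comm2 h3]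
  have DX : X * D = D * X := by rw [hD]; noncomm_ring [h2, h4, comm2 h2, comm2 h4]
  have Dρ : ρ * D = D * ρ := by
    rw [hD]; noncomm_ring [h5, comm2 h5]
  have Dσ : σ * D = D * σ := by
    rw [hD]; noncomm_ring [h5, comm2 h5]
  rw [← hD] at e1 ⊢
  have Dp : EE a X σ * D = D * EE a X σ := by
    unfold EE; noncomm_ring [Da, DX, Dσ, comm2 Da, comm2 DX, comm2 Dσ]
  have Dq : EE a X ρ * D = D * EE a X ρ := by
    unfold EE; noncomm_ring [Da, DX, Dρ, comm2 Da, comm2 DX, comm2 Dρ]
  obtain ⟨p, hp'⟩ : ∃ p, p = EE a X σ := ⟨_, rfl⟩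
  obtain ⟨q, hq'⟩ : ∃ q, q = EE a X ρ := ⟨_, rfl⟩
  rw [← hp', ← hq'] at e1
  rw [← hp'] at e3 Dp hp
  rw [← hq'] at e2 e4 Dq hq
  rcases hG.p1 p q hp hq with ⟨h0, -⟩ | ⟨q', hq1, ho⟩
  · have hDp : D * p = 0 := by
      rw [h0] at e1
      rw [neg_mul, eq_comm, neg_eq_zero] at e1
      exact e1
    have : D * a = 0 := by
      calc D * a = D * (a * p * a) := by rw [e3]
        _ = a * (D * p) * a := by noncomm_ring [Da, comm2 Da]
        _ = 0 := by rw [hDp]; simp
    rw [this]; exact Fam.zero
  · have kp : -D * p = p * -D := by rw [neg_mul, mul_neg, Dp]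
    have kq : -D * q = q * -D := by rw [neg_mul, mul_neg, Dq]
    have hqq : q = -D * q' := ho.eq_mul kp kq e1
    have kq' : -D * q' = q' * -D := ho.commute kp kq
    rcases hG.p1 q' a hq1 ha with ⟨h0, -⟩ | ⟨a', ha', ho'⟩
    · exfalso
      apply hq.2.1
      calc q = q * a * q := e4.symm
        _ = (-D * q') * a * (-D * q') := by rw [← hqq]
        _ = (-D * q') * a * (q' * -D) := by rw [kq']
        _ = -D * (q' * a * q') * -D := by noncomm_ring
        _ = 0 := by rw [h0]; simp
    · have ka : -D * a = a * -D := by rw [neg_mul, mul_neg, Da]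
      have ka' : -D * a' = a' * -D := ho'.commute kq' ka
      have f1 : a' * (q * a) = a' := by
        apply mul_right_of_ker ho'.ker_eq.ge
        rw [← mul_assoc, e2]
      have f2 : (a' * q') * a = a := by
        apply mul_left_of_range ho'.range_eq.ge
        rw [ho'.bab]
      have f3 : a' = -D * a := by
        calc a' = a' * (q * a) := f1.symm
          _ = a' * ((-D * q') * a) := by rw [← hqq]
          _ = (a' * -D) * q' * a := by noncomm_ring
          _ = -D * (a' * q' * a) := by rw [← ka']; noncomm_ring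
          _ = -D * a := by rw [f2]
      have := ha'.1
      rw [f3] at this
      have h := this.neg
      rwa [neg_mul, neg_neg] at h

theorem rk_lt_of_ker {x y : M →ₗ[k] M} [FiniteDimensional k M] (h : LinearMap.ker x < LinearMap.ker y) :
    rk y < rk x := by
  have h1 := LinearMap.finrank_range_add_finrank_ker x
  have h2 := LinearMap.finrank_range_add_finrank_ker y
  have h3 := Submodule.finrank_lt_finrank_of_lt h
  unfold rk
  omega

/-- **Splitting**: a family not "nilpotent" against a minimal family splits off a minimal family. -/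
theorem split [FiniteDimensional k M] (hG : Good G) (h2 : (2 : k) ≠ 0) {a x : M →ₗ[k] M} (ha : Root G a)
    (hx : Fam G x) (hne : a * x * a * x * a ≠ 0) :
    ∃ x', Root G x' ∧ x * x' = 0 ∧ x' * x = 0 ∧ Fam G (x - x') ∧ rk (x - x') < rk x := by
  have ha2 := ha.1.1
  have hx2 := hx.1
  obtain ⟨w, w1, w2, w3, zwa, hR1⟩ := split_aux hG ha hx hne
  have hne' : a * (-x) * a * (-x) * a ≠ 0 := by
    intro h; apply hne; rw [← h]; noncomm_ring
  obtain ⟨v, v1, v2, v3, -, hR2⟩ := split_aux hG ha hx.neg hne'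
  obtain ⟨z, hz⟩ : ∃ z, z = a * x + x * a := ⟨_, rfl⟩
  rw [← hz] at w1 w2 w3 zwa
  have hz' : a * -x + -x * a = -z := by rw [hz]; noncomm_ring
  rw [hz'] at v1 v2 v3
  have hvw : v = -w := by
    have v1' : z * v * z = -z := by rw [← v1]; noncomm_ring
    have v2' : v * z * v = -v := by
      have : v * z * v = -(v * -z * v) := by noncomm_ring
      rw [this, v2]
    have : w = -v := by
      apply group_inv_unique w1 w2 (w3 z rfl)
      · have : z * -v * z = -(z * v * z) := by noncomm_ring
        rw [this, v1', neg_neg]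
      · have : -v * z * -v = v * z * v := by noncomm_ring
        rw [this, v2']
      · have := v3 z (by noncomm_ring)
        rw [neg_mul, this]; noncomm_ring
    rw [this, neg_neg]
  have za' : z * a = a * x * a := by rw [hz]; noncomm_ring [ha2]
  have za'' : a * z = a * x * a := by rw [hz]; noncomm_ring [zero2 ha2]
  have zx' : z * x = x * a * x := by rw [hz]; noncomm_ring [hx2]
  have zx'' : x * z = x * a * x := by rw [hz]; noncomm_ring [zero2 hx2]
  have za : a * z = z * a := by rw [za', za'']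
  have zx : x * z = z * x := by rw [zx', zx'']
  have wz : w * z = z * w := w3 z rfl
  have wx : x * w = w * x := (w3 x zx.symm).symm
  have wa : a * w = w * a := (w3 a za.symm).symm
  have w1' : z * (z * w) = z := by rw [← wz, ← mul_assoc, w1]
  have w1'' : ∀ y, z * (z * (w * y)) = z * y := fun y => by rw [← mul_assoc, ← mul_assoc, mul_assoc z z w, w1']
  have w2' : z * (w * w) = w := by rw [← mul_assoc, ← wz, w2]
  have w2'' : ∀ y, z * (w * (w * y)) = w * y := fun y => by
    rw [← mul_assoc, ← mul_assoc, mul_assoc z w w, w2']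
  have zwa1 : z * (w * a) = a := by rw [← mul_assoc, zwa]
  -- the dual element `X`
  obtain ⟨X, hX'⟩ : ∃ X, X = w * x := ⟨_, rfl⟩
  have axa : a * (x * a) = z * a := by rw [za', mul_assoc]
  have xax : x * (a * x) = z * x := by rw [zx', mul_assoc]
  have hX : X * X = 0 := by rw [hX']; noncomm_ring [wx, comm2 wx, hx2]
  have haX : a * X * a = a := by
    rw [hX']; noncomm_ring [wa, comm2 wa, axa, wz, comm2 wz, zwa1]
  have hXa : X * a * X = X := by
    rw [hX']; noncomm_ring [wa, comm2 wa, wx, comm2 wx, xax, wz, comm2 wz, w2', w2'']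
  have Xw : X * w = w * X := by rw [hX']; noncomm_ring [wx, comm2 wx]
  have Xz : X * z = z * X := by rw [hX']; noncomm_ring [wz, comm2 wz, zx, comm2 zx]
  have hEw : w * x + w * w * (a * x - x * a) - w * w * a = EE a X w := by
    unfold EE; rw [hX']
    noncomm_ring [wa, comm2 wa, wx, comm2 wx, axa, wz, comm2 wz, w2', w2'', zwa1]
  have hEv : v * -x + v * v * (a * -x - -x * a) - v * v * a = EE a X (-w) := by
    unfold EE; rw [hX', hvw]
    noncomm_ring [wa, comm2 wa, wx, comm2 wx, axa, wz, comm2 wz, w2', w2'', zwa1]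
  rw [hEw] at hR1
  rw [hEv] at hR2
  -- translates
  have hRs : ∀ s : k, Root G (EE a X (w + algebraMap k (M →ₗ[k] M) s)) := by
    intro s
    have h1 := hR1.conj1 (ha.1.smul s)
    have h2 : (1 + s • a) * EE a X w * (1 - s • a) = EE a X (w + algebraMap k (M →ₗ[k] M) s) := by
      unfold EE
      have s1 : s • a = algebraMap k (M →ₗ[k] M) s * a := by rw [Algebra.smul_def]
      obtain ⟨S, hS⟩ : ∃ S, S = algebraMap k (M →ₗ[k] M) s := ⟨_, rfl⟩
      rw [s1, ← hS]
      have Sa : a * S = S * a := by rw [hS]; exact (Algebra.commutes s a).symm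
      have SX : X * S = S * X := by rw [hS]; exact (Algebra.commutes s X).symm
      have Sw : w * S = S * w := by rw [hS]; exact (Algebra.commutes s w).symm
      have e1 : (1 + S * a) * (1 + w * a) = 1 + (w + S) * a := by
        noncomm_ring [wa, comm2 wa, Sa, comm2 Sa, ha2, zero2 ha2]
      have e2 : (1 - w * a) * (1 - S * a) = 1 - (w + S) * a := by
        noncomm_ring [wa, comm2 wa, Sa, comm2 Sa, ha2, zero2 ha2]
      rw [← e1, ← e2]; noncomm_ring
    rwa [h2] at h1
  have hfs : ∀ s : k, Fam G ((4 : k) • (w * w * a) + (4 * s) • (w * a) + (s * s) • a) := by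
    intro s
    obtain ⟨S, hS⟩ : ∃ S, S = algebraMap k (M →ₗ[k] M) s := ⟨_, rfl⟩
    have Sa : a * S = S * a := by rw [hS]; exact (Algebra.commutes s a).symm
    have SX : X * S = S * X := by rw [hS]; exact (Algebra.commutes s X).symm
    have Sw : w * S = S * w := by rw [hS]; exact (Algebra.commutes s w).symm
    have haw : a * (w + S) = (w + S) * a := by noncomm_ring [wa, Sa]
    have hXw : X * (w + S) = (w + S) * X := by rw [mul_add, add_mul, Xw, SX]
    have hww : (-w) * (w + S) = (w + S) * (-w) := by noncomm_ring [Sw]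
    have h1 := split_fam hG ha hX haX hXa haw hXw (σ := -w) (by noncomm_ring [wa]) (by rw [mul_neg, neg_mul, Xw])
      hww hR2 (by rw [hS]; exact hRs s)
    have h2 : (w + S - -w) * (w + S - -w) * a = (4 : k) • (w * w * a) + (4 * s) • (w * a) + (s * s) • a := by
      have e1 : (s * s) • a = S * (S * a) := by rw [mul_smul, Algebra.smul_def, Algebra.smul_def, ← hS]
      have e2 : (4 * s) • (w * a) = (4 : ℤ) • (S * (w * a)) := by
        rw [mul_smul, Algebra.smul_def s, ← hS, ← Int.cast_smul_eq_zsmul k]; norm_num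
      have e3 : (4 : k) • (w * w * a) = (4 : ℤ) • (w * w * a) := by
        rw [← Int.cast_smul_eq_zsmul k]; norm_num
      rw [e1, e2, e3]
      noncomm_ring [Sw, comm2 Sw]
    rwa [h2] at h1
  have hzero : ∀ s t : k, ((4 : k) • (w * w * a) + (4 * s) • (w * a) + (s * s) • a) *
      ((4 : k) • (w * w * a) + (4 * t) • (w * a) + (t * t) • a) = 0 := by
    intro s t
    have e : ∀ s : k, (4 : k) • (w * w * a) + (4 * s) • (w * a) + (s * s) • a =
        ((4 : k) • (w * w) + (4 * s) • w + (s * s) • 1) * a := by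
      intro s
      rw [add_mul, add_mul, smul_mul_assoc, smul_mul_assoc, smul_mul_assoc, one_mul]
    have e' : ∀ s : k, a * ((4 : k) • (w * w) + (4 * s) • w + (s * s) • 1) =
        ((4 : k) • (w * w) + (4 * s) • w + (s * s) • 1) * a := by
      intro s
      rw [add_mul, add_mul, mul_add, mul_add, smul_mul_assoc, smul_mul_assoc, smul_mul_assoc, one_mul,
        mul_smul_comm, mul_smul_comm, mul_smul_comm, mul_one, wa, ← mul_assoc, wa, mul_assoc, wa, mul_assoc]
    rw [e s, e t, mul_assoc, ← mul_assoc a, e' t, mul_assoc _ a a, ha2]; simp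
  have hwa8 : Fam G ((8 : k) • (w * a)) := by
    have h := (hfs 1).sub (hfs (-1)) (hzero 1 (-1)) (hzero (-1) 1)
    have e : (4 : k) • (w * w * a) + (4 * 1 : k) • (w * a) + (1 * 1 : k) • a -
        ((4 : k) • (w * w * a) + (4 * (-1) : k) • (w * a) + ((-1) * (-1) : k) • a) = (8 : k) • (w * a) := by
      have : (8 : k) = 4 * 1 - 4 * (-1) := by norm_num
      rw [this, sub_smul]; norm_num
    rwa [e] at h
  have h8 : (8 : k) ≠ 0 := by
    have : (8 : k) = 2 * 2 * 2 := by norm_num
    rw [this]; exact mul_ne_zero (mul_ne_zero h2 h2) h2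
  have hwa := Fam.of_smul h8 hwa8
  -- `X` is a root
  have hRX : Root G X := by
    have h1 := hR1.conj1 hwa.neg
    have e : (1 + -(w * a)) * EE a X w * (1 - -(w * a)) = X := by
      unfold EE
      have e1 : (1 + -(w * a)) * (1 + w * a) = 1 := by
        noncomm_ring [wa, comm2 wa, ha2]
      have e2 : (1 - w * a) * (1 - -(w * a)) = 1 := by
        noncomm_ring [wa, comm2 wa, ha2]
      calc (1 + -(w * a)) * ((1 + w * a) * X * (1 - w * a)) * (1 - -(w * a))
          = ((1 + -(w * a)) * (1 + w * a)) * X * ((1 - w * a) * (1 - -(w * a))) := by noncomm_ring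
        _ = X := by rw [e1, e2]; simp
    rwa [e] at h1
  have hwa0 : w * a ≠ 0 := by
    intro h; apply ha.2.1; rw [← zwa1, h, mul_zero]
  have hRwa : Root G (w * a) := ha.of_rk_le hwa hwa0 (by rw [← wa]; exact rk_mul_le_left _ _)
  have hwaXwa : w * a * X * (w * a) = w * (w * a) := by
    calc w * a * X * (w * a) = w * (w * (a * X * a)) := by noncomm_ring [wa, comm2 wa, Xw, comm2 Xw]
      _ = _ := by rw [haX]
  rcases hG.p1 (w * a) X hRwa hRX with ⟨h0, -⟩ | ⟨x', hx', ho⟩
  · exfalso
    apply ha.2.1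
    rw [h0] at hwaXwa
    calc a = z * (w * (z * (w * a))) := by rw [zwa1, zwa1]
      _ = z * (z * (w * (w * a))) := by noncomm_ring [wz, comm2 wz]
      _ = 0 := by rw [← hwaXwa]; simp
  · have kwa : w * (w * a) = w * a * w := by noncomm_ring [wa]
    have kX : w * X = X * w := Xw.symm
    have h1 : X = w * x' := ho.eq_mul kwa kX hwaXwa
    have h3 : (z * w) * x' = x' * (z * w) := by
      apply ho.commute
      · noncomm_ring [wa, comm2 wa, za, comm2 za, wz, comm2 wz]
      · noncomm_ring [Xw, comm2 Xw, Xz, comm2 Xz]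
    have h4 : z * w * x' = x' := by
      calc z * w * x' = (z * w) * (x' * (w * a) * x') := by rw [ho.bab]
        _ = ((z * w) * x') * (w * a) * x' := by noncomm_ring
        _ = x' * ((z * w) * (w * a)) * x' := by rw [h3]; noncomm_ring
        _ = x' * (w * a) * x' := by
            congr 2
            noncomm_ring [w2'']
        _ = x' := ho.bab
    have h5 : x' = z * (w * x) := by
      rw [← h4, mul_assoc, ← h1, hX']
    have p1 : x * x' = 0 := by rw [h5]; noncomm_ring [zx, comm2 zx, wx, comm2 wx, hx2]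
    have p2 : x' * x = 0 := by rw [h5]; noncomm_ring [zx, comm2 zx, wx, comm2 wx, hx2]
    refine ⟨x', hx', p1, p2, hx.sub hx'.1 p1 p2, ?_⟩
    apply rk_lt_of_ker
    refine lt_of_le_of_ne ?_ ?_
    · intro m hm
      rw [LinearMap.mem_ker] at hm ⊢
      rw [LinearMap.sub_apply, hm, zero_sub, neg_eq_zero, h5]
      change z (w (x m)) = 0
      rw [hm, map_zero, map_zero]
    · intro heq
      apply hx'.2.1
      have h6 : (x - x') * (z * w) = 0 := by
        rw [h5]; noncomm_ring [zx, comm2 zx, wx, comm2 wx, wz, comm2 wz, w1', w1'', w2', w2'']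
      have h7 : x * (z * w) = 0 := by
        ext m
        have : (z * w) m ∈ LinearMap.ker (x - x') := by
          rw [LinearMap.mem_ker]
          exact LinearMap.congr_fun h6 m
        rw [← heq] at this
        exact this
      rw [h5, ← h7]; noncomm_ring [zx, comm2 zx, wx, comm2 wx]

end Cfsg.Agent.H84.QP
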