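import Mathlib
import Cfsg.Agent.H84.QP3
set_option autoImplicit false

/-! Quadratic pairs: a family either splits off a minimal family or commutes with all minimal families. -/

namespace Cfsg.Agent.H84.QP

open Cfsg

variable {k : Type*} [Field k] {M : Type*} [AddCommGroup M] [Module k M]
variable {G : Subgroup (LinearMap.GeneralLinearGroup k M)}

theorem range_eq_of_rk [FiniteDimensional k M] {x y : M →ₗ[k] M} (h : LinearMap.range x ≤ LinearMap.range y)
    (hr : rk y ≤ rk x) : LinearMap.range x = LinearMap.range y :=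
  Submodule.eq_of_le_of_finrank_le h hr

theorem inj_of_rk [FiniteDimensional k M] {x y : M →ₗ[k] M} (hr : rk y ≤ rk (x * y)) (m : M)
    (h : x (y m) = 0) : y m = 0 := by
  have h1 : LinearMap.ker y ≤ LinearMap.ker (x * y) := by
    intro n hn
    rw [LinearMap.mem_ker] at hn ⊢
    change x (y n) = 0
    rw [hn, map_zero]
  have h2 := LinearMap.finrank_range_add_finrank_ker y
  have h3 := LinearMap.finrank_range_add_finrank_ker (x * y)
  have h4 : LinearMap.ker y = LinearMap.ker (x * y) := by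
    apply Submodule.eq_of_le_of_finrank_le h1
    unfold rk at hr
    omega
  have : m ∈ LinearMap.ker (x * y) := h
  rw [← h4] at this
  exact this

/-- no opposite when the sandwich vanishes -/
theorem Good.nonopp (hG : Good G) {a b : M →ₗ[k] M} (ha : Root G a) (hb : Root G b) (h : a * b * a = 0) :
    b * a * b = 0 := by
  rcases hG.p1 a b ha hb with ⟨-, h1⟩ | ⟨b', -, ho⟩
  · exact h1
  · exfalso
    apply hb.2.1
    rw [ho.eq_mul (κ := 0) (by simp) (by simp) (by rw [h, zero_mul]), zero_mul]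

theorem Good.exists_opp (hG : Good G) {a b : M →ₗ[k] M} (ha : Root G a) (hb : Root G b) (h : a * b * a ≠ 0) :
    ∃ b', Root G b' ∧ Opp a b b' := by
  rcases hG.p1 a b ha hb with ⟨h1, -⟩ | h1
  · exact absurd h1 h
  · exact h1

/-- a dual root exists -/
theorem Good.exists_dual (hG : Good G) {a : M →ₗ[k] M} (ha : Root G a) :
    ∃ e, Root G e ∧ a * e * a = a ∧ e * a * e = e := by
  obtain ⟨b, hb, h⟩ := hG.opp a ha
  obtain ⟨e, he, ho⟩ := hG.exists_opp ha hb h
  exact ⟨e, he, ho.aba, ho.bab⟩

/-- Lemma N -/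
theorem nil_step [FiniteDimensional k M] (hG : Good G) (h2 : (2 : k) ≠ 0) {a x : M →ₗ[k] M} (ha : Root G a)
    (hx : Fam G x) (h : a * x * a * x * a = 0) : a * x * a = 0 := by
  have ha2 := ha.1.1
  have hx2 := hx.1
  have h' : a * (x * (a * (x * a))) = 0 := by rw [← h]; noncomm_ring
  have h'' : ∀ y, a * (x * (a * (x * (a * y)))) = 0 := fun y => by
    have : a * (x * (a * (x * (a * y)))) = (a * x * a * x * a) * y := by noncomm_ring
    rw [this, h, zero_mul]
  obtain ⟨A, hA⟩ : ∃ A, A = (1 + x) * a * (1 - x) := ⟨_, rfl⟩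
  obtain ⟨B, hB⟩ : ∃ B, B = (1 - x) * a * (1 + x) := ⟨_, rfl⟩
  have rA : Root G A := by rw [hA]; exact ha.conj1 hx
  have rB : Root G B := by
    rw [hB]; have := ha.conj1 hx.neg
    rwa [← sub_eq_add_neg, sub_neg_eq_add] at this
  have a1 : a * A * a = 0 := by
    rw [hA]; noncomm_ring [ha2, zero2 ha2, h']
  have a2 : a * B * a = 0 := by
    rw [hB]; noncomm_ring [ha2, zero2 ha2, h']
  have f1 := ha.1.comm rA.1 a1 (hG.nonopp ha rA a1)
  have f2 := ha.1.comm rB.1 a2 (hG.nonopp ha rB a2)
  have e1 : a * A - A * a = 2 • (a * x * a) - a * x * a * x + x * a * x * a := by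
    rw [hA]; noncomm_ring [ha2, zero2 ha2]
  have e2 : a * B - B * a = -(2 • (a * x * a)) - a * x * a * x + x * a * x * a := by
    rw [hB]; noncomm_ring [ha2, zero2 ha2]
  rw [e1] at f1
  rw [e2] at f2
  have p1 : (2 • (a * x * a) - a * x * a * x + x * a * x * a) *
      (-(2 • (a * x * a)) - a * x * a * x + x * a * x * a) = 0 := by
    noncomm_ring [ha2, zero2 ha2, hx2, zero2 hx2, h', h'']
  have p2 : (-(2 • (a * x * a)) - a * x * a * x + x * a * x * a) *
      (2 • (a * x * a) - a * x * a * x + x * a * x * a) = 0 := by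
    noncomm_ring [ha2, zero2 ha2, hx2, zero2 hx2, h', h'']
  have f3 := f1.sub f2 p1 p2
  have e3 : 2 • (a * x * a) - a * x * a * x + x * a * x * a - (-(2 • (a * x * a)) - a * x * a * x + x * a * x * a) =
      (4 : k) • (a * x * a) := by
    have : (4 : k) • (a * x * a) = (4 : ℤ) • (a * x * a) := by
      rw [← Int.cast_smul_eq_zsmul k]; norm_num
    rw [this]
    noncomm_ring
  rw [e3] at f3
  have h4 : (4 : k) ≠ 0 := by
    have : (4 : k) = 2 * 2 := by norm_num
    rw [this]; exact mul_ne_zero h2 h2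
  have f4 := Fam.of_smul h4 f3
  by_contra hne
  have hr := ha.2.2 _ f4 hne
  have hreq : LinearMap.range (a * x * a) = LinearMap.range a := by
    apply range_eq_of_rk _ hr
    rintro _ ⟨m, rfl⟩; exact ⟨x (a m), rfl⟩
  apply hne
  ext m
  have : a m ∈ LinearMap.range (a * x * a) := by rw [hreq]; exact ⟨m, rfl⟩
  obtain ⟨n, hn⟩ := this
  change a (x (a m)) = 0
  rw [← hn]
  exact LinearMap.congr_fun h' n

/-- coefficient extraction -/
theorem coeff_one {V : Type*} [AddCommGroup V] [Module k V] (h2 : (2 : k) ≠ 0) {s : k} (hs0 : s ≠ 0)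
    (hs : s * s ≠ 1) {A₁ A₂ A₃ A₄ : V}
    (h : ∀ t : k, t • A₁ + (t * t) • A₂ + (t * t * t) • A₃ + (t * t * t * t) • A₄ = 0) : A₁ = 0 := by
  have odd : ∀ t : k, t • A₁ + (t * t * t) • A₃ = 0 := by
    intro t
    have h1 := h t
    have h3 := h (-t)
    have e : (2 : k) • (t • A₁ + (t * t * t) • A₃) =
        (t • A₁ + (t * t) • A₂ + (t * t * t) • A₃ + (t * t * t * t) • A₄) -
        ((-t) • A₁ + ((-t) * (-t)) • A₂ + ((-t) * (-t) * (-t)) • A₃ + ((-t) * (-t) * (-t) * (-t)) • A₄) := by
      module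
    rw [h1, h3, sub_zero] at e
    exact (smul_eq_zero.1 e).resolve_left h2
  have h1 := odd 1
  have h3 := odd s
  rw [one_smul, mul_one, mul_one, one_smul] at h1
  have h4 : A₃ = -A₁ := (neg_eq_of_add_eq_zero_right h1).symm
  rw [h4, smul_neg, ← sub_eq_add_neg, ← sub_smul] at h3
  rcases smul_eq_zero.1 h3 with h5 | h5
  · exfalso
    have : s * (1 - s * s) = 0 := by linear_combination h5
    rcases mul_eq_zero.1 this with h6 | h6
    · exact hs0 h6
    · exact hs (by linear_combination -h6)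
  · exact h5

theorem sandwich_coeff [FiniteDimensional k M] (h2 : (2 : k) ≠ 0) {s : k} (hs0 : s ≠ 0)
    (hs : s * s ≠ 1) {x a y : M →ₗ[k] M} (hH : ∀ a, Root G a → a * x * a = 0) (ha : Root G a) (hy : Fam G y) :
    a * x * (y * a) + y * a * x * a - (a * x * (a * y) + a * y * x * a) = 0 := by
  have h0 := hH a ha
  apply coeff_one h2 hs0 hs (A₂ := -(a * x * (y * a * y)) - y * a * y * x * a + (y * a - a * y) * x * (y * a - a * y))
    (A₃ := -((y * a - a * y) * x * (y * a * y)) - y * a * y * x * (y * a - a * y))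
    (A₄ := y * a * y * x * (y * a * y))
  intro t
  have h1 := hH _ (ha.conj1 (hy.smul t))
  rw [← h1]
  have e1 : (1 + t • y) * a * (1 - t • y) = a + t • (y * a - a * y) - (t * t) • (y * a * y) := by
    simp only [add_mul, mul_sub, one_mul, mul_one, smul_mul_assoc, mul_smul_comm, smul_smul, smul_sub, smul_add]
    abel
  rw [e1]
  simp only [add_mul, mul_add, sub_mul, mul_sub, smul_mul_assoc, mul_smul_comm, smul_smul, smul_sub, smul_add, h0,
    smul_neg]
  simp only [← mul_assoc, h0, zero_mul, smul_zero]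
  module

/-- γ1 -/
theorem gamma_one [FiniteDimensional k M] (h2 : (2 : k) ≠ 0) {x a : M →ₗ[k] M} (hx : Fam G x) (ha : Root G a)
    (h : a * x * a = 0) : Fam G (x * a * x) ∧ Fam G (x * a - a * x) := by
  have ha2 := ha.1.1
  have hx2 := hx.1
  have h' : a * (x * a) = 0 := by rw [← h, mul_assoc]
  have h'' : ∀ y, a * (x * (a * y)) = 0 := fun y => by rw [← zero_mul y, ← h]; noncomm_ring
  obtain ⟨A, hA⟩ : ∃ A, A = (1 + x) * a * (1 - x) := ⟨_, rfl⟩
  obtain ⟨B, hB⟩ : ∃ B, B = (1 - x) * a * (1 + x) := ⟨_, rfl⟩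
  have rA : Root G A := by rw [hA]; exact ha.conj1 hx
  have rB : Root G B := by
    rw [hB]; have := ha.conj1 hx.neg
    rwa [← sub_eq_add_neg, sub_neg_eq_add] at this
  have f1 := rA.1.sub ha.1 (by rw [hA]; noncomm_ring [ha2, zero2 ha2, h', h'']) (by
    rw [hA]; noncomm_ring [ha2, zero2 ha2, h', h''])
  have f2 := rB.1.sub ha.1 (by rw [hB]; noncomm_ring [ha2, zero2 ha2, h', h'']) (by
    rw [hB]; noncomm_ring [ha2, zero2 ha2, h', h''])
  have p1 : (A - a) * (B - a) = 0 := by
    rw [hA, hB]; noncomm_ring [ha2, zero2 ha2, hx2, zero2 hx2, h', h'']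
  have p2 : (B - a) * (A - a) = 0 := by
    rw [hA, hB]; noncomm_ring [ha2, zero2 ha2, hx2, zero2 hx2, h', h'']
  have g1 := f1.add f2 p1 p2
  have g2 := f1.sub f2 p1 p2
  have e1 : A - a + (B - a) = (-2 : k) • (x * a * x) := by
    have : (-2 : k) • (x * a * x) = (-2 : ℤ) • (x * a * x) := by
      rw [← Int.cast_smul_eq_zsmul k]; norm_num
    rw [this, hA, hB]
    noncomm_ring
  have e2 : A - a - (B - a) = (2 : k) • (x * a - a * x) := by
    have : (2 : k) • (x * a - a * x) = (2 : ℤ) • (x * a - a * x) := by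
      rw [← Int.cast_smul_eq_zsmul k]; norm_num
    rw [this, hA, hB]
    noncomm_ring
  rw [e1] at g1
  rw [e2] at g2
  exact ⟨Fam.of_smul (neg_ne_zero.2 h2) g1, Fam.of_smul h2 g2⟩

theorem rk_neg (x : M →ₗ[k] M) : rk (-x) = rk x := by
  unfold rk; rw [LinearMap.range_neg]

theorem rk_sub_le [FiniteDimensional k M] (x y : M →ₗ[k] M) : rk (x - y) ≤ rk x + rk y := by
  unfold rk
  have h : LinearMap.range (x - y) ≤ LinearMap.range x ⊔ LinearMap.range y := by
    rintro _ ⟨m, rfl⟩
    rw [LinearMap.sub_apply]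
    exact Submodule.sub_mem _ (Submodule.mem_sup_left ⟨m, rfl⟩) (Submodule.mem_sup_right ⟨m, rfl⟩)
  exact (Submodule.finrank_mono h).trans (Submodule.finrank_add_le_finrank_add_finrank _ _)

/-- `rk (ax) + rk (xa) ≤ rk a` when `xax = 0` -/
theorem rk_add_le [FiniteDimensional k M] {x a : M →ₗ[k] M} (h : x * a * x = 0) : rk (x * a) + rk (a * x) ≤ rk a := by
  have h1 := LinearMap.finrank_range_add_finrank_ker (x.domRestrict (LinearMap.range a))
  have h2 : LinearMap.range (x.domRestrict (LinearMap.range a)) = LinearMap.range (x * a) := by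
    ext m
    constructor
    · rintro ⟨⟨_, n, rfl⟩, rfl⟩; exact ⟨n, rfl⟩
    · rintro ⟨n, rfl⟩; exact ⟨⟨a n, n, rfl⟩, rfl⟩
  rw [h2] at h1
  have h3 : rk (a * x) ≤ Module.finrank k (LinearMap.ker (x.domRestrict (LinearMap.range a))) := by
    have h4 : LinearMap.range (a * x) ≤ (LinearMap.ker (x.domRestrict (LinearMap.range a))).map
        (LinearMap.range a).subtype := by
      rintro _ ⟨n, rfl⟩
      refine ⟨⟨a (x n), x n, rfl⟩, ?_, rfl⟩
      rw [SetLike.mem_coe, LinearMap.mem_ker]
      exact LinearMap.congr_fun h n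
    unfold rk
    refine (Submodule.finrank_mono h4).trans ?_
    exact Submodule.finrank_map_le _ _
  unfold rk at *
  omega

/-- γ: if all sandwiches vanish then `x` commutes with all minimal families -/
theorem gamma [FiniteDimensional k M] (hG : Good G) (h2 : (2 : k) ≠ 0) {s : k} (hs0 : s ≠ 0)
    (hs : s * s ≠ 1) {x : M →ₗ[k] M} (hx : Fam G x) (hH : ∀ a, Root G a → a * x * a = 0) {a : M →ₗ[k] M}
    (ha : Root G a) : x * a = a * x := by
  have hx2 := hx.1
  -- γ2
  have g2 : ∀ a, Root G a → x * a * x = 0 := by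
    intro a ha
    by_contra hne
    have f1 := (gamma_one h2 hx ha (hH a ha)).1
    have hr : rk (x * a * x) ≤ rk a := (rk_mul_le_left _ _).trans (rk_mul_le_right _ _)
    have hc : Root G (x * a * x) := ha.of_rk_le f1 hne hr
    obtain ⟨e, he, e1, e2⟩ := hG.exists_dual hc
    have r1 : rk a ≤ rk (x * (a * x)) := by rw [← mul_assoc]; exact ha.2.2 _ f1 hne
    have r2 : rk (a * x) ≤ rk a := rk_mul_le_left _ _
    have r3 : rk a ≤ rk (a * x) := r1.trans (rk_mul_le_right _ _)
    have hT : a * x * e * x * a * x = a * x := by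
      rw [← sub_eq_zero]
      ext m
      have h3 : x * (a * (x * e * x * a * x - x)) = 0 := by
        have : x * (a * (x * e * x * a * x - x)) = x * a * x * e * (x * a * x) - x * a * x := by noncomm_ring
        rw [this, e1, sub_self]
      have h4 : ∃ n, a (x n) = a ((x * e * x * a * x - x) m) := by
        have : a ((x * e * x * a * x - x) m) ∈ LinearMap.range (a * x) := by
          rw [range_eq_of_rk (by rintro _ ⟨m, rfl⟩; exact ⟨x m, rfl⟩) r3]
          exact ⟨_, rfl⟩
        exact this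
      obtain ⟨n, hn⟩ := h4
      have h5 : x ((a * x) n) = 0 := by
        change x (a (x n)) = 0
        rw [hn]
        exact LinearMap.congr_fun h3 m
      have h6 := inj_of_rk (x := x) (y := a * x) (r2.trans r1) n h5
      have : (a * x * e * x * a * x - a * x) m = a ((x * e * x * a * x - x) m) := by
        have : a * x * e * x * a * x - a * x = a * (x * e * x * a * x - x) := by noncomm_ring
        rw [this]; rfl
      rw [this, ← hn]
      exact h6
    have hT' : a * x * e * x * a = a := by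
      ext m
      have h4 : a m ∈ LinearMap.range (a * x) := by
        rw [range_eq_of_rk (by rintro _ ⟨m, rfl⟩; exact ⟨x m, rfl⟩) r3]
        exact ⟨_, rfl⟩
      obtain ⟨n, hn⟩ := h4
      change a (x n) = a m at hn
      change a (x (e (x (a m)))) = a m
      rw [← hn]
      exact LinearMap.congr_fun hT n
    have f2 := (gamma_one h2 hx he (hH e he)).2
    have h7 := sandwich_coeff h2 hs0 hs hH ha f2
    have h0 : ∀ y, a * (x * (a * y)) = 0 := fun y => by
      rw [← zero_mul y, ← hH a ha]; noncomm_ring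
    have h8 : a * x * ((x * e - e * x) * a) + (x * e - e * x) * a * x * a -
        (a * x * (a * (x * e - e * x)) + a * (x * e - e * x) * x * a) = (-2 : k) • (a * x * e * x * a) := by
      have : (-2 : k) • (a * x * e * x * a) = (-2 : ℤ) • (a * x * e * x * a) := by
        rw [← Int.cast_smul_eq_zsmul k]; norm_num
      rw [this]
      have h00 : a * (x * a) = 0 := by rw [← hH a ha, mul_assoc]
      noncomm_ring [hx2, zero2 hx2, h0, h00]
    rw [h8, hT'] at h7
    rcases smul_eq_zero.1 h7 with h9 | h9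
    · exact h2 (by linear_combination -h9)
    · exact ha.2.1 h9
  by_contra hne
  have hne' : x * a - a * x ≠ 0 := fun h => hne (sub_eq_zero.1 h)
  have f1 := (gamma_one h2 hx ha (hH a ha)).2
  have hr : rk (x * a - a * x) ≤ rk a := (rk_sub_le _ _).trans (rk_add_le (g2 a ha))
  have hc : Root G (x * a - a * x) := ha.of_rk_le f1 hne' hr
  obtain ⟨e, he, e1, e2⟩ := hG.exists_dual hc
  have h7 := sandwich_coeff h2 hs0 hs hH he ha.1
  apply he.2.1
  have h0 := hH e he
  have h0' : e * (x * e) = 0 := by rw [← h0, mul_assoc]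
  have h0'' : ∀ y, e * (x * (e * y)) = 0 := fun y => by rw [← zero_mul y, ← h0]; noncomm_ring
  rw [← e2, ← h7]
  noncomm_ring [h0', h0'']

/-- every family either commutes with all minimal families or splits off a minimal one -/
theorem central_or_split [FiniteDimensional k M] (hG : Good G) (h2 : (2 : k) ≠ 0) {s : k} (hs0 : s ≠ 0)
    (hs : s * s ≠ 1) {x : M →ₗ[k] M} (hx : Fam G x) :
    (∀ a, Root G a → x * a = a * x) ∨
    ∃ x', Root G x' ∧ x * x' = 0 ∧ x' * x = 0 ∧ Fam G (x - x') ∧ rk (x - x') < rk x := by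
  by_cases h : ∀ a, Root G a → a * x * a * x * a = 0
  · left
    intro a ha
    exact gamma hG h2 hs0 hs hx (fun a ha => nil_step hG h2 ha hx (h a ha)) ha
  · right
    push Not at h
    obtain ⟨a, ha, hne⟩ := h
    exact split hG h2 ha hx hne

end Cfsg.Agent.H84.QP
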