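import Mathlib
import Cfsg.Agent.H84.QP4
set_option autoImplicit false

/-! Quadratic pairs: the interface `Good`. -/

namespace Cfsg.Agent.H84.QP

open Cfsg

theorem two_ne_zero_of {k : Type*} [Field k] (hk2 : ringChar k ≠ 2) : (2 : k) ≠ 0 := by
  intro h
  apply hk2
  have h1 : ringChar k ∣ 2 := by
    rw [← ringChar.spec]; exact_mod_cast h
  have h2 : ringChar k ≠ 1 := by
    intro h1
    have := ringChar.Nat.cast_ringChar (R := k)
    rw [h1] at this
    simp at this
  exact ((Nat.dvd_prime Nat.prime_two).1 h1).resolve_left h2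

theorem exists_elt {k : Type*} [Field k] (hk2 : ringChar k ≠ 2) (hk3 : Nat.card k ≠ 3) :
    ∃ s : k, s ≠ 0 ∧ s * s ≠ 1 := by
  classical
  by_contra hcon
  push Not at hcon
  apply hk3
  have h2 := two_ne_zero_of hk2
  have h : ∀ s : k, s ∈ ({0, 1, -1} : Finset k) := by
    intro s
    by_cases hs : s = 0
    · simp [hs]
    · have := hcon s hs
      have h3 : (s - 1) * (s + 1) = 0 := by linear_combination this
      rcases mul_eq_zero.1 h3 with h4 | h4
      · simp [sub_eq_zero.1 h4]
      · simp [eq_neg_of_add_eq_zero_left h4]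
  have n1 : (0 : k) ≠ -1 := by
    intro h5
    have : (1 : k) = 0 := by linear_combination h5
    exact one_ne_zero this
  have n2 : (1 : k) ≠ -1 := by
    intro h5
    apply h2
    linear_combination h5
  have h4 : (Finset.card ({0, 1, -1} : Finset k)) = 3 := by
    rw [Finset.card_eq_three]
    exact ⟨0, 1, -1, zero_ne_one, n1, n2, rfl⟩
  have h5 : (Set.univ : Set k) = (({0, 1, -1} : Finset k) : Set k) := by
    ext s; simp only [Set.mem_univ, true_iff]; exact h s
  rw [← Set.ncard_univ, h5, Set.ncard_coe_finset, h4]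

variable {k : Type*} [Field k] {M : Type*} [AddCommGroup M] [Module k M]
variable {G : Subgroup (LinearMap.GeneralLinearGroup k M)}

theorem mem_same_iff [FiniteDimensional k M] {a : M →ₗ[k] M} (ha : Root G a) {g : LinearMap.GeneralLinearGroup k M} :
    g ∈ sameActionSubgroup G (unip a ha.1.1) ↔ g = 1 ∨ (Root G ((g : M →ₗ[k] M) - 1) ∧
      LinearMap.ker ((g : M →ₗ[k] M) - 1) = LinearMap.ker a ∧
      LinearMap.range ((g : M →ₗ[k] M) - 1) = LinearMap.range a) := by
  rw [← SetLike.mem_coe, sameActionSubgroup_coe]
  unfold sameActionClass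
  rw [Set.mem_union, Set.mem_ofPred_eq, Set.mem_singleton_iff, or_comm, mem_minimal_iff, unip_val,
    add_sub_cancel_left]

theorem self_mem_same [FiniteDimensional k M] {a : M →ₗ[k] M} (ha : Root G a) :
    unip a ha.1.1 ∈ sameActionSubgroup G (unip a ha.1.1) := by
  rw [mem_same_iff ha, unip_val, add_sub_cancel_left]; exact Or.inr ⟨ha, rfl, rfl⟩

theorem same_mem_root {a : M →ₗ[k] M} (ha : Root G a) :
    sameActionSubgroup G (unip a ha.1.1) ∈ quadraticRootSubgroups G :=
  ⟨_, unip_mem_minimal ha, rfl⟩

theorem eq_unip {g : LinearMap.GeneralLinearGroup k M} {b : M →ₗ[k] M} (hb : b * b = 0)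
    (h : (g : M →ₗ[k] M) - 1 = b) : g = unip b hb := by
  apply Units.ext; rw [unip_val, ← h]; abel

/-- membership for roots of the same type -/
theorem unip_mem_same [FiniteDimensional k M] {a b : M →ₗ[k] M} (ha : Root G a) (hb : Root G b)
    (h1 : LinearMap.ker b = LinearMap.ker a) (h2 : LinearMap.range b = LinearMap.range a) :
    unip b hb.1.1 ∈ sameActionSubgroup G (unip a ha.1.1) := by
  rw [mem_same_iff ha, unip_val, add_sub_cancel_left]; exact Or.inr ⟨hb, h1, h2⟩

theorem same_eq [FiniteDimensional k M] {a b : M →ₗ[k] M} (ha : Root G a) (hb : Root G b)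
    (h1 : LinearMap.ker b = LinearMap.ker a) (h2 : LinearMap.range b = LinearMap.range a) :
    sameActionSubgroup G (unip b hb.1.1) = sameActionSubgroup G (unip a ha.1.1) := by
  ext g
  rw [mem_same_iff ha, mem_same_iff hb, h1, h2]

theorem zero_of_unip [FiniteDimensional k M] {a b : M →ₗ[k] M} (ha : Root G a) (hb : Root G b)
    (h' : ⁅sameActionSubgroup G (unip a ha.1.1), sameActionSubgroup G (unip b hb.1.1)⁆ = ⊥ ∨
      ∃ L : Subgroup (LinearMap.GeneralLinearGroup k M),
        ((sameActionSubgroup G (unip a ha.1.1) ⊔ sameActionSubgroup G (unip b hb.1.1) :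
          Subgroup (LinearMap.GeneralLinearGroup k M)) : Set (LinearMap.GeneralLinearGroup k M)) ⊆
          quadraticUnipotentCore G L) : a * b * a = 0 ∧ b * a * b = 0 := by
  have ha2 := ha.1.1
  have hb2 := hb.1.1
  set E := sameActionSubgroup G (unip a ha.1.1) with hE
  set F := sameActionSubgroup G (unip b hb.1.1) with hF
  have sE : unip a ha.1.1 ∈ E := self_mem_same ha
  have sF : unip b hb.1.1 ∈ F := self_mem_same hb
  have sE' : unip a ha.1.1 ∈ E ⊔ F := Subgroup.mem_sup_left sE
  have sF' : unip b hb.1.1 ∈ E ⊔ F := Subgroup.mem_sup_right sF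
  rcases h' with h0 | ⟨L, hL⟩
  · have h1 : unip a ha.1.1 * unip b hb.1.1 = unip b hb.1.1 * unip a ha.1.1 := by
      rw [Subgroup.commutator_eq_bot_iff_le_centralizer] at h0
      exact (h0 sE _ sF).symm
    have h2 := congrArg (fun g : LinearMap.GeneralLinearGroup k M => (g : M →ₗ[k] M)) h1
    simp only [Units.val_mul, unip_val] at h2
    have h3 : a * b = b * a := by
      have e1 : (1 + a) * (1 + b) = 1 + a + b + a * b := by noncomm_ring
      have e2 : (1 + b) * (1 + a) = 1 + a + b + b * a := by noncomm_ring
      rw [e1, e2] at h2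
      exact add_left_cancel h2
    constructor
    · rw [h3, mul_assoc, ha2, mul_zero]
    · rw [← h3, mul_assoc, hb2, mul_zero]
  · obtain ⟨-, -, a1, a2, a3⟩ := hL sE'
    obtain ⟨-, -, b1, b2, b3⟩ := hL sF'
    have a1' : ∀ m, a m ∈ fixedSubmodule L := fun m => by
      have := a1 m
      rwa [unip_val, LinearMap.add_apply, Module.End.one_apply, add_sub_cancel_left] at this
    have b1' : ∀ m, b m ∈ fixedSubmodule L := fun m => by
      have := b1 m
      rwa [unip_val, LinearMap.add_apply, Module.End.one_apply, add_sub_cancel_left] at this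
    have a2' : ∀ m ∈ fixedSubmodule L, a m ∈ commutatorSubmodule L := fun m hm => by
      have := a2 m hm
      rwa [unip_val, LinearMap.add_apply, Module.End.one_apply, add_sub_cancel_left] at this
    have b2' : ∀ m ∈ fixedSubmodule L, b m ∈ commutatorSubmodule L := fun m hm => by
      have := b2 m hm
      rwa [unip_val, LinearMap.add_apply, Module.End.one_apply, add_sub_cancel_left] at this
    have a3' : ∀ m ∈ commutatorSubmodule L, a m = 0 := fun m hm => by
      have := a3 m hm
      rwa [unip_val, LinearMap.add_apply, Module.End.one_apply, add_eq_left] at this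
    have b3' : ∀ m ∈ commutatorSubmodule L, b m = 0 := fun m hm => by
      have := b3 m hm
      rwa [unip_val, LinearMap.add_apply, Module.End.one_apply, add_eq_left] at this
    constructor
    · ext m; exact a3' _ (b2' _ (a1' m))
    · ext m; exact b3' _ (a2' _ (b1' m))

theorem p1_of [FiniteDimensional k M] {a b : M →ₗ[k] M} (ha : Root G a) (hb : Root G b)
    (h : IsUnipotentOn (sameActionSubgroup G (unip a ha.1.1) ⊔ sameActionSubgroup G (unip b hb.1.1)) ∨
      (IsSpecialRankOnePair (sameActionSubgroup G (unip a ha.1.1)) (sameActionSubgroup G (unip b hb.1.1)) ∧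
        IsCompl (fixedSubmodule (sameActionSubgroup G (unip a ha.1.1) ⊔ sameActionSubgroup G (unip b hb.1.1)))
        (commutatorSubmodule (sameActionSubgroup G (unip a ha.1.1) ⊔ sameActionSubgroup G (unip b hb.1.1)))))
    (h' : IsUnipotentOn (sameActionSubgroup G (unip a ha.1.1) ⊔ sameActionSubgroup G (unip b hb.1.1)) →
      ⁅sameActionSubgroup G (unip a ha.1.1), sameActionSubgroup G (unip b hb.1.1)⁆ = ⊥ ∨
      ∃ L : Subgroup (LinearMap.GeneralLinearGroup k M),
        ((sameActionSubgroup G (unip a ha.1.1) ⊔ sameActionSubgroup G (unip b hb.1.1) :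
          Subgroup (LinearMap.GeneralLinearGroup k M)) : Set (LinearMap.GeneralLinearGroup k M)) ⊆
          quadraticUnipotentCore G L) :
    (a * b * a = 0 ∧ b * a * b = 0) ∨ ∃ b', Root G b' ∧ Opp a b b' := by
  have ha2 := ha.1.1
  have hb2 := hb.1.1
  set E := sameActionSubgroup G (unip a ha.1.1) with hE
  set F := sameActionSubgroup G (unip b hb.1.1) with hF
  have sE : unip a ha.1.1 ∈ E := self_mem_same ha
  have sF : unip b hb.1.1 ∈ F := self_mem_same hb
  have sE' : unip a ha.1.1 ∈ E ⊔ F := Subgroup.mem_sup_left sE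
  have sF' : unip b hb.1.1 ∈ E ⊔ F := Subgroup.mem_sup_right sF
  rcases h with hu | ⟨hr, hc⟩
  · exact Or.inl (zero_of_unip ha hb (h' hu))
  · right
    -- geometry
    have hVa : LinearMap.range a ≤ commutatorSubmodule (E ⊔ F) := by
      have : LinearMap.range (((unip a ha.1.1 : LinearMap.GeneralLinearGroup k M) : M →ₗ[k] M) - 1) ≤
          commutatorSubmodule (E ⊔ F) :=
        le_iSup₂_of_le (f := fun (g : LinearMap.GeneralLinearGroup k M) (_ : g ∈ E ⊔ F) =>
          LinearMap.range ((g : M →ₗ[k] M) - 1)) _ sE' le_rfl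
      rwa [unip_val, add_sub_cancel_left] at this
    have hVb : LinearMap.range b ≤ commutatorSubmodule (E ⊔ F) := by
      have : LinearMap.range (((unip b hb.1.1 : LinearMap.GeneralLinearGroup k M) : M →ₗ[k] M) - 1) ≤
          commutatorSubmodule (E ⊔ F) :=
        le_iSup₂_of_le (f := fun (g : LinearMap.GeneralLinearGroup k M) (_ : g ∈ E ⊔ F) =>
          LinearMap.range ((g : M →ₗ[k] M) - 1)) _ sF' le_rfl
      rwa [unip_val, add_sub_cancel_left] at this
    have hfix : ∀ m, a m = 0 → b m = 0 → m ∈ fixedSubmodule (E ⊔ F) := by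
      intro m h1 h2
      unfold fixedSubmodule
      rw [Submodule.mem_iInf]
      intro g
      rw [Submodule.mem_iInf]
      intro hg
      have hstab : E ⊔ F ≤ MulAction.stabilizer (LinearMap.GeneralLinearGroup k M) m := by
        refine sup_le ?_ ?_
        · intro g hg
          rw [MulAction.mem_stabilizer_iff]
          rcases (mem_same_iff ha).1 hg with rfl | ⟨-, h3, -⟩
          · simp
          · have : m ∈ LinearMap.ker ((g : M →ₗ[k] M) - 1) := by rw [h3]; exact h1
            rw [LinearMap.mem_ker, LinearMap.sub_apply, sub_eq_zero] at this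
            exact this
        · intro g hg
          rw [MulAction.mem_stabilizer_iff]
          rcases (mem_same_iff hb).1 hg with rfl | ⟨-, h3, -⟩
          · simp
          · have : m ∈ LinearMap.ker ((g : M →ₗ[k] M) - 1) := by rw [h3]; exact h2
            rw [LinearMap.mem_ker, LinearMap.sub_apply, sub_eq_zero] at this
            exact this
      have := hstab hg
      rw [MulAction.mem_stabilizer_iff] at this
      rw [LinearMap.mem_ker, LinearMap.sub_apply, sub_eq_zero]
      exact this
    have hdis : ∀ m, m ∈ fixedSubmodule (E ⊔ F) → m ∈ commutatorSubmodule (E ⊔ F) → m = 0 := by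
      intro m h1 h2
      have := hc.disjoint.le_bot ⟨h1, h2⟩
      simpa using this
    have hab0 : ∀ m, b (a m) = 0 → a m = 0 := fun m hm =>
      hdis _ (hfix _ (LinearMap.congr_fun ha2 m) hm) (hVa ⟨m, rfl⟩)
    have hba0 : ∀ m, a (b m) = 0 → b m = 0 := fun m hm =>
      hdis _ (hfix _ hm (LinearMap.congr_fun hb2 m)) (hVb ⟨m, rfl⟩)
    -- rank one condition
    have ha1 : unip a ha.1.1 ≠ 1 := by
      intro h
      have := congrArg (fun g : LinearMap.GeneralLinearGroup k M => (g : M →ₗ[k] M)) h
      simp only [unip_val, Units.val_one, add_eq_left] at this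
      exact ha.2.1 this
    obtain ⟨β, hβ, hβ1, hconj⟩ := hr.1.cond_left _ sE ha1
    rcases (mem_same_iff hb).1 hβ with h1 | ⟨hβR, hk, hrg⟩
    · exact absurd h1 hβ1
    · refine ⟨(β : M →ₗ[k] M) - 1, hβR, hrg, hk, ?_, ?_⟩
      all_goals
        obtain ⟨b', hb'⟩ : ∃ b', b' = (β : M →ₗ[k] M) - 1 := ⟨_, rfl⟩
        rw [← hb'] at hβR hk hrg ⊢
        have hββ : β = unip b' hβR.1.1 := eq_unip _ hb'.symm
        have hb'2 := hβR.1.1
        have key : a * b' * a = a := by
          have h3 : β⁻¹ * unip a ha.1.1 * β ∈ conjBy F (unip a ha.1.1)⁻¹ := by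
            rw [← hconj]
            exact ⟨_, sE, by simp⟩
          obtain ⟨f, hf, hf'⟩ := h3
          have h4 : β⁻¹ * unip a ha.1.1 * β = (unip a ha.1.1)⁻¹ * f * unip a ha.1.1 := by
            rw [← hf']; simp
          have hfr : ∀ m, ((f : M →ₗ[k] M) - 1) m ∈ LinearMap.range b := by
            intro m
            rcases (mem_same_iff hb).1 hf with h1 | ⟨-, -, h5⟩
            · rw [h1]; simp
            · rw [← h5]; exact ⟨m, rfl⟩
          have h5 : (1 - b') * a * (1 + b') = (1 - a) * ((f : M →ₗ[k] M) - 1) * (1 + a) := by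
            have h6 := congrArg (fun g : LinearMap.GeneralLinearGroup k M => (g : M →ₗ[k] M)) h4
            rw [hββ] at h6
            simp only [Units.val_mul, unip_val, unip_inv] at h6
            have e1 : (1 - b') * (1 + a) * (1 + b') = 1 + (1 - b') * a * (1 + b') := by
              noncomm_ring [hb'2]
            have e2 : (1 - a) * (f : M →ₗ[k] M) * (1 + a) = 1 + (1 - a) * ((f : M →ₗ[k] M) - 1) * (1 + a) := by
              noncomm_ring [ha2]
            rw [e1, e2] at h6
            exact add_left_cancel h6
          -- evaluate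
          ext m
          have h7 : ((1 - b') * a) m = ((1 - a) * ((f : M →ₗ[k] M) - 1) * (1 + a) * (1 - b')) m := by
            rw [← h5]
            have : (1 - b') * a * (1 + b') * (1 - b') = (1 - b') * a := by noncomm_ring [hb'2, zero2 hb'2]
            rw [this]
          obtain ⟨v, hv⟩ : ∃ v, v = ((f : M →ₗ[k] M) - 1) ((1 + a) ((1 - b') m)) := ⟨_, rfl⟩
          have hvr : v ∈ LinearMap.range b := by rw [hv]; exact hfr _
          have h8 : a m - b' (a m) = v - a v := by
            rw [hv]; exact h7
          obtain ⟨u, hu⟩ := hvr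
          have hb'r : b' (a m) ∈ LinearMap.range b := by rw [← hrg]; exact ⟨_, rfl⟩
          obtain ⟨u', hu'⟩ := hb'r
          have h9 : a (m + v) = b (u + u') := by
            rw [map_add, map_add, hu, hu', ← sub_eq_zero]
            have : a m + a v - (v + b' (a m)) = (a m - b' (a m)) - (v - a v) := by abel
            rw [this, h8, sub_self]
          have h10 : b (u + u') = 0 := by
            apply hba0
            rw [← h9]
            exact LinearMap.congr_fun ha2 _
          have h11 : b' (a m) = -v := by
            rw [← hu', ← hu]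
            rw [map_add] at h10
            exact eq_neg_of_add_eq_zero_right h10
          have h12 : a m = -(a v) := by
            rw [h10, map_add] at h9
            exact eq_neg_of_add_eq_zero_left h9
          change a (b' (a m)) = a m
          rw [h11, map_neg, ← h12]
      · exact key
      · rw [← sub_eq_zero]
        ext m
        have h3 : (b' * a * b' - b') m ∈ LinearMap.range b := by
          rw [← hrg]
          exact ⟨(a * b' - 1) m, by
            have : b' * (a * b' - 1) = b' * a * b' - b' := by noncomm_ring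
            rw [← this]; rfl⟩
        obtain ⟨u, hu⟩ := h3
        rw [← hu, LinearMap.zero_apply]
        apply hba0
        rw [hu]
        have : a * (b' * a * b' - b') = 0 := by
          have : a * (b' * a * b' - b') = (a * b' * a) * b' - a * b' := by noncomm_ring
          rw [this, key, sub_self]
        exact LinearMap.congr_fun this m

/-- opposition only depends on range and kernel -/
theorem Opp.ne_zero {a b b' : M →ₗ[k] M} (h : Opp a b b') (ha : a ≠ 0) {c : M →ₗ[k] M}
    (h1 : LinearMap.range c = LinearMap.range b) (h2 : LinearMap.ker c = LinearMap.ker b) : a * c * a ≠ 0 := by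
  intro h0
  apply ha
  ext m
  have hm : a (c (a m)) = 0 := LinearMap.congr_fun h0 m
  -- `a` is injective on `range b'`
  have h3 : c (a m) = 0 := by
    have : c (a m) ∈ LinearMap.range b' := by rw [h.range_eq, ← h1]; exact ⟨_, rfl⟩
    obtain ⟨n, hn⟩ := this
    rw [← hn] at hm ⊢
    have := LinearMap.congr_fun h.bab n
    change b' (a (b' n)) = b' n at this
    rw [← this, hm, map_zero]
  have h4 : a m ∈ LinearMap.ker b' := by rw [h.ker_eq, ← h2]; exact h3
  have h5 := LinearMap.congr_fun h.aba m
  change a (b' (a m)) = a m at h5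
  rw [LinearMap.mem_ker] at h4
  rw [← h5, h4, map_zero]; rfl

end Cfsg.Agent.H84.QP
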