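import Mathlib
import Cfsg.Agent.H84.QP4
import Cfsg.Agent.H84.QP5
set_option autoImplicit false

/-! Quadratic pairs: `G = G₀ C_G(G₀)`. -/

namespace Cfsg.Agent.H84.QP

open Cfsg

variable {k : Type*} [Field k] {M : Type*} [AddCommGroup M] [Module k M]
variable {G : Subgroup (LinearMap.GeneralLinearGroup k M)}

/-- the subgroup generated by the root subgroups -/
def G0 (G : Subgroup (LinearMap.GeneralLinearGroup k M)) : Subgroup (LinearMap.GeneralLinearGroup k M) :=
  ⨆ A ∈ quadraticRootSubgroups G, A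

theorem G0_le [FiniteDimensional k M] : G0 G ≤ G := by
  unfold G0
  refine iSup₂_le ?_
  rintro A ⟨σ, hσ, rfl⟩
  unfold sameActionSubgroup
  rw [Subgroup.closure_le]
  intro τ hτ
  exact hτ.1.1.1

theorem unip_mem_G0 [FiniteDimensional k M] {a : M →ₗ[k] M} (ha : Root G a) : unip a ha.1.1 ∈ G0 G := by
  unfold G0
  exact Subgroup.mem_iSup_of_mem _ (Subgroup.mem_iSup_of_mem (same_mem_root ha) (self_mem_same ha))

/-- induction principle: the centralizer of `G₀` -/
theorem mem_centralizer_G0 {g : LinearMap.GeneralLinearGroup k M}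
    (h : ∀ a, Root G a → (g : M →ₗ[k] M) * a = a * g) : g ∈ Subgroup.centralizer (G0 G : Set _) := by
  have h1 : G0 G ≤ Subgroup.centralizer {g} := by
    unfold G0
    refine iSup₂_le ?_
    rintro A ⟨σ, hσ, rfl⟩
    unfold sameActionSubgroup
    rw [Subgroup.closure_le]
    intro τ hτ
    rw [SetLike.mem_coe, Subgroup.mem_centralizer_iff]
    intro h' hh'
    rw [Set.mem_singleton_iff.1 hh']
    apply Units.ext
    rw [Units.val_mul, Units.val_mul]
    have h2 := h _ (mem_minimal_iff.1 hτ.1)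
    have e1 : (g : M →ₗ[k] M) * ((τ : M →ₗ[k] M) - 1) = g * τ - g := by rw [mul_sub, mul_one]
    have e2 : ((τ : M →ₗ[k] M) - 1) * (g : M →ₗ[k] M) = τ * g - g := by rw [sub_mul, one_mul]
    rw [e1, e2] at h2
    exact sub_left_inj.1 h2
  rw [Subgroup.mem_centralizer_iff]
  intro h' hh'
  have := h1 hh'
  rw [Subgroup.mem_centralizer_iff] at this
  exact (this g rfl).symm

theorem Root.comm_iff_unip {a : M →ₗ[k] M} (ha : a * a = 0) {x : M →ₗ[k] M} (hx : x * x = 0) :
    unip x hx * unip a ha = unip a ha * unip x hx ↔ x * a = a * x := by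
  rw [Units.ext_iff]
  rw [Units.val_mul, Units.val_mul, unip_val, unip_val]
  have e1 : (1 + x) * (1 + a) = (1 + a + x) + x * a := by noncomm_ring
  have e2 : (1 + a) * (1 + x) = (1 + a + x) + a * x := by noncomm_ring
  rw [e1, e2, add_right_inj]

theorem mem_sup_of_fam [FiniteDimensional k M] (hG : Good G) (h2 : (2 : k) ≠ 0) {s : k} (hs0 : s ≠ 0)
    (hs : s * s ≠ 1) : ∀ (n : ℕ) (x : M →ₗ[k] M) (hx : Fam G x), rk x ≤ n →
      unip x hx.1 ∈ G0 G ⊔ (G ⊓ Subgroup.centralizer (G0 G : Set _)) := by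
  intro n
  induction n with
  | zero =>
    intro x hx hr
    have : x = 0 := by
      have h1 : LinearMap.range x = ⊥ := Submodule.finrank_eq_zero.1 (Nat.le_zero.1 hr)
      exact LinearMap.range_eq_bot.1 h1
    subst this
    have : unip (0 : M →ₗ[k] M) hx.1 = 1 := Units.ext (by rw [unip_val, add_zero]; rfl)
    rw [this]; exact one_mem _
  | succ n ih =>
    intro x hx hr
    rcases central_or_split hG h2 hs0 hs hx with h | ⟨x', hx', p1, p2, hf, hlt⟩
    · apply Subgroup.mem_sup_right
      refine ⟨hx.unip_mem', mem_centralizer_G0 fun a ha => ?_⟩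
      rw [unip_val, add_mul, mul_add, one_mul, mul_one, h a ha]
    · have h1 : unip x hx.1 = unip x' hx'.1.1 * unip (x - x') hf.1 := by
        apply Units.ext
        rw [Units.val_mul, unip_val, unip_val, unip_val]
        have : (1 + x') * (1 + (x - x')) = 1 + x + x' * x - x' * x' := by noncomm_ring
        rw [this, p2, hx'.1.1]; simp
      rw [h1]
      exact mul_mem (Subgroup.mem_sup_left (unip_mem_G0 hx')) (ih _ hf (by omega))

theorem G_eq_sup [FiniteDimensional k M] (hG : Good G) (h2 : (2 : k) ≠ 0) {s : k} (hs0 : s ≠ 0)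
    (hs : s * s ≠ 1) (hgen : Subgroup.closure (quadraticElements G) = G) :
    G0 G ⊔ (G ⊓ Subgroup.centralizer (G0 G : Set _)) = G := by
  apply le_antisymm
  · exact sup_le G0_le inf_le_left
  · conv_lhs => rw [← hgen]
    rw [Subgroup.closure_le]
    intro σ hσ
    obtain ⟨h1, h3⟩ := mem_quadraticElements_iff.1 hσ
    have h4 : σ = unip _ h1.1 := eq_unip _ rfl
    rw [h4]
    exact mem_sup_of_fam hG h2 hs0 hs _ _ h1 le_rfl

end Cfsg.Agent.H84.QP
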