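import Mathlib
import Cfsg.Agent.H84.QP7
set_option autoImplicit false

/-! Clifford theory for subnormal subgroups of irreducible linear groups: unipotent commutative ones are trivial. -/

namespace Cfsg.Agent.H84.QP

open Cfsg

variable {k : Type*} [Field k] {M : Type*} [AddCommGroup M] [Module k M]

/-- `W` is invariant under `K` -/
def Inv (K : Subgroup (LinearMap.GeneralLinearGroup k M)) (W : Submodule k M) : Prop :=
  ∀ g ∈ K, ∀ w ∈ W, (g : M →ₗ[k] M) w ∈ W

/-- `W` is an irreducible `K`-subspace -/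
def Irr (K : Subgroup (LinearMap.GeneralLinearGroup k M)) (W : Submodule k M) : Prop :=
  Inv K W ∧ W ≠ ⊥ ∧ ∀ W' ≤ W, Inv K W' → W' = ⊥ ∨ W' = W

/-- `M` is the sum of its irreducible `K`-subspaces -/
def SS (K : Subgroup (LinearMap.GeneralLinearGroup k M)) : Prop :=
  ∀ T : Submodule k M, (∀ W, Irr K W → W ≤ T) → T = ⊤

theorem exists_irr [FiniteDimensional k M] {K : Subgroup (LinearMap.GeneralLinearGroup k M)} {W : Submodule k M}
    (hW : Inv K W) (hne : W ≠ ⊥) : ∃ W' ≤ W, Irr K W' := by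
  -- induction on dimension
  have : ∀ (n : ℕ) (W : Submodule k M), Module.finrank k W ≤ n → Inv K W → W ≠ ⊥ → ∃ W' ≤ W, Irr K W' := by
    intro n
    induction n with
    | zero =>
      intro W h1 _ h2
      exact absurd (Submodule.finrank_eq_zero.1 (Nat.le_zero.1 h1)) h2
    | succ n ih =>
      intro W h1 h2 h3
      by_cases h : ∃ W' ≤ W, Inv K W' ∧ W' ≠ ⊥ ∧ W' ≠ W
      · obtain ⟨W', h4, h5, h6, h7⟩ := h
        have h8 : Module.finrank k W' < Module.finrank k W := Submodule.finrank_lt_finrank_of_lt (lt_of_le_of_ne h4 h7)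
        obtain ⟨W'', h9, h10⟩ := ih W' (by omega) h5 h6
        exact ⟨W'', h9.trans h4, h10⟩
      · refine ⟨W, le_rfl, h2, h3, fun W' h4 h5 => ?_⟩
        by_contra hcon
        push Not at hcon
        exact h ⟨W', h4, h5, hcon.1, hcon.2⟩
  exact this _ W le_rfl hW hne

theorem gl_inv_apply (g : LinearMap.GeneralLinearGroup k M) (m : M) :
    (g : M →ₗ[k] M) (((g⁻¹ : LinearMap.GeneralLinearGroup k M) : M →ₗ[k] M) m) = m := by
  change ((g : M →ₗ[k] M) * ((g⁻¹ : LinearMap.GeneralLinearGroup k M) : M →ₗ[k] M)) m = m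
  rw [← Units.val_mul, mul_inv_cancel]; rfl

theorem gl_apply_inv (g : LinearMap.GeneralLinearGroup k M) (m : M) :
    ((g⁻¹ : LinearMap.GeneralLinearGroup k M) : M →ₗ[k] M) ((g : M →ₗ[k] M) m) = m := by
  have := gl_inv_apply g⁻¹ m
  rwa [inv_inv] at this

/-- translate of an irreducible subspace by a normalizing element -/
theorem Irr.map {K : Subgroup (LinearMap.GeneralLinearGroup k M)} {W : Submodule k M} (h : Irr K W)
    {g : LinearMap.GeneralLinearGroup k M} (hg : ∀ x, x ∈ K ↔ g⁻¹ * x * g ∈ K) : Irr K (W.map (g : M →ₗ[k] M)) := by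
  have hinv : ∀ (h : LinearMap.GeneralLinearGroup k M), (∀ x ∈ K, h⁻¹ * x * h ∈ K) → ∀ W : Submodule k M, Inv K W →
      Inv K (W.map (h : M →ₗ[k] M)) := by
    rintro h hh W hW x hx _ ⟨w, hw, rfl⟩
    refine ⟨((h⁻¹ * x * h : LinearMap.GeneralLinearGroup k M) : M →ₗ[k] M) w, hW _ (hh x hx) w hw, ?_⟩
    have : (h : M →ₗ[k] M) (((h⁻¹ : LinearMap.GeneralLinearGroup k M) : M →ₗ[k] M) ((x : M →ₗ[k] M) ((h : M →ₗ[k] M) w))) =
      (x : M →ₗ[k] M) ((h : M →ₗ[k] M) w) := gl_inv_apply h _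
    rw [← this]; rfl
  refine ⟨hinv g (fun x hx => (hg x).1 hx) W h.1, ?_, fun W' h1 h2 => ?_⟩
  · intro h0
    apply h.2.1
    rw [eq_bot_iff]
    intro w hw
    have : (g : M →ₗ[k] M) w ∈ W.map (g : M →ₗ[k] M) := ⟨w, hw, rfl⟩
    rw [h0, Submodule.mem_bot] at this
    rw [Submodule.mem_bot, ← gl_apply_inv g w, this, map_zero]
  · have h3 : W'.map ((g⁻¹ : LinearMap.GeneralLinearGroup k M) : M →ₗ[k] M) ≤ W := by
      rintro _ ⟨w, hw, rfl⟩
      obtain ⟨v, hv, rfl⟩ := h1 hw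
      rw [gl_apply_inv]; exact hv
    have h4 := hinv g⁻¹ (fun x hx => by
      rw [inv_inv, hg]
      have : g⁻¹ * (g * x * g⁻¹) * g = x := by group
      rw [this]; exact hx) W' h2
    have h5 : ∀ V : Submodule k M, (V.map ((g⁻¹ : LinearMap.GeneralLinearGroup k M) : M →ₗ[k] M)).map (g : M →ₗ[k] M) = V := by
      intro V
      ext m
      constructor
      · rintro ⟨_, ⟨v, hv, rfl⟩, rfl⟩
        rw [gl_inv_apply]; exact hv
      · intro hm
        exact ⟨_, ⟨m, hm, rfl⟩, gl_inv_apply g m⟩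
    rcases h.2.2 _ h3 h4 with h6 | h6
    · left; rw [← h5 W', h6, Submodule.map_bot]
    · right; rw [← h5 W', h6]

/-- Clifford -/
theorem SS.normal [FiniteDimensional k M] {K N : Subgroup (LinearMap.GeneralLinearGroup k M)} (h : SS K)
    (hNK : N ≤ K) (hN : ∀ g ∈ K, ∀ x ∈ N, g * x * g⁻¹ ∈ N) : SS N := by
  intro T hT
  apply h
  intro W hW
  -- the sum of all irreducible `N`-subspaces is `K`-invariant
  obtain ⟨T', hT'⟩ : ∃ T' : Submodule k M, T' = sSup {V | Irr N V} := ⟨_, rfl⟩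
  have hT'inv : Inv K T' := by
    intro g hg w hw
    have h1 : T' ≤ T'.comap (g : M →ₗ[k] M) := by
      conv_lhs => rw [hT']
      refine sSup_le fun V hV v hv => ?_
      rw [Submodule.mem_comap, hT']
      refine Submodule.mem_sSup_of_mem (s := V.map (g : M →ₗ[k] M)) (Irr.map hV fun x => ⟨fun hx => ?_, fun hx => ?_⟩) ⟨v, hv, rfl⟩
      · have := hN g⁻¹ (inv_mem hg) x hx
        rwa [inv_inv] at this
      · have := hN g hg _ hx
        have e : g * (g⁻¹ * x * g) * g⁻¹ = x := by group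
        rwa [e] at this
    exact h1 hw
  have hWN : Inv N W := fun g hg w hw => hW.1 g (hNK hg) w hw
  obtain ⟨W', hW', hirr⟩ := exists_irr hWN hW.2.1
  have h1 : Inv K (W ⊓ T') := fun g hg w hw => ⟨hW.1 g hg w hw.1, hT'inv g hg w hw.2⟩
  have h2 : W' ≤ W ⊓ T' := le_inf hW' (by rw [hT']; exact le_sSup hirr)
  rcases hW.2.2 _ inf_le_left h1 with h3 | h3
  · exfalso
    apply hirr.2.1
    rw [h3] at h2
    exact le_bot_iff.1 h2
  · have h4 : W ≤ T' := by rw [← h3]; exact inf_le_right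
    refine h4.trans ?_
    rw [hT']
    exact sSup_le hT

/-- common fixed vector of a commuting family of unipotents -/
theorem exists_fixed [FiniteDimensional k M] {U : Subgroup (LinearMap.GeneralLinearGroup k M)}
    (hcomm : ∀ x ∈ U, ∀ y ∈ U, x * y = y * x) (hnil : ∀ x ∈ U, IsNilpotent ((x : M →ₗ[k] M) - 1))
    {W : Submodule k M} (hW : Inv U W) (hne : W ≠ ⊥) : ∃ w ∈ W, w ≠ 0 ∧ ∀ x ∈ U, (x : M →ₗ[k] M) w = w := by
  obtain ⟨W', hW', hirr⟩ := exists_irr hW hne
  obtain ⟨w, hw, hw0⟩ := (Submodule.ne_bot_iff _).1 hirr.2.1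
  refine ⟨w, hW' hw, hw0, fun x hx => ?_⟩
  -- `ker (x - 1) ⊓ W'` is invariant and nonzero
  have h1 : Inv U (LinearMap.ker ((x : M →ₗ[k] M) - 1) ⊓ W') := by
    intro g hg v hv
    refine ⟨?_, hirr.1 g hg v hv.2⟩
    have h2 := hv.1
    rw [SetLike.mem_coe, LinearMap.mem_ker, LinearMap.sub_apply, sub_eq_zero] at h2 ⊢
    have h3 := congrArg (fun g : LinearMap.GeneralLinearGroup k M => (g : M →ₗ[k] M) v) (hcomm x hx g hg)
    change (x : M →ₗ[k] M) ((g : M →ₗ[k] M) v) = (g : M →ₗ[k] M) ((x : M →ₗ[k] M) v) at h3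
    rw [h3]
    change (g : M →ₗ[k] M) ((x : M →ₗ[k] M) v) = (g : M →ₗ[k] M) v
    rw [show (x : M →ₗ[k] M) v = v from h2]
  rcases hirr.2.2 _ inf_le_right h1 with h2 | h2
  · exfalso
    -- nilpotent operator on `W'` is injective: contradiction
    obtain ⟨n, hn⟩ := hnil x hx
    have h3 : ∀ n : ℕ, ∀ v ∈ W', (((x : M →ₗ[k] M) - 1) ^ n) v = 0 → v = 0 := by
      intro n
      induction n with
      | zero => intro v _ h; simpa using h
      | succ n ih =>
        intro v hv h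
        rw [pow_succ] at h
        have h4 : ((x : M →ₗ[k] M) - 1) v ∈ W' := by
          rw [LinearMap.sub_apply]
          exact Submodule.sub_mem _ (hirr.1 x hx v hv) hv
        have h5 := ih _ h4 h
        have h6 : v ∈ LinearMap.ker ((x : M →ₗ[k] M) - 1) ⊓ W' := ⟨h5, hv⟩
        rw [h2] at h6
        exact (Submodule.mem_bot k).1 h6
    exact hw0 (h3 n w hw (by rw [hn]; rfl))
  · have : w ∈ LinearMap.ker ((x : M →ₗ[k] M) - 1) ⊓ W' := by rw [h2]; exact hw
    have h3 := this.1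
    rw [SetLike.mem_coe, LinearMap.mem_ker, LinearMap.sub_apply, sub_eq_zero] at h3
    exact h3

/-- a normal commutative unipotent subgroup of a semisimple group is trivial -/
theorem SS.unipotent [FiniteDimensional k M] {K U : Subgroup (LinearMap.GeneralLinearGroup k M)} (h : SS K)
    (hUK : U ≤ K) (hU : ∀ g ∈ K, ∀ x ∈ U, g * x * g⁻¹ ∈ U)
    (hcomm : ∀ x ∈ U, ∀ y ∈ U, x * y = y * x) (hnil : ∀ x ∈ U, IsNilpotent ((x : M →ₗ[k] M) - 1)) : U = ⊥ := by
  have hfix : fixedSubmodule U = ⊤ := by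
    apply h
    intro W hW
    have hmem : ∀ m, m ∈ fixedSubmodule U ↔ ∀ x ∈ U, (x : M →ₗ[k] M) m = m := by
      intro m
      unfold fixedSubmodule
      rw [Submodule.mem_iInf]
      refine forall_congr' fun x => ?_
      rw [Submodule.mem_iInf]
      refine forall_congr' fun hx => ?_
      rw [LinearMap.mem_ker, LinearMap.sub_apply, sub_eq_zero]
      rfl
    have h1 : Inv K (W ⊓ fixedSubmodule U) := by
      intro g hg w hw
      refine ⟨hW.1 g hg w hw.1, ?_⟩
      rw [SetLike.mem_coe, hmem]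
      intro x hx
      have h2 := hU g⁻¹ (inv_mem hg) x hx
      rw [inv_inv] at h2
      have h3 := (hmem w).1 hw.2 _ h2
      have h4 : (g : M →ₗ[k] M) (((g⁻¹ * x * g : LinearMap.GeneralLinearGroup k M) : M →ₗ[k] M) w) = (g : M →ₗ[k] M) w := by
        rw [h3]
      have h5 : (g : M →ₗ[k] M) (((g⁻¹ * x * g : LinearMap.GeneralLinearGroup k M) : M →ₗ[k] M) w) =
          (x : M →ₗ[k] M) ((g : M →ₗ[k] M) w) := gl_inv_apply g _
      rw [← h5]; exact h4
    obtain ⟨w, hw, hw0, hwx⟩ := exists_fixed hcomm hnil (W := W) (fun g hg w hw => hW.1 g (hUK hg) w hw) hW.2.1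
    rcases hW.2.2 _ inf_le_left h1 with h2 | h2
    · exfalso
      apply hw0
      have : w ∈ W ⊓ fixedSubmodule U := ⟨hw, (hmem w).2 hwx⟩
      rw [h2] at this
      exact (Submodule.mem_bot k).1 this
    · rw [← h2]; exact inf_le_right
  rw [eq_bot_iff]
  intro x hx
  rw [Subgroup.mem_bot]
  apply Units.ext
  ext m
  have : m ∈ fixedSubmodule U := by rw [hfix]; exact Submodule.mem_top
  unfold fixedSubmodule at this
  rw [Submodule.mem_iInf] at this
  have := this x
  rw [Submodule.mem_iInf] at this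
  have := this hx
  rw [LinearMap.mem_ker, LinearMap.sub_apply, sub_eq_zero] at this
  exact this

theorem SS.of_irreducible {K : Subgroup (LinearMap.GeneralLinearGroup k M)} (h : IsIrreducibleFor K) : SS K := by
  intro T hT
  have h1 : (⊤ : Submodule k M) ≤ T := by
    apply hT
    refine ⟨fun _ _ _ _ => Submodule.mem_top, ?_, fun W' _ h2 => h.2 W' h2⟩
    obtain ⟨m, hm⟩ := h.1
    intro h0
    apply hm
    have : m ∈ (⊤ : Submodule k M) := Submodule.mem_top
    rw [h0] at this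
    exact (Submodule.mem_bot k).1 this
  exact top_le_iff.1 h1

end Cfsg.Agent.H84.QP
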