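import Mathlib
import Cfsg.Agent.H84.QP5
import Cfsg.Agent.S5062
import Cfsg.Agent.S5065
import Cfsg.Agent.S5068
set_option autoImplicit false
universe u

/-! Quadratic pairs satisfy the interface `Good`. -/

namespace Cfsg.Agent.H84.QP

open Cfsg

section
variable {k : Type u} [Field k] (hk2 : ringChar k ≠ 2) (hk3 : Nat.card k ≠ 3)
    {M : Type u} [AddCommGroup M] [Module k M] [FiniteDimensional k M]
    {G : Subgroup (LinearMap.GeneralLinearGroup k M)} (hG : IsQuadraticPair G)
include hk2 hk3 hG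

theorem p1 {a b : M →ₗ[k] M} (ha : Root G a) (hb : Root G b) :
    (a * b * a = 0 ∧ b * a * b = 0) ∨ ∃ b', Root G b' ∧ Opp a b b' := by
  apply p1_of ha hb
  · rcases Cfsg.Agent.S5065.result hk2 hk3 hG (unip_mem_minimal ha) (unip_mem_minimal hb) with h | ⟨h1, -, h2⟩
    · exact Or.inl h
    · exact Or.inr ⟨h1, h2⟩
  · intro hu
    rcases Cfsg.Agent.S5068.result hk2 hk3 hG (same_mem_root ha) (same_mem_root hb) hu with h | ⟨-, -, -, -, -, h⟩
    · exact Or.inl h
    · exact Or.inr ⟨_, h⟩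

theorem rank_one_opp {a b : M →ₗ[k] M} (ha : Root G a) (hb : Root G b)
    (h : IsRankOnePair (sameActionSubgroup G (unip a ha.1.1)) (sameActionSubgroup G (unip b hb.1.1))) :
    a * b * a ≠ 0 := by
  intro h0
  have ha2 := ha.1.1
  have hb2 := hb.1.1
  have hz : ∀ c, Root G c → LinearMap.ker c = LinearMap.ker b → LinearMap.range c = LinearMap.range b →
      a * c * a = 0 ∧ c * a * c = 0 := by
    intro c hc h1 h2
    rcases p1 hk2 hk3 hG ha hc with h3 | ⟨b', -, ho⟩
    · exact h3
    · exact absurd h0 (ho.ne_zero ha.2.1 h2.symm h1.symm)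
  have ha1 : unip a ha.1.1 ≠ 1 := by
    intro h
    have := congrArg (fun g : LinearMap.GeneralLinearGroup k M => (g : M →ₗ[k] M)) h
    simp only [unip_val, Units.val_one, add_eq_left] at this
    exact ha.2.1 this
  obtain ⟨β, hβ, hβ1, hconj⟩ := h.cond_left _ (self_mem_same ha) ha1
  rcases (mem_same_iff hb).1 hβ with h1 | ⟨hβR, hk, hrg⟩
  · exact absurd h1 hβ1
  obtain ⟨b', hb'⟩ : ∃ b', b' = (β : M →ₗ[k] M) - 1 := ⟨_, rfl⟩
  rw [← hb'] at hβR hk hrg
  have hββ : β = unip b' hβR.1.1 := eq_unip _ hb'.symm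
  have hb'2 := hβR.1.1
  obtain ⟨z1, z2⟩ := hz b' hβR hk hrg
  have h3 : β⁻¹ * unip a ha.1.1 * β ∈ conjBy (sameActionSubgroup G (unip b hb.1.1)) (unip a ha.1.1)⁻¹ := by
    rw [← hconj]
    exact ⟨_, self_mem_same ha, by simp⟩
  obtain ⟨f, hf, hf'⟩ := h3
  have h4 : β⁻¹ * unip a ha.1.1 * β = (unip a ha.1.1)⁻¹ * f * unip a ha.1.1 := by
    rw [← hf']; simp
  rcases (mem_same_iff hb).1 hf with h1 | ⟨hfR, hkf, hrf⟩
  · rw [h1] at h4
    apply ha1
    have : unip a ha.1.1 = β * ((unip a ha.1.1)⁻¹ * 1 * unip a ha.1.1) * β⁻¹ := by rw [← h4]; group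
    rw [this]; group
  · obtain ⟨f', hf''⟩ : ∃ f', f' = (f : M →ₗ[k] M) - 1 := ⟨_, rfl⟩
    rw [← hf''] at hfR hkf hrf
    have hff : f = unip f' hfR.1.1 := eq_unip _ hf''.symm
    have hf2 := hfR.1.1
    obtain ⟨y1, y2⟩ := hz f' hfR hkf hrf
    have bf : b' * f' = 0 := mul_eq_zero_of (by rw [hrf, hk]; exact range_le_ker hb2)
    have fb : f' * b' = 0 := mul_eq_zero_of (by rw [hrg, hkf]; exact range_le_ker hb2)
    have h6 := congrArg (fun g : LinearMap.GeneralLinearGroup k M => (g : M →ₗ[k] M)) h4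
    rw [hββ, hff] at h6
    simp only [Units.val_mul, unip_val, unip_inv] at h6
    have e1 : (1 - b') * (1 + a) * (1 + b') = 1 + (a + a * b' - b' * a) := by
      have : (1 - b') * (1 + a) * (1 + b') = 1 + (a + a * b' - b' * a) - b' * a * b' - b' * b' := by noncomm_ring
      rw [this, z2, hb'2]; simp
    have e2 : (1 - a) * (1 + f') * (1 + a) = 1 + (f' + f' * a - a * f') := by
      have : (1 - a) * (1 + f') * (1 + a) = 1 + (f' + f' * a - a * f') - a * f' * a - a * a := by noncomm_ring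
      rw [this, y1, ha2]; simp
    rw [e1, e2] at h6
    have h7 := add_left_cancel h6
    have a1 : a * f' = 0 := by
      have h8 : a * (a + a * b' - b' * a) = a * (f' + f' * a - a * f') := by rw [h7]
      have l : a * (a + a * b' - b' * a) = -(a * b' * a) + a * a + (a * a) * b' := by noncomm_ring
      have r : a * (f' + f' * a - a * f') = a * f' + a * f' * a - (a * a) * f' := by noncomm_ring
      rw [l, r, z1, ha2, y1] at h8
      simpa using h8.symm
    have a2 : f' * a = 0 := by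
      have h8 : (a + a * b' - b' * a) * a = (f' + f' * a - a * f') * a := by rw [h7]
      have l : (a + a * b' - b' * a) * a = a * a + a * b' * a - b' * (a * a) := by noncomm_ring
      have r : (f' + f' * a - a * f') * a = f' * a + f' * (a * a) - a * f' * a := by noncomm_ring
      rw [l, r, z1, ha2, y1] at h8
      simpa using h8.symm
    rw [a1, a2, add_zero, sub_zero] at h7
    have a3 : b' * a = 0 := by
      have h8 : b' * (a + a * b' - b' * a) = b' * f' := by rw [h7]
      have l : b' * (a + a * b' - b' * a) = b' * a + b' * a * b' - (b' * b') * a := by noncomm_ring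
      rw [l, z2, hb'2, bf] at h8
      simpa using h8
    have a4 : a * b' = 0 := by
      have h8 : (a + a * b' - b' * a) * b' = f' * b' := by rw [h7]
      have l : (a + a * b' - b' * a) * b' = a * b' + a * (b' * b') - b' * a * b' := by noncomm_ring
      rw [l, z2, hb'2, fb] at h8
      simpa using h8
    rw [a3, a4, add_zero, sub_zero] at h7
    apply h.ne
    exact same_eq hb ha (by rw [h7, hkf]) (by rw [h7, hrf])

theorem good : Good G := by
  refine ⟨fun a b ha hb => p1 hk2 hk3 hG ha hb, fun a ha => ?_⟩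
  have h := (Cfsg.Agent.S5062.result hk2 hk3 hG).2.1 _ (same_mem_root ha)
  unfold IsIsolatedIn at h
  push Not at h
  obtain ⟨B, hB⟩ := h (same_mem_root ha)
  have hB' : B ∈ quadraticRootSubgroups G ∧ IsRankOnePair (sameActionSubgroup G (unip a ha.1.1)) B := by
    by_cases h1 : FAdj (quadraticRootSubgroups G) (sameActionSubgroup G (unip a ha.1.1)) B
    · exact ⟨h1.2.1, h1.2.2⟩
    · have h2 := hB h1
      exact ⟨h2.1, RankOnePair_symm h2.2.2⟩
  obtain ⟨⟨τ, hτ, rfl⟩, hr⟩ := hB'
  have hb := mem_minimal_iff.1 hτ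
  have hτ' : τ = unip _ hb.1.1 := eq_unip _ rfl
  refine ⟨_, hb, ?_⟩
  apply rank_one_opp hk2 hk3 hG ha hb
  rw [← hτ']
  exact hr

end

end Cfsg.Agent.H84.QP
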