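import Mathlib
import Cfsg.Prelude.Def_RootSubgroups
set_option autoImplicit false

/-!
# Abstract root subgroups I: conjugation, rank one pairs, the commutator case (helper84)
-/

namespace Cfsg.Agent.H84

open Cfsg
open scoped commutatorElement

variable {G : Type*} [Group G] {A B C D E F : Subgroup G}

theorem mem_conjBy {A : Subgroup G} {g x : G} : x ∈ conjBy A g ↔ g⁻¹ * x * g ∈ A := by
  rw [Subgroup.mem_map]
  constructor
  · rintro ⟨y, hy, rfl⟩
    simpa [mul_assoc] using hy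
  · intro h
    exact ⟨_, h, by simp [mul_assoc]⟩

theorem conj_mem_conjBy {A : Subgroup G} {g x : G} (h : x ∈ A) : g * x * g⁻¹ ∈ conjBy A g :=
  ⟨x, h, rfl⟩

theorem conjBy_conjBy (A : Subgroup G) (g h : G) : conjBy (conjBy A g) h = conjBy A (h * g) := by
  ext x
  rw [mem_conjBy, mem_conjBy, mem_conjBy, mul_inv_rev]
  simp only [mul_assoc]

theorem conjBy_one (A : Subgroup G) : conjBy A 1 = A := by
  ext x
  rw [mem_conjBy]; simp

theorem conjBy_inj {A B : Subgroup G} {g : G} : conjBy A g = conjBy B g ↔ A = B := by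
  constructor
  · intro h
    have := congrArg (fun X => conjBy X g⁻¹) h
    simpa only [conjBy_conjBy, inv_mul_cancel, conjBy_one] using this
  · rintro rfl; rfl

theorem conjBy_eq_iff {A B : Subgroup G} {g : G} : conjBy A g = B ↔ A = conjBy B g⁻¹ := by
  rw [← conjBy_inj (g := g) (A := A), conjBy_conjBy, mul_inv_cancel, conjBy_one]

theorem conjBy_self {A : Subgroup G} {g : G} (h : g ∈ A) : conjBy A g = A := by
  ext x
  rw [mem_conjBy]
  constructor
  · intro hx
    have := A.mul_mem (A.mul_mem h hx) (A.inv_mem h)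
    simpa [mul_assoc] using this
  · intro hx
    exact A.mul_mem (A.mul_mem (A.inv_mem h) hx) h

theorem conjBy_of_comm {A : Subgroup G} {g : G} (h : ∀ x ∈ A, x * g = g * x) : conjBy A g = A := by
  ext x
  rw [mem_conjBy]
  constructor
  · intro hx
    have h1 := h _ hx
    have : x = g⁻¹ * x * g := by
      calc x = g * (g⁻¹ * x * g) * g⁻¹ := by group
        _ = (g⁻¹ * x * g) * g * g⁻¹ := by rw [h1]
        _ = _ := by group
    rw [this]; exact hx
  · intro hx
    have h1 := h _ hx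
    have : g⁻¹ * x * g = x := by rw [mul_assoc, h1]; group
    rw [this]; exact hx

theorem conjBy_mono {A B : Subgroup G} (h : A ≤ B) (g : G) : conjBy A g ≤ conjBy B g := Subgroup.map_mono h

theorem conjBy_sup (A B : Subgroup G) (g : G) : conjBy (A ⊔ B) g = conjBy A g ⊔ conjBy B g := Subgroup.map_sup _ _ _

theorem conjBy_commutator (A B : Subgroup G) (g : G) : conjBy ⁅A, B⁆ g = ⁅conjBy A g, conjBy B g⁆ :=
  Subgroup.map_commutator _ _ _

theorem conjBy_bot (g : G) : conjBy (⊥ : Subgroup G) g = ⊥ := Subgroup.map_bot _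

theorem conjBy_ne_bot {g : G} (h : A ≠ ⊥) : conjBy A g ≠ ⊥ := by
  intro h'
  rw [conjBy_eq_iff, conjBy_bot] at h'
  exact h h'

theorem conjBy_le_of_mem {g : G} (hA : A ≤ B) (hg : g ∈ B) : conjBy A g ≤ B := by
  rw [← conjBy_self hg]; exact conjBy_mono hA g

theorem le_iff_of_bot {A : Subgroup G} (h : A ≠ ⊥) : ∃ a ∈ A, a ≠ 1 := by
  by_contra hcon
  push Not at hcon
  exact h ((Subgroup.eq_bot_iff_forall A).mpr hcon)

/-- elementwise commuting subgroups -/
def Com (A B : Subgroup G) : Prop := ∀ a ∈ A, ∀ b ∈ B, a * b = b * a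

theorem com_iff : ⁅A, B⁆ = ⊥ ↔ Com A B := by
  rw [Subgroup.commutator_eq_bot_iff_le_centralizer]
  constructor
  · intro h a ha b hb
    exact (Subgroup.mem_centralizer_iff.mp (h ha) b hb).symm
  · intro h a ha
    exact Subgroup.mem_centralizer_iff.mpr fun b hb => (h a ha b hb).symm

theorem Com.symm (h : Com A B) : Com B A := fun a ha b hb => (h b hb a ha).symm

theorem Com.mono (h : Com A B) {A' B' : Subgroup G} (hA : A' ≤ A) (hB : B' ≤ B) : Com A' B' :=
  fun a ha b hb => h a (hA ha) b (hB hb)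

theorem Com.conj (h : Com A B) (g : G) : Com (conjBy A g) (conjBy B g) := by
  rintro _ ⟨a, ha, rfl⟩ _ ⟨b, hb, rfl⟩
  have := congrArg (MulAut.conj g).toMonoidHom (h a ha b hb)
  rwa [map_mul, map_mul] at this

theorem Com.of_conj {g : G} (h : Com (conjBy A g) (conjBy B g)) : Com A B := by
  have := h.conj g⁻¹
  simpa only [conjBy_conjBy, inv_mul_cancel, conjBy_one] using this

theorem Com.sup_left (h : Com A C) (h' : Com B C) : Com (A ⊔ B) C := by
  rw [← com_iff, Subgroup.commutator_eq_bot_iff_le_centralizer] at *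
  exact sup_le h h'

theorem Com.sup_right (h : Com A B) (h' : Com A C) : Com A (B ⊔ C) := (h.symm.sup_left h'.symm).symm

theorem Com.conjBy_eq (h : Com A B) {b : G} (hb : b ∈ B) : conjBy A b = A :=
  conjBy_of_comm fun x hx => h x hx b hb

theorem Com.comm_left (h : Com A B) {a b : G} (ha : a ∈ A) (hb : b ∈ B) : a * b = b * a := h a ha b hb

theorem mem_sup_com (h : Com A B) {x : G} (hx : x ∈ A ⊔ B) : ∃ a ∈ A, ∃ b ∈ B, a * b = x := by
  rw [Subgroup.sup_eq_closure] at hx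
  refine Subgroup.closure_induction (p := fun (y : G) _ => ∃ a ∈ A, ∃ x ∈ B, a * x = y) ?_ ?_ ?_ ?_ hx
  · rintro z (hz | hz)
    · exact ⟨z, hz, 1, one_mem _, mul_one _⟩
    · exact ⟨1, one_mem _, z, hz, one_mul _⟩
  · exact ⟨1, one_mem _, 1, one_mem _, mul_one _⟩
  · rintro _ _ _ _ ⟨a, ha, x, hx, rfl⟩ ⟨b, hb, z, hz, rfl⟩
    refine ⟨a * b, mul_mem ha hb, x * z, mul_mem hx hz, ?_⟩
    calc a * b * (x * z) = a * (b * x) * z := by group
      _ = a * (x * b) * z := by rw [h b hb x hx]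
      _ = _ := by group
  · rintro _ _ ⟨a, ha, x, hx, rfl⟩
    refine ⟨a⁻¹, inv_mem ha, x⁻¹, inv_mem hx, ?_⟩
    rw [h _ (inv_mem ha) _ (inv_mem hx)]; group

/-! ### Rank one pairs -/

theorem r1_left (h : IsRankOnePair A B) {a : G} (ha : a ∈ A) (h1 : a ≠ 1) :
    ∃ b ∈ B, b ≠ 1 ∧ conjBy A b = conjBy B a := by
  obtain ⟨b, hb, hb1, hb2⟩ := h.cond_left a⁻¹ (inv_mem ha) (inv_ne_one.mpr h1)
  exact ⟨b⁻¹, inv_mem hb, inv_ne_one.mpr hb1, by rw [hb2, inv_inv]⟩

theorem r1_right (h : IsRankOnePair A B) {b : G} (hb : b ∈ B) (h1 : b ≠ 1) :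
    ∃ a ∈ A, a ≠ 1 ∧ conjBy A b = conjBy B a := by
  obtain ⟨a, ha, ha1, ha2⟩ := r1_left (RankOnePair_symm h) hb h1
  exact ⟨a, ha, ha1, ha2.symm⟩

theorem r1_norm_left (h : IsRankOnePair A B) {a : G} (ha : a ∈ A) (hn : conjBy B a = B) : a = 1 := by
  by_contra h1
  obtain ⟨b, hb, hb1, hb2⟩ := r1_left h ha h1
  rw [hn, conjBy_eq_iff, conjBy_self (inv_mem hb)] at hb2
  exact h.ne hb2

theorem r1_norm_right (h : IsRankOnePair A B) {b : G} (hb : b ∈ B) (hn : conjBy A b = A) : b = 1 :=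
  r1_norm_left (RankOnePair_symm h) hb hn

theorem r1_inf (h : IsRankOnePair A B) {x : G} (hA : x ∈ A) (hB : x ∈ B) : x = 1 :=
  r1_norm_left h hA (conjBy_self hB)

theorem isNilpotent_conjBy {g : G} (h : Group.IsNilpotent A) : Group.IsNilpotent (conjBy A g) :=
  haveI := h
  Group.nilpotent_of_surjective (A.equivMapOfInjective (MulAut.conj g).toMonoidHom (MulAut.conj g).injective).toMonoidHom
    (MulEquiv.surjective _)

theorem rankOneCondition_conj (h : RankOneCondition A B) (g : G) : RankOneCondition (conjBy A g) (conjBy B g) := by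
  rintro _ ⟨a, ha, rfl⟩ ha1
  have ha1' : a ≠ 1 := by
    rintro rfl
    exact ha1 (map_one _)
  obtain ⟨b, hb, hb1, hb2⟩ := h a ha ha1'
  refine ⟨g * b * g⁻¹, conj_mem_conjBy hb, fun hcon => hb1 ?_, ?_⟩
  · exact conj_eq_one_iff.mp hcon
  · rw [conjBy_conjBy, conjBy_conjBy]
    have e1 : (g * b * g⁻¹)⁻¹ * g = g * b⁻¹ := by group
    have e2 : ((MulAut.conj g).toMonoidHom a)⁻¹ * g = g * a⁻¹ := by
      show (g * a * g⁻¹)⁻¹ * g = g * a⁻¹
      group
    rw [e1, e2, ← conjBy_conjBy, ← conjBy_conjBy, hb2]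

theorem r1_conj (h : IsRankOnePair A B) (g : G) : IsRankOnePair (conjBy A g) (conjBy B g) :=
  ⟨fun h' => h.ne (conjBy_inj.mp h'), isNilpotent_conjBy h.nilpotent_left, isNilpotent_conjBy h.nilpotent_right,
    rankOneCondition_conj h.cond_left g, rankOneCondition_conj h.cond_right g⟩

theorem r1_conj_iff {g : G} : IsRankOnePair (conjBy A g) (conjBy B g) ↔ IsRankOnePair A B := by
  refine ⟨fun h => ?_, fun h => r1_conj h g⟩
  have := r1_conj h g⁻¹
  simpa only [conjBy_conjBy, inv_mul_cancel, conjBy_one] using this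

theorem r1_ne_bot (h : IsRankOnePair A B) : A ≠ ⊥ := by
  rintro rfl
  apply h.ne
  symm
  rw [Subgroup.eq_bot_iff_forall]
  intro b hb
  by_contra hb1
  obtain ⟨a, ha, ha1, -⟩ := r1_right h hb hb1
  exact ha1 (Subgroup.mem_bot.mp ha)

theorem r1_ne_bot' (h : IsRankOnePair A B) : B ≠ ⊥ := r1_ne_bot (RankOnePair_symm h)

theorem r1_not_com (h : IsRankOnePair A B) : ¬ Com A B := by
  intro hc
  obtain ⟨a, ha, ha1⟩ := le_iff_of_bot (r1_ne_bot h)
  exact ha1 (r1_norm_left h ha (hc.symm.conjBy_eq ha))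

/-- `A` does not commute with a different conjugate. -/
theorem r1_not_com_conj (h : IsRankOnePair A B) {b : G} (hb : b ∈ B) (hb1 : b ≠ 1) : ¬ Com A (conjBy A b) := by
  intro hc
  obtain ⟨a, ha, ha1, hab⟩ := r1_right h hb hb1
  rw [hab] at hc
  have h1 := hc.conj a⁻¹
  rw [conjBy_conjBy, inv_mul_cancel, conjBy_one, conjBy_self (inv_mem ha)] at h1
  exact r1_not_com h h1

theorem r1_not_com_conj' (h : IsRankOnePair A B) {a : G} (ha : a ∈ A) (ha1 : a ≠ 1) : ¬ Com B (conjBy B a) :=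
  r1_not_com_conj (RankOnePair_symm h) ha ha1

/-- The orbit of `A` (and `B`) under `⟨A,B⟩` is `{A} ∪ B^A`. -/
def Orb (A B C : Subgroup G) : Prop := C = A ∨ ∃ a ∈ A, C = conjBy B a

theorem orb_left (A B : Subgroup G) : Orb A B A := Or.inl rfl

theorem orb_right (A B : Subgroup G) : Orb A B B := Or.inr ⟨1, one_mem _, (conjBy_one B).symm⟩

theorem orb_symm (h : IsRankOnePair A B) (hC : Orb A B C) : Orb B A C := by
  rcases hC with rfl | ⟨a, ha, rfl⟩
  · exact orb_right _ _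
  · by_cases h1 : a = 1
    · subst h1; rw [conjBy_one]; exact orb_left _ _
    · obtain ⟨b, hb, -, hab⟩ := r1_left h ha h1
      exact Or.inr ⟨b, hb, hab.symm⟩

theorem orb_conj_left (hC : Orb A B C) {a : G} (ha : a ∈ A) : Orb A B (conjBy C a) := by
  rcases hC with rfl | ⟨a', ha', rfl⟩
  · exact Or.inl (conjBy_self ha)
  · exact Or.inr ⟨a * a', mul_mem ha ha', conjBy_conjBy _ _ _⟩

theorem orb_conj (h : IsRankOnePair A B) (hC : Orb A B C) {x : G} (hx : x ∈ A ⊔ B) : Orb A B (conjBy C x) := by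
  have key : ∀ x ∈ A ⊔ B, ∀ C, Orb A B C → Orb A B (conjBy C x) := by
    intro x hx
    rw [Subgroup.sup_eq_closure] at hx
    refine Subgroup.closure_induction_left (p := fun (x : G) _ => ∀ C, Orb A B C → Orb A B (conjBy C x)) ?_ ?_ ?_ hx
    · intro C hC; rw [conjBy_one]; exact hC
    · rintro x (hx | hx) y _ ih C hC
      · rw [← conjBy_conjBy]; exact orb_conj_left (ih C hC) hx
      · rw [← conjBy_conjBy]
        exact orb_symm (RankOnePair_symm h) (orb_conj_left (orb_symm h (ih C hC)) hx)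
    · rintro x (hx | hx) y _ ih C hC
      · rw [← conjBy_conjBy]; exact orb_conj_left (ih C hC) (inv_mem hx)
      · rw [← conjBy_conjBy]
        exact orb_symm (RankOnePair_symm h) (orb_conj_left (orb_symm h (ih C hC)) (inv_mem hx))
  exact key x hx C hC

/-- members of the orbit different from `A` are rank one partners of `A` and generate the same group -/
theorem orb_r1 (h : IsRankOnePair A B) (hC : Orb A B C) (hne : C ≠ A) : IsRankOnePair A C ∧ A ⊔ C = A ⊔ B := by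
  rcases hC with rfl | ⟨a, ha, rfl⟩
  · exact absurd rfl hne
  · have e : conjBy A a = A := conjBy_self ha
    constructor
    · have := r1_conj h a
      rwa [e] at this
    · have h1 : conjBy (A ⊔ B) a = A ⊔ B := conjBy_self (Subgroup.mem_sup_left ha)
      rw [conjBy_sup, e] at h1
      exact h1

theorem r1_gen (h : IsRankOnePair A B) {b : G} (hb : b ∈ B) (hb1 : b ≠ 1) : A ⊔ conjBy A b = A ⊔ B := by
  have h1 : Orb A B (conjBy A b) := orb_conj h (orb_left A B) (Subgroup.mem_sup_right hb)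
  exact (orb_r1 h h1 fun h2 => hb1 (r1_norm_right h hb h2)).2

theorem r1_conj_pair (h : IsRankOnePair A B) {b : G} (hb : b ∈ B) (hb1 : b ≠ 1) : IsRankOnePair A (conjBy A b) := by
  have h1 : Orb A B (conjBy A b) := orb_conj h (orb_left A B) (Subgroup.mem_sup_right hb)
  exact (orb_r1 h h1 fun h2 => hb1 (r1_norm_right h hb h2)).1

/-- regularity: `conjBy A` is injective on `B` -/
theorem r1_regular (h : IsRankOnePair A B) {b b' : G} (hb : b ∈ B) (hb' : b' ∈ B)
    (he : conjBy A b = conjBy A b') : b = b' := by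
  have h1 : conjBy A (b'⁻¹ * b) = A := by
    rw [← conjBy_conjBy, he, conjBy_conjBy, inv_mul_cancel, conjBy_one]
  have h2 := r1_norm_right h (mul_mem (inv_mem hb') hb) h1
  rw [inv_mul_eq_one] at h2
  exact h2.symm

theorem r1_regular' (h : IsRankOnePair A B) {a a' : G} (ha : a ∈ A) (ha' : a' ∈ A)
    (he : conjBy B a = conjBy B a') : a = a' := r1_regular (RankOnePair_symm h) ha ha' he

/-! ### The commutator case -/

variable {S : Set (Subgroup G)}

theorem cc_mem (h : RootCommutatorCase S A B) : ⁅A, B⁆ ∈ S := h.1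

theorem cc_comA (h : RootCommutatorCase S A B) : Com ⁅A, B⁆ A :=
  fun c hc a ha => h.2.1 c hc a (Subgroup.mem_sup_left ha)

theorem cc_comB (h : RootCommutatorCase S A B) : Com ⁅A, B⁆ B :=
  fun c hc a ha => h.2.1 c hc a (Subgroup.mem_sup_right ha)

theorem cc_com (h : RootCommutatorCase S A B) : Com ⁅A, B⁆ (A ⊔ B) :=
  fun c hc a ha => h.2.1 c hc a ha

theorem comm_mem {a b : G} (ha : a ∈ A) (hb : b ∈ B) : ⁅a, b⁆ ∈ ⁅A, B⁆ := Subgroup.commutator_mem_commutator ha hb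

theorem comm_mem' {a b : G} (ha : a ∈ A) (hb : b ∈ B) : ⁅b, a⁆ ∈ ⁅A, B⁆ := by
  rw [Subgroup.commutator_comm]; exact Subgroup.commutator_mem_commutator hb ha

theorem cc_exA (h : RootCommutatorCase S A B) {a c : G} (ha : a ∈ A) (ha1 : a ≠ 1) (hc : c ∈ ⁅A, B⁆) :
    ∃ b ∈ B, ⁅a, b⁆ = c := by
  rw [← h.2.2.1 a ha ha1] at hc
  refine Subgroup.closure_induction (p := fun (c : G) _ => ∃ b ∈ B, ⁅a, b⁆ = c) ?_ ?_ ?_ ?_ hc
  · rintro _ ⟨b, hb, rfl⟩
    exact ⟨b, hb, rfl⟩
  · exact ⟨1, one_mem _, by simp⟩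
  · rintro _ _ _ _ ⟨b, hb, rfl⟩ ⟨b', hb', rfl⟩
    refine ⟨b * b', mul_mem hb hb', ?_⟩
    have e := cc_comB h ⁅a, b'⁆ (comm_mem ha hb') b hb
    have e2 : ⁅a, b * b'⁆ = ⁅a, b⁆ * (b * ⁅a, b'⁆ * b⁻¹) := by simp only [commutatorElement_def]; group
    rw [e2, ← e]; group
  · rintro _ _ ⟨b, hb, rfl⟩
    refine ⟨b⁻¹, inv_mem hb, ?_⟩
    have e := cc_comB h ⁅a, b⁆⁻¹ (inv_mem (comm_mem ha hb)) b hb
    have e2 : ⁅a, b⁻¹⁆ = b⁻¹ * ⁅a, b⁆⁻¹ * b := by simp only [commutatorElement_def]; group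
    rw [e2, mul_assoc, e]; group

theorem cc_symm (h : RootCommutatorCase S A B) : RootCommutatorCase S B A := by
  have e : ⁅B, A⁆ = ⁅A, B⁆ := Subgroup.commutator_comm _ _
  have key : ∀ (X Y : Subgroup G) (x : G), x ∈ X →
      Subgroup.closure ((fun y : G => x * y * x⁻¹ * y⁻¹) '' (Y : Set G)) =
      Subgroup.closure ((fun y : G => y * x * y⁻¹ * x⁻¹) '' (Y : Set G)) := by
    intro X Y x _
    apply le_antisymm
    · rw [Subgroup.closure_le]
      rintro _ ⟨y, hy, rfl⟩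
      rw [SetLike.mem_coe, ← inv_mem_iff]
      refine Subgroup.subset_closure ⟨y, hy, ?_⟩
      simp only; group
    · rw [Subgroup.closure_le]
      rintro _ ⟨y, hy, rfl⟩
      rw [SetLike.mem_coe, ← inv_mem_iff]
      refine Subgroup.subset_closure ⟨y, hy, ?_⟩
      simp only; group
  refine ⟨by rw [e]; exact h.1, by rw [e, sup_comm]; exact h.2.1, fun b hb hb1 => ?_, fun a ha ha1 => ?_⟩
  · rw [e, key B A b hb]; exact h.2.2.2 b hb hb1
  · rw [e, ← key A B a ha]; exact h.2.2.1 a ha ha1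

theorem cc_exB (h : RootCommutatorCase S A B) {b c : G} (hb : b ∈ B) (hb1 : b ≠ 1) (hc : c ∈ ⁅A, B⁆) :
    ∃ a ∈ A, ⁅a, b⁆ = c := by
  have hc' : c⁻¹ ∈ ⁅B, A⁆ := by rw [Subgroup.commutator_comm]; exact inv_mem hc
  obtain ⟨a, ha, hac⟩ := cc_exA (cc_symm h) hb hb1 hc'
  exact ⟨a, ha, by rw [← commutatorElement_inv, hac, inv_inv]⟩

/-- in the commutator case a non-identity element of `A` does not centralize `B` -/
theorem cc_ne (h : RootCommutatorCase S A B) (hC : ⁅A, B⁆ ≠ ⊥) {a : G} (ha : a ∈ A)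
    (hc : ∀ b ∈ B, a * b = b * a) : a = 1 := by
  by_contra ha1
  apply hC
  rw [Subgroup.eq_bot_iff_forall]
  intro c hcc
  obtain ⟨b, hb, rfl⟩ := cc_exA h ha ha1 hcc
  exact commutatorElement_eq_one_iff_mul_comm.mpr (hc b hb)

theorem cc_ne' (h : RootCommutatorCase S A B) (hC : ⁅A, B⁆ ≠ ⊥) {b : G} (hb : b ∈ B)
    (hc : ∀ a ∈ A, a * b = b * a) : b = 1 :=
  cc_ne (cc_symm h) (by rw [Subgroup.commutator_comm]; exact hC) hb fun a ha => (hc a ha).symm

/-- conjugating `B` by an element of `A` in the commutator case stays inside `C_G(B)`. -/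
theorem cc_conj_com (h : RootCommutatorCase S A B) (hB : Com B B) {a : G} (ha : a ∈ A) : Com B (conjBy B a) := by
  rintro b hb _ ⟨b', hb', rfl⟩
  show b * (a * b' * a⁻¹) = (a * b' * a⁻¹) * b
  have e : a * b' * a⁻¹ = ⁅a, b'⁆ * b' := by rw [commutatorElement_def]; group
  have e1 := cc_comB h ⁅a, b'⁆ (comm_mem ha hb') b hb
  have e2 := hB b hb b' hb'
  rw [e]
  calc b * (⁅a, b'⁆ * b') = (b * ⁅a, b'⁆) * b' := by group
    _ = ⁅a, b'⁆ * (b * b') := by rw [← e1]; group
    _ = ⁅a, b'⁆ * (b' * b) := by rw [e2]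
    _ = _ := by group

theorem cc_conj_le (h : RootCommutatorCase S A B) {a : G} (ha : a ∈ A) : conjBy B a ≤ B ⊔ ⁅A, B⁆ := by
  rintro _ ⟨b', hb', rfl⟩
  show a * b' * a⁻¹ ∈ _
  have e : a * b' * a⁻¹ = ⁅a, b'⁆ * b' := by rw [commutatorElement_def]; group
  rw [e]
  exact mul_mem (Subgroup.mem_sup_right (comm_mem ha hb')) (Subgroup.mem_sup_left hb')

end Cfsg.Agent.H84
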