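import Mathlib
import Cfsg.Agent.H84.Root1
set_option autoImplicit false

/-! Abstract root subgroups: transport along injective homomorphisms and to subgroups. -/

namespace Cfsg.Agent.H84

open Cfsg
open scoped commutatorElement

variable {H G : Type*} [Group H] [Group G]

theorem conjBy_map_hom (f : H →* G) (A : Subgroup H) (g : H) : conjBy (A.map f) (f g) = (conjBy A g).map f := by
  ext x
  constructor
  · rintro ⟨_, ⟨a, ha, rfl⟩, rfl⟩
    exact ⟨g * a * g⁻¹, ⟨a, ha, rfl⟩, by simp⟩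
  · rintro ⟨_, ⟨a, ha, rfl⟩, rfl⟩
    exact ⟨f a, ⟨a, ha, rfl⟩, by simp⟩

variable {f : H →* G} (hf : Function.Injective f) {A B : Subgroup H} {S : Set (Subgroup H)}
include hf

theorem map_ne_bot_iff : A.map f ≠ ⊥ ↔ A ≠ ⊥ := by
  rw [Ne, Ne, Subgroup.map_eq_bot_iff_of_injective _ hf]

theorem rankOneCondition_map : RankOneCondition (A.map f) (B.map f) ↔ RankOneCondition A B := by
  constructor
  · intro h a ha ha1
    obtain ⟨_, ⟨b, hb, rfl⟩, hb1, h1⟩ := h (f a) ⟨a, ha, rfl⟩ (by rwa [Ne, map_eq_one_iff f hf])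
    refine ⟨b, hb, fun h2 => hb1 (by rw [h2, map_one]), ?_⟩
    rw [← map_inv, ← map_inv, conjBy_map_hom, conjBy_map_hom] at h1
    exact Subgroup.map_injective hf h1
  · rintro h _ ⟨a, ha, rfl⟩ ha1
    obtain ⟨b, hb, hb1, h1⟩ := h a ha (fun h2 => ha1 (by rw [h2, map_one]))
    refine ⟨f b, ⟨b, hb, rfl⟩, by rwa [Ne, map_eq_one_iff f hf], ?_⟩
    rw [← map_inv, ← map_inv, conjBy_map_hom, conjBy_map_hom, h1]

theorem isNilpotent_map_iff : Group.IsNilpotent (A.map f) ↔ Group.IsNilpotent A := by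
  have e := A.equivMapOfInjective f hf
  constructor
  · intro h
    exact Group.nilpotent_of_surjective (e.symm : A.map f →* A) e.symm.surjective
  · intro h
    exact Group.nilpotent_of_surjective (e : A →* A.map f) e.surjective

theorem isRankOnePair_map : IsRankOnePair (A.map f) (B.map f) ↔ IsRankOnePair A B := by
  constructor
  · intro h
    exact ⟨fun h1 => h.ne (by rw [h1]), (isNilpotent_map_iff hf).1 h.nilpotent_left,
      (isNilpotent_map_iff hf).1 h.nilpotent_right, (rankOneCondition_map hf).1 h.cond_left,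
      (rankOneCondition_map hf).1 h.cond_right⟩
  · intro h
    exact ⟨fun h1 => h.ne (Subgroup.map_injective hf h1), (isNilpotent_map_iff hf).2 h.nilpotent_left,
      (isNilpotent_map_iff hf).2 h.nilpotent_right, (rankOneCondition_map hf).2 h.cond_left,
      (rankOneCondition_map hf).2 h.cond_right⟩

theorem isSpecial_map : IsSpecialRankOnePair (A.map f) (B.map f) ↔ IsSpecialRankOnePair A B := by
  constructor
  · intro h
    refine ⟨(isRankOnePair_map hf).1 h.1, fun a ha ha1 b hb hb1 hab => ?_⟩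
    have := h.2 (f a) ⟨a, ha, rfl⟩ (by rwa [Ne, map_eq_one_iff f hf]) (f b) ⟨b, hb, rfl⟩
      (by rwa [Ne, map_eq_one_iff f hf]) (by
        rw [← map_inv, ← map_inv, conjBy_map_hom, conjBy_map_hom, hab])
    apply hf
    simpa using this
  · intro h
    refine ⟨(isRankOnePair_map hf).2 h.1, ?_⟩
    rintro _ ⟨a, ha, rfl⟩ ha1 _ ⟨b, hb, rfl⟩ hb1 hab
    have := h.2 a ha (fun h2 => ha1 (by rw [h2, map_one])) b hb (fun h2 => hb1 (by rw [h2, map_one])) (by
      rw [← map_inv, ← map_inv, conjBy_map_hom, conjBy_map_hom] at hab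
      exact Subgroup.map_injective hf hab)
    have := congrArg f this
    simpa using this

theorem rootCommutatorCase_map :
    RootCommutatorCase (Subgroup.map f '' S) (A.map f) (B.map f) ↔ RootCommutatorCase S A B := by
  have hc : ⁅A.map f, B.map f⁆ = (⁅A, B⁆ : Subgroup H).map f := (Subgroup.map_commutator A B f).symm
  have e1 : ∀ a : H, Subgroup.closure ((fun b : G => f a * b * (f a)⁻¹ * b⁻¹) '' ((B.map f : Subgroup G) : Set G)) =
      (Subgroup.closure ((fun b : H => a * b * a⁻¹ * b⁻¹) '' (B : Set H))).map f := by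
    intro a
    rw [MonoidHom.map_closure]
    congr 1
    ext x
    constructor
    · rintro ⟨_, ⟨b, hb, rfl⟩, rfl⟩
      exact ⟨_, ⟨b, hb, rfl⟩, by simp⟩
    · rintro ⟨_, ⟨b, hb, rfl⟩, rfl⟩
      exact ⟨f b, ⟨b, hb, rfl⟩, by simp⟩
  have e2 : ∀ b : H, Subgroup.closure ((fun a : G => a * f b * a⁻¹ * (f b)⁻¹) '' ((A.map f : Subgroup G) : Set G)) =
      (Subgroup.closure ((fun a : H => a * b * a⁻¹ * b⁻¹) '' (A : Set H))).map f := by
    intro b
    rw [MonoidHom.map_closure]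
    congr 1
    ext x
    constructor
    · rintro ⟨_, ⟨a, ha, rfl⟩, rfl⟩
      exact ⟨_, ⟨a, ha, rfl⟩, by simp⟩
    · rintro ⟨_, ⟨a, ha, rfl⟩, rfl⟩
      exact ⟨f a, ⟨a, ha, rfl⟩, by simp⟩
  unfold RootCommutatorCase
  rw [hc]
  constructor
  · rintro ⟨h1, h2, h3, h4⟩
    refine ⟨?_, ?_, ?_, ?_⟩
    · obtain ⟨C, hC, hC'⟩ := h1
      rw [← Subgroup.map_injective hf hC']; exact hC
    · intro c hc' x hx
      apply hf
      rw [map_mul, map_mul]
      exact h2 (f c) ⟨c, hc', rfl⟩ (f x) (by rw [← Subgroup.map_sup]; exact ⟨x, hx, rfl⟩)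
    · intro a ha ha1
      have := h3 (f a) ⟨a, ha, rfl⟩ (by rwa [Ne, map_eq_one_iff f hf])
      rw [e1] at this
      exact Subgroup.map_injective hf this
    · intro b hb hb1
      have := h4 (f b) ⟨b, hb, rfl⟩ (by rwa [Ne, map_eq_one_iff f hf])
      rw [e2] at this
      exact Subgroup.map_injective hf this
  · rintro ⟨h1, h2, h3, h4⟩
    refine ⟨⟨_, h1, rfl⟩, ?_, ?_, ?_⟩
    · rintro _ ⟨c, hc', rfl⟩ x hx
      rw [← Subgroup.map_sup] at hx
      obtain ⟨x, hx, rfl⟩ := hx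
      rw [← map_mul, ← map_mul, h2 c hc' x hx]
    · rintro _ ⟨a, ha, rfl⟩ ha1
      rw [e1, h3 a ha (fun h2 => ha1 (by rw [h2, map_one]))]
    · rintro _ ⟨b, hb, rfl⟩ hb1
      rw [e2, h4 b hb (fun h2 => hb1 (by rw [h2, map_one]))]

omit hf

/-- the members of `S` inside the subgroup `K` -/
def subSet (S : Set (Subgroup G)) (K : Subgroup G) : Set (Subgroup ↥K) := (fun A => A.subgroupOf K) '' S

theorem map_subSet {S : Set (Subgroup G)} {K : Subgroup G} (h : ∀ A ∈ S, A ≤ K) :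
    Subgroup.map K.subtype '' (subSet S K) = S := by
  unfold subSet
  rw [Set.image_image]
  ext A
  constructor
  · rintro ⟨B, hB, rfl⟩
    change (B.subgroupOf K).map K.subtype ∈ S
    rw [Subgroup.map_subgroupOf_eq_of_le (h B hB)]; exact hB
  · intro hA
    exact ⟨A, hA, Subgroup.map_subgroupOf_eq_of_le (h A hA)⟩

section sub
variable {S : Set (Subgroup G)} {K : Subgroup G} (hSK : ∀ A ∈ S, A ≤ K)
include hSK

theorem sub_r1 {A B : Subgroup G} (hA : A ∈ S) (hB : B ∈ S) :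
    IsRankOnePair (A.subgroupOf K) (B.subgroupOf K) ↔ IsRankOnePair A B := by
  rw [← isRankOnePair_map (f := K.subtype) K.subtype_injective, Subgroup.map_subgroupOf_eq_of_le (hSK A hA),
    Subgroup.map_subgroupOf_eq_of_le (hSK B hB)]

theorem sub_special {A B : Subgroup G} (hA : A ∈ S) (hB : B ∈ S) :
    IsSpecialRankOnePair (A.subgroupOf K) (B.subgroupOf K) ↔ IsSpecialRankOnePair A B := by
  rw [← isSpecial_map (f := K.subtype) K.subtype_injective, Subgroup.map_subgroupOf_eq_of_le (hSK A hA),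
    Subgroup.map_subgroupOf_eq_of_le (hSK B hB)]

theorem sub_cc {A B : Subgroup G} (hA : A ∈ S) (hB : B ∈ S) :
    RootCommutatorCase (subSet S K) (A.subgroupOf K) (B.subgroupOf K) ↔ RootCommutatorCase S A B := by
  rw [← rootCommutatorCase_map (f := K.subtype) K.subtype_injective, Subgroup.map_subgroupOf_eq_of_le (hSK A hA),
    Subgroup.map_subgroupOf_eq_of_le (hSK B hB), map_subSet hSK]

theorem sub_bot {A B : Subgroup G} (hA : A ∈ S) (hB : B ∈ S) :
    ⁅A.subgroupOf K, B.subgroupOf K⁆ = ⊥ ↔ ⁅A, B⁆ = ⊥ := by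
  rw [← Subgroup.map_eq_bot_iff_of_injective _ K.subtype_injective, Subgroup.map_commutator,
    Subgroup.map_subgroupOf_eq_of_le (hSK A hA), Subgroup.map_subgroupOf_eq_of_le (hSK B hB)]

theorem sub_connected (hc : IsConnectedFamily (FAdj S) S) :
    IsConnectedFamily (FAdj (subSet S K)) (subSet S K) := by
  rintro _ ⟨A, hA, rfl⟩ _ ⟨B, hB, rfl⟩
  have h := hc A hA B hB
  clear hB
  induction h with
  | refl => exact .refl
  | tail _ h ih =>
    exact ih.tail ⟨⟨_, h.1, rfl⟩, ⟨_, h.2.1, rfl⟩, (sub_r1 hSK h.1 h.2.1).2 h.2.2⟩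

end sub

theorem conjBy_subgroupOf {A K : Subgroup G} (hA : A ≤ K) (g : K) :
    conjBy (A.subgroupOf K) g = (conjBy A (g : G)).subgroupOf K := by
  apply Subgroup.map_injective K.subtype_injective
  rw [← conjBy_map_hom, Subgroup.map_subgroupOf_eq_of_le hA, Subgroup.map_subgroupOf_eq_of_le]
  · rfl
  · exact conjBy_le_of_mem hA g.2

/-- root subgroup sets inside the group they generate -/
theorem isRootSubgroupSet_sub {S : Set (Subgroup G)} (hc : ∀ A ∈ S, IsMulCommutative A) (hne : ∀ A ∈ S, A ≠ ⊥)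
    (hconj : ∀ A ∈ S, ∀ g ∈ (⨆ B ∈ S, B), conjBy A g ∈ S)
    (hpair : ∀ A ∈ S, ∀ B ∈ S, ⁅A, B⁆ = ⊥ ∨ IsRankOnePair A B ∨ RootCommutatorCase S A B) :
    IsRootSubgroupSet (subSet S (⨆ B ∈ S, B)) := by
  have hSK : ∀ A ∈ S, A ≤ ⨆ B ∈ S, B := fun A hA => le_iSup₂_of_le A hA le_rfl
  constructor
  · rintro _ ⟨A, hA, rfl⟩
    have h := hc A hA
    refine ⟨⟨fun a b => ?_⟩⟩
    apply Subtype.ext
    apply Subtype.ext
    have h' : ((⟨((a : ↥(⨆ B ∈ S, B)) : G), a.2⟩ : A) * ⟨((b : ↥(⨆ B ∈ S, B)) : G), b.2⟩ : A) = (⟨((b : ↥(⨆ B ∈ S, B)) : G), b.2⟩ : A) * ⟨((a : ↥(⨆ B ∈ S, B)) : G), a.2⟩ :=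
      h.1.comm _ _
    exact congrArg (fun x : A => (x : G)) h'
  · rintro _ ⟨A, hA, rfl⟩ h
    apply hne A hA
    have := congrArg (Subgroup.map (⨆ B ∈ S, B).subtype) h
    rwa [Subgroup.map_subgroupOf_eq_of_le (hSK A hA), Subgroup.map_bot] at this
  · apply Subgroup.map_injective (⨆ B ∈ S, B).subtype_injective
    rw [Subgroup.map_iSup, ← MonoidHom.range_eq_map, Subgroup.range_subtype]
    apply le_antisymm
    · refine iSup_le fun A => ?_
      rw [Subgroup.map_iSup]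
      refine iSup_le fun hA => ?_
      exact Subgroup.map_subtype_le _
    · refine iSup₂_le fun A hA => ?_
      refine le_iSup_of_le (A.subgroupOf _) ?_
      rw [Subgroup.map_iSup]
      refine le_iSup_of_le ⟨A, hA, rfl⟩ ?_
      rw [Subgroup.map_subgroupOf_eq_of_le (hSK A hA)]
  · rintro _ ⟨A, hA, rfl⟩ g
    change conjBy (A.subgroupOf _) g ∈ _
    rw [conjBy_subgroupOf (hSK A hA)]
    exact ⟨_, hconj A hA g g.2, rfl⟩
  · rintro _ ⟨A, hA, rfl⟩ _ ⟨B, hB, rfl⟩
    rcases hpair A hA B hB with h | h | h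
    · exact Or.inl ((sub_bot hSK hA hB).2 h)
    · exact Or.inr (Or.inl ((sub_r1 hSK hA hB).2 h))
    · exact Or.inr (Or.inr ((sub_cc hSK hA hB).2 h))

end Cfsg.Agent.H84
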