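import Mathlib
import Cfsg.Agent.H84.QP6
import Cfsg.Agent.H84.QP7
import Cfsg.Agent.H84.RootMap
set_option autoImplicit false
universe u

/-! Quadratic pairs: the opposition graph on the root subgroups. -/

namespace Cfsg.Agent.H84.QP

open Cfsg

section
variable {k : Type*} [Field k] {M : Type*} [AddCommGroup M] [Module k M]
variable {G : Subgroup (LinearMap.GeneralLinearGroup k M)}

/-- the root subgroup of a root -/
abbrev Es {a : M →ₗ[k] M} (ha : Root G a) : Subgroup (LinearMap.GeneralLinearGroup k M) :=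
  sameActionSubgroup G (unip a ha.1.1)

theorem exists_root {A : Subgroup (LinearMap.GeneralLinearGroup k M)} (hA : A ∈ quadraticRootSubgroups G) :
    ∃ (a : M →ₗ[k] M) (ha : Root G a), A = Es ha := by
  obtain ⟨σ, hσ, rfl⟩ := hA
  have h := mem_minimal_iff.1 hσ
  refine ⟨_, h, ?_⟩
  have hσ' : σ = unip _ h.1.1 := eq_unip _ rfl
  conv_lhs => rw [hσ']

theorem Es_ne_bot [FiniteDimensional k M] {a : M →ₗ[k] M} (ha : Root G a) : Es ha ≠ ⊥ := by
  intro h
  have := self_mem_same ha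
  rw [show sameActionSubgroup G (unip a ha.1.1) = ⊥ from h, Subgroup.mem_bot] at this
  apply ha.2.1
  have := congrArg (fun g : LinearMap.GeneralLinearGroup k M => (g : M →ₗ[k] M)) this
  simp only [unip_val, Units.val_one, add_eq_left] at this
  exact this

theorem mem_Es [FiniteDimensional k M] {a : M →ₗ[k] M} (ha : Root G a) {x : LinearMap.GeneralLinearGroup k M}
    (hx : x ∈ Es ha) (hx1 : x ≠ 1) : ∃ (b : M →ₗ[k] M) (hb : Root G b), x = unip b hb.1.1 ∧
      LinearMap.ker b = LinearMap.ker a ∧ LinearMap.range b = LinearMap.range a ∧ Es hb = Es ha := by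
  rcases (mem_same_iff ha).1 hx with h | ⟨h1, h2, h3⟩
  · exact absurd h hx1
  · exact ⟨_, h1, eq_unip _ rfl, h2, h3, same_eq ha h1 h2 h3⟩

theorem ker_conj (g : LinearMap.GeneralLinearGroup k M) (x : M →ₗ[k] M) :
    LinearMap.ker ((g : M →ₗ[k] M) * x * ((g⁻¹ : LinearMap.GeneralLinearGroup k M) : M →ₗ[k] M)) =
      (LinearMap.ker x).comap ((g⁻¹ : LinearMap.GeneralLinearGroup k M) : M →ₗ[k] M) := by
  ext m
  rw [Submodule.mem_comap, LinearMap.mem_ker, LinearMap.mem_ker]
  constructor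
  · intro h
    change (g : M →ₗ[k] M) (x (((g⁻¹ : LinearMap.GeneralLinearGroup k M) : M →ₗ[k] M) m)) = 0 at h
    have h1 := congrArg ((g⁻¹ : LinearMap.GeneralLinearGroup k M) : M →ₗ[k] M) h
    rw [map_zero] at h1
    have : (((g⁻¹ : LinearMap.GeneralLinearGroup k M) : M →ₗ[k] M) * (g : M →ₗ[k] M))
        (x (((g⁻¹ : LinearMap.GeneralLinearGroup k M) : M →ₗ[k] M) m)) = 0 := h1
    rw [← Units.val_mul, inv_mul_cancel] at this
    exact this
  · intro h
    change (g : M →ₗ[k] M) (x (((g⁻¹ : LinearMap.GeneralLinearGroup k M) : M →ₗ[k] M) m)) = 0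
    rw [h, map_zero]

theorem range_conj (g : LinearMap.GeneralLinearGroup k M) (x : M →ₗ[k] M) :
    LinearMap.range ((g : M →ₗ[k] M) * x * ((g⁻¹ : LinearMap.GeneralLinearGroup k M) : M →ₗ[k] M)) =
      (LinearMap.range x).map (g : M →ₗ[k] M) := by
  ext m
  constructor
  · rintro ⟨n, rfl⟩
    exact ⟨_, ⟨_, rfl⟩, rfl⟩
  · rintro ⟨_, ⟨n, rfl⟩, rfl⟩
    refine ⟨(g : M →ₗ[k] M) n, ?_⟩
    change (g : M →ₗ[k] M) (x ((((g⁻¹ : LinearMap.GeneralLinearGroup k M) : M →ₗ[k] M) * (g : M →ₗ[k] M)) n)) = _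
    rw [← Units.val_mul, inv_mul_cancel]; rfl

theorem unip_conj (g : LinearMap.GeneralLinearGroup k M) {x : M →ₗ[k] M} (hx : x * x = 0)
    (h : ((g : M →ₗ[k] M) * x * ((g⁻¹ : LinearMap.GeneralLinearGroup k M) : M →ₗ[k] M)) *
      ((g : M →ₗ[k] M) * x * ((g⁻¹ : LinearMap.GeneralLinearGroup k M) : M →ₗ[k] M)) = 0) :
    g * unip x hx * g⁻¹ = unip _ h := by
  apply Units.ext
  rw [Units.val_mul, Units.val_mul, unip_val, unip_val, mul_add, add_mul, mul_one, ← Units.val_mul g,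
    mul_inv_cancel, Units.val_one]

theorem conj_Es [FiniteDimensional k M] {a : M →ₗ[k] M} (ha : Root G a) {g : LinearMap.GeneralLinearGroup k M}
    (hg : g ∈ G) : conjBy (Es ha) g = Es (ha.conj hg) := by
  have key : ∀ {a : M →ₗ[k] M} (ha : Root G a) {g : LinearMap.GeneralLinearGroup k M} (hg : g ∈ G),
      conjBy (Es ha) g ≤ Es (ha.conj hg) := by
    rintro a ha g hg _ ⟨x, hx, rfl⟩
    change g * x * g⁻¹ ∈ _
    by_cases hx1 : x = 1
    · rw [hx1]; simp
    · obtain ⟨b, hb, rfl, h1, h2, -⟩ := mem_Es ha hx hx1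
      rw [unip_conj g _ (hb.conj hg).1.1]
      apply unip_mem_same (ha.conj hg) (hb.conj hg)
      · rw [ker_conj, ker_conj, h1]
      · rw [range_conj, range_conj, h2]
  apply le_antisymm (key ha hg)
  have h := key (ha.conj hg) (inv_mem hg)
  have h1 := conjBy_mono h g
  rw [conjBy_conjBy, mul_inv_cancel, conjBy_one] at h1
  refine h1.trans ?_
  apply conjBy_mono
  have e : ((g⁻¹ : LinearMap.GeneralLinearGroup k M) : M →ₗ[k] M) *
      ((g : M →ₗ[k] M) * a * ((g⁻¹ : LinearMap.GeneralLinearGroup k M) : M →ₗ[k] M)) *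
      (((g⁻¹)⁻¹ : LinearMap.GeneralLinearGroup k M) : M →ₗ[k] M) = a := by
    rw [inv_inv]
    calc _ = (((g⁻¹ : LinearMap.GeneralLinearGroup k M) : M →ₗ[k] M) * (g : M →ₗ[k] M)) * a *
        (((g⁻¹ : LinearMap.GeneralLinearGroup k M) : M →ₗ[k] M) * (g : M →ₗ[k] M)) := by noncomm_ring
      _ = a := by rw [← Units.val_mul, inv_mul_cancel, Units.val_one]; simp
  have : ∀ (b : M →ₗ[k] M) (hb : Root G b), b = a → Es hb ≤ Es ha := by
    rintro b hb rfl; exact le_rfl
  exact this _ _ e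

theorem conj_mem_roots [FiniteDimensional k M] {A : Subgroup (LinearMap.GeneralLinearGroup k M)}
    (hA : A ∈ quadraticRootSubgroups G) {g : LinearMap.GeneralLinearGroup k M}
    (hg : g ∈ G) : conjBy A g ∈ quadraticRootSubgroups G := by
  obtain ⟨a, ha, rfl⟩ := exists_root hA
  rw [conj_Es ha hg]
  exact same_mem_root (ha.conj hg)

theorem root_le_G {A : Subgroup (LinearMap.GeneralLinearGroup k M)}
    (hA : A ∈ quadraticRootSubgroups G) : A ≤ G := by
  obtain ⟨σ, hσ, rfl⟩ := hA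
  unfold sameActionSubgroup
  rw [Subgroup.closure_le]
  intro τ hτ
  exact hτ.1.1.1

end

section
variable {k : Type u} [Field k] (hk2 : ringChar k ≠ 2) (hk3 : Nat.card k ≠ 3)
    {M : Type u} [AddCommGroup M] [Module k M] [FiniteDimensional k M]
    {G : Subgroup (LinearMap.GeneralLinearGroup k M)} (hG : IsQuadraticPair G)
include hk2 hk3 hG

theorem special_of_opp {a b : M →ₗ[k] M} (ha : Root G a) (hb : Root G b) (h : a * b * a ≠ 0) :
    IsSpecialRankOnePair (Es ha) (Es hb) := by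
  rcases Cfsg.Agent.S5065.result hk2 hk3 hG (unip_mem_minimal ha) (unip_mem_minimal hb) with h1 | ⟨h1, -, -⟩
  · exfalso
    apply h
    rcases Cfsg.Agent.S5068.result hk2 hk3 hG (same_mem_root ha) (same_mem_root hb) h1 with h2 | ⟨-, -, -, -, -, h2⟩
    · exact (zero_of_unip ha hb (Or.inl h2)).1
    · exact (zero_of_unip ha hb (Or.inr ⟨_, h2⟩)).1
  · exact h1

theorem r1_iff {a b : M →ₗ[k] M} (ha : Root G a) (hb : Root G b) :
    IsRankOnePair (Es ha) (Es hb) ↔ a * b * a ≠ 0 :=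
  ⟨fun h => rank_one_opp hk2 hk3 hG ha hb h, fun h => (special_of_opp hk2 hk3 hG ha hb h).1⟩

theorem special_of_r1 {A B : Subgroup (LinearMap.GeneralLinearGroup k M)} (hA : A ∈ quadraticRootSubgroups G)
    (hB : B ∈ quadraticRootSubgroups G) (h : IsRankOnePair A B) : IsSpecialRankOnePair A B := by
  obtain ⟨a, ha, rfl⟩ := exists_root hA
  obtain ⟨b, hb, rfl⟩ := exists_root hB
  exact special_of_opp hk2 hk3 hG ha hb ((r1_iff hk2 hk3 hG ha hb).1 h)

theorem trich {A B : Subgroup (LinearMap.GeneralLinearGroup k M)} (hA : A ∈ quadraticRootSubgroups G)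
    (hB : B ∈ quadraticRootSubgroups G) :
    ⁅A, B⁆ = ⊥ ∨ IsRankOnePair A B ∨ RootCommutatorCase (quadraticRootSubgroups G) A B := by
  have hSK : ∀ A ∈ quadraticRootSubgroups G, A ≤ ⨆ B ∈ quadraticRootSubgroups G, B :=
    fun A hA => le_iSup₂_of_le A hA le_rfl
  rcases (Cfsg.Agent.S5062.result hk2 hk3 hG).1.pair _ ⟨A, hA, rfl⟩ _ ⟨B, hB, rfl⟩ with h | h | h
  · exact Or.inl ((sub_bot hSK hA hB).1 h)
  · exact Or.inr (Or.inl ((sub_r1 hSK hA hB).1 h))
  · exact Or.inr (Or.inr ((sub_cc hSK hA hB).1 h))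

/-- non-commuting members have a common opposite -/
theorem common_opp {a b : M →ₗ[k] M} (ha : Root G a) (hb : Root G b) (h0 : a * b * a = 0) (hne : a * b ≠ b * a) :
    ∃ (p : M →ₗ[k] M) (_ : Root G p), a * p * a ≠ 0 ∧ b * p * b ≠ 0 := by
  have hGd := good hk2 hk3 hG
  have h2 := two_ne_zero_of hk2
  have h0' := hGd.nonopp ha hb h0
  have ha2 := ha.1.1
  have hb2 := hb.1.1
  obtain ⟨c, hc'⟩ : ∃ c, c = a * b - b * a := ⟨_, rfl⟩
  have hcne : c ≠ 0 := by rw [hc', sub_ne_zero]; exact hne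
  have hcF : Fam G c := by rw [hc']; exact ha.1.comm hb.1 h0 h0'
  have hr : rk c ≤ rk a := by
    rw [hc', ← rk_neg, neg_sub]
    exact (rk_sub_le _ _).trans (rk_add_le h0')
  have hc : Root G c := ha.of_rk_le hcF hcne hr
  obtain ⟨e, he, e1, e2⟩ := hGd.exists_dual hc
  have key : ∀ y : M →ₗ[k] M, ∃ s : k, (y + s • c) * e * (y + s • c) ≠ 0 := by
    intro y
    by_contra hcon
    push Not at hcon
    have q0 := hcon 0
    have q1 := hcon 1
    have q2 := hcon (-1)
    rw [zero_smul, add_zero] at q0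
    rw [one_smul] at q1
    rw [neg_smul, one_smul] at q2
    have : (2 : k) • (c * e * c) = (y + c) * e * (y + c) + (y + -c) * e * (y + -c) - (y * e * y) - (y * e * y) := by
      have : (2 : k) • (c * e * c) = (2 : ℤ) • (c * e * c) := by
        rw [← Int.cast_smul_eq_zsmul k]; norm_num
      rw [this]; noncomm_ring
    rw [q0, q1, q2, e1] at this
    simp only [add_zero, sub_zero, smul_eq_zero] at this
    rcases this with h | h
    · exact h2 h
    · exact hcne h
  obtain ⟨s, hs⟩ := key a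
  obtain ⟨t, ht⟩ := key b
  have cb : c * b = 0 := by
    rw [hc', sub_mul, mul_assoc, hb2, mul_zero, h0', sub_zero]
  have bc : b * c = 0 := by
    rw [hc', mul_sub, ← mul_assoc, h0', ← mul_assoc, hb2, zero_mul, sub_zero]
  have ca : c * a = 0 := by
    rw [hc', sub_mul, h0, mul_assoc, ha2, mul_zero, sub_zero]
  have ac : a * c = 0 := by
    rw [hc', mul_sub, ← mul_assoc, ha2, zero_mul, ← mul_assoc, h0, sub_zero]
  have cc := hcF.1
  -- the conjugating element
  have hg1 := ha.1.unip_mem (-t) (smul_sq_zero ha2 _)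
  have hg2 := hb.1.unip_mem s (smul_sq_zero hb2 _)
  obtain ⟨g, hg⟩ : ∃ g, g = unip (-t • a) (smul_sq_zero ha2 _) * unip (s • b) (smul_sq_zero hb2 _) := ⟨_, rfl⟩
  have hgG : g ∈ G := by rw [hg]; exact mul_mem hg1 hg2
  have gv : (g : M →ₗ[k] M) = (1 + -t • a) * (1 + s • b) := by rw [hg, Units.val_mul, unip_val, unip_val]
  have gi : ((g⁻¹ : LinearMap.GeneralLinearGroup k M) : M →ₗ[k] M) = (1 - s • b) * (1 - -t • a) := by
    rw [hg, mul_inv_rev, Units.val_mul, unip_inv, unip_inv]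
  have c1 : ((g⁻¹ : LinearMap.GeneralLinearGroup k M) : M →ₗ[k] M) * a * g = a + s • c := by
    rw [gi, gv]
    have e1 : (1 - -t • a) * a * (1 + -t • a) = a := by
      simp only [sub_mul, mul_add, smul_mul_assoc, mul_smul_comm, ha2, one_mul, mul_one, smul_zero, sub_zero, add_zero]
    calc (1 - s • b) * (1 - -t • a) * a * ((1 + -t • a) * (1 + s • b))
        = (1 - s • b) * ((1 - -t • a) * a * (1 + -t • a)) * (1 + s • b) := by noncomm_ring
      _ = (1 - s • b) * a * (1 + s • b) := by rw [e1]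
      _ = a + s • c := by
        simp only [sub_mul, mul_add, smul_mul_assoc, mul_smul_comm, one_mul, mul_one, h0', smul_zero, hc', smul_sub]
        abel
  have c2 : ((g⁻¹ : LinearMap.GeneralLinearGroup k M) : M →ₗ[k] M) * b * g = b + t • c := by
    rw [gi, gv]
    have e1 : (1 - -t • a) * b * (1 + -t • a) = b + t • c := by
      obtain ⟨u, hu⟩ : ∃ u, u = t • a := ⟨_, rfl⟩
      have e2 : t • c = u * b - b * u := by rw [hc', hu, smul_sub, smul_mul_assoc, mul_smul_comm]
      have e3 : u * b * u = 0 := by rw [hu, mul_smul_comm, smul_mul_assoc, smul_mul_assoc, h0]; simp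
      rw [e2, neg_smul, ← hu]
      have : (1 - -u) * b * (1 + -u) = b + (u * b - b * u) - u * b * u := by noncomm_ring
      rw [this, e3, sub_zero]
    calc (1 - s • b) * (1 - -t • a) * b * ((1 + -t • a) * (1 + s • b))
        = (1 - s • b) * ((1 - -t • a) * b * (1 + -t • a)) * (1 + s • b) := by noncomm_ring
      _ = (1 - s • b) * (b + t • c) * (1 + s • b) := by rw [e1]
      _ = b + t • c := by
        simp only [sub_mul, mul_add, add_mul, smul_mul_assoc, mul_smul_comm, one_mul, mul_one, hb2, cb, bc, smul_zero,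
          add_zero, sub_zero]
  refine ⟨_, he.conj hgG, ?_, ?_⟩
  · intro h
    apply hs
    rw [← c1]
    calc ((g⁻¹ : LinearMap.GeneralLinearGroup k M) : M →ₗ[k] M) * a * g * e *
          (((g⁻¹ : LinearMap.GeneralLinearGroup k M) : M →ₗ[k] M) * a * g)
        = ((g⁻¹ : LinearMap.GeneralLinearGroup k M) : M →ₗ[k] M) * (a * ((g : M →ₗ[k] M) * e *
          ((g⁻¹ : LinearMap.GeneralLinearGroup k M) : M →ₗ[k] M)) * a) * g := by noncomm_ring
      _ = 0 := by rw [h]; simp
  · intro h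
    apply ht
    rw [← c2]
    calc ((g⁻¹ : LinearMap.GeneralLinearGroup k M) : M →ₗ[k] M) * b * g * e *
          (((g⁻¹ : LinearMap.GeneralLinearGroup k M) : M →ₗ[k] M) * b * g)
        = ((g⁻¹ : LinearMap.GeneralLinearGroup k M) : M →ₗ[k] M) * (b * ((g : M →ₗ[k] M) * e *
          ((g⁻¹ : LinearMap.GeneralLinearGroup k M) : M →ₗ[k] M)) * b) * g := by noncomm_ring
      _ = 0 := by rw [h]; simp

/-- non-commuting members lie in the same component -/
theorem connected_of_noncomm {A B : Subgroup (LinearMap.GeneralLinearGroup k M)} (hA : A ∈ quadraticRootSubgroups G)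
    (hB : B ∈ quadraticRootSubgroups G) (h : ⁅A, B⁆ ≠ ⊥) :
    Relation.ReflTransGen (FAdj (quadraticRootSubgroups G)) A B := by
  obtain ⟨x, hx, y, hy, hxy⟩ : ∃ x ∈ A, ∃ y ∈ B, x * y ≠ y * x := by
    by_contra hcon
    push Not at hcon
    apply h
    rw [com_iff]
    exact hcon
  have hx1 : x ≠ 1 := by rintro rfl; simp at hxy
  have hy1 : y ≠ 1 := by rintro rfl; simp at hxy
  obtain ⟨a, ha, rfl⟩ := exists_root hA
  obtain ⟨b, hb, rfl⟩ := exists_root hB
  obtain ⟨a', ha', rfl, -, -, hEa⟩ := mem_Es ha hx hx1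
  obtain ⟨b', hb', rfl, -, -, hEb⟩ := mem_Es hb hy hy1
  rw [← hEa, ← hEb]
  have hne : a' * b' ≠ b' * a' := fun h => hxy ((Root.comm_iff_unip _ _).2 h)
  by_cases h0 : a' * b' * a' = 0
  · obtain ⟨p, hp, p1, p2⟩ := common_opp hk2 hk3 hG ha' hb' h0 hne
    refine (Relation.ReflTransGen.single ?_).tail (b := Es hp) ?_
    · exact ⟨same_mem_root ha', same_mem_root hp, (r1_iff hk2 hk3 hG ha' hp).2 p1⟩
    · exact ⟨same_mem_root hp, same_mem_root hb', RankOnePair_symm ((r1_iff hk2 hk3 hG hb' hp).2 p2)⟩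
  · exact .single ⟨same_mem_root ha', same_mem_root hb', (r1_iff hk2 hk3 hG ha' hb').2 h0⟩

end

end Cfsg.Agent.H84.QP
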