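import Mathlib
import Cfsg.Agent.H84.QP8
set_option autoImplicit false
universe u

/-! Quadratic pairs: connected components of the opposition graph. -/

namespace Cfsg.Agent.H84.QP

open Cfsg
open scoped commutatorElement

section
variable {Γ : Type*} [Group Γ] {S : Set (Subgroup Γ)}

theorem fadj_symm {A B : Subgroup Γ} (h : FAdj S A B) : FAdj S B A := ⟨h.2.1, h.1, RankOnePair_symm h.2.2⟩

theorem reach_symm {A B : Subgroup Γ} (h : Relation.ReflTransGen (FAdj S) A B) :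
    Relation.ReflTransGen (FAdj S) B A := by
  induction h with
  | refl => exact .refl
  | tail _ h ih => exact (Relation.ReflTransGen.single (fadj_symm h)).trans ih

theorem mem_comp_self {A : Subgroup Γ} (hA : A ∈ S) : A ∈ componentOf (FAdj S) S A := ⟨hA, .refl⟩

theorem comp_eq {A B : Subgroup Γ} (hB : B ∈ componentOf (FAdj S) S A) :
    componentOf (FAdj S) S B = componentOf (FAdj S) S A := by
  ext C
  constructor
  · rintro ⟨h1, h2⟩; exact ⟨h1, hB.2.trans h2⟩
  · rintro ⟨h1, h2⟩; exact ⟨h1, (reach_symm hB.2).trans h2⟩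

theorem comp_connected {A : Subgroup Γ} :
    IsConnectedFamily (FAdj (componentOf (FAdj S) S A)) (componentOf (FAdj S) S A) := by
  intro B hB C hC
  have h : Relation.ReflTransGen (FAdj S) B C := (reach_symm hB.2).trans hC.2
  clear hC
  induction h with
  | refl => exact .refl
  | @tail D E hD h ih =>
    have h1 : D ∈ componentOf (FAdj S) S A := ⟨h.1, hB.2.trans hD⟩
    have h2 : E ∈ componentOf (FAdj S) S A := ⟨h.2.1, (hB.2.trans hD).tail h⟩
    exact ih.tail ⟨h1, h2, h.2.2⟩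

theorem reach_conj {K : Subgroup Γ} (hK : ∀ A ∈ S, ∀ g ∈ K, conjBy A g ∈ S) {g : Γ} (hg : g ∈ K) {A B : Subgroup Γ}
    (h : Relation.ReflTransGen (FAdj S) A B) : Relation.ReflTransGen (FAdj S) (conjBy A g) (conjBy B g) := by
  induction h with
  | refl => exact .refl
  | tail _ h ih => exact ih.tail ⟨hK _ h.1 g hg, hK _ h.2.1 g hg, r1_conj h.2.2 g⟩

/-- the elements preserving a set of subgroups -/
def stabSet (P : Set (Subgroup Γ)) : Subgroup Γ where
  carrier := {g | ∀ C, C ∈ P ↔ conjBy C g ∈ P}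
  one_mem' := fun C => by rw [conjBy_one]
  mul_mem' := by
    intro g h hg hh C
    rw [← conjBy_conjBy, ← hg, ← hh]
  inv_mem' := by
    intro g hg C
    rw [hg (conjBy C g⁻¹), conjBy_conjBy, mul_inv_cancel, conjBy_one]

theorem comp_stab {K : Subgroup Γ} (hK : ∀ A ∈ S, ∀ g ∈ K, conjBy A g ∈ S) (hSK : ∀ A ∈ S, A ≤ K) {A : Subgroup Γ} :
    (⨆ B ∈ componentOf (FAdj S) S A, B) ≤ stabSet (componentOf (FAdj S) S A) := by
  refine iSup₂_le fun B hB g hg => ?_
  have key : ∀ g ∈ B, ∀ C ∈ componentOf (FAdj S) S A, conjBy C g ∈ componentOf (FAdj S) S A := by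
    intro g hg C hC
    have hgK := hSK B hB.1 hg
    refine ⟨hK C hC.1 g hgK, ?_⟩
    have h1 := reach_conj hK hgK ((reach_symm hB.2).trans hC.2)
    rw [conjBy_self hg] at h1
    exact hB.2.trans h1
  intro C
  refine ⟨key g hg C, fun h => ?_⟩
  have := key g⁻¹ (inv_mem hg) _ h
  rwa [conjBy_conjBy, inv_mul_cancel, conjBy_one] at this

end

section
variable {k : Type u} [Field k] (hk2 : ringChar k ≠ 2) (hk3 : Nat.card k ≠ 3)
    {M : Type u} [AddCommGroup M] [Module k M] [FiniteDimensional k M]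
    {G : Subgroup (LinearMap.GeneralLinearGroup k M)} (hG : IsQuadraticPair G)
include hk2 hk3 hG

/-- the component of `A` -/
abbrev Co (G : Subgroup (LinearMap.GeneralLinearGroup k M)) (A : Subgroup (LinearMap.GeneralLinearGroup k M)) :
    Set (Subgroup (LinearMap.GeneralLinearGroup k M)) :=
  componentOf (FAdj (quadraticRootSubgroups G)) (quadraticRootSubgroups G) A

theorem comp_comm {A B C D : Subgroup (LinearMap.GeneralLinearGroup k M)}
    (hC : C ∈ Co G A) (hD : D ∈ Co G B) (hne : Co G A ≠ Co G B) : ⁅C, D⁆ = ⊥ := by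
  by_contra h
  apply hne
  have h1 := connected_of_noncomm hk2 hk3 hG hC.1 hD.1 h
  have h2 : D ∈ Co G A := ⟨hD.1, hC.2.trans h1⟩
  exact (comp_eq h2).symm.trans (comp_eq hD)

theorem exists_r1 {A : Subgroup (LinearMap.GeneralLinearGroup k M)} (hA : A ∈ quadraticRootSubgroups G) :
    ∃ D ∈ quadraticRootSubgroups G, IsRankOnePair A D := by
  obtain ⟨a, ha, rfl⟩ := exists_root hA
  obtain ⟨b, hb, h⟩ := (good hk2 hk3 hG).opp a ha
  exact ⟨Es hb, same_mem_root hb, (r1_iff hk2 hk3 hG ha hb).2 h⟩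

theorem comm_mem_comp {X A B : Subgroup (LinearMap.GeneralLinearGroup k M)}
    (hA : A ∈ Co G X) (hB : B ∈ Co G X) (h : ⁅A, B⁆ ∈ quadraticRootSubgroups G) : ⁅A, B⁆ ∈ Co G X := by
  obtain ⟨D, hD, hr⟩ := exists_r1 hk2 hk3 hG h
  have h1 : ¬ (Com D A ∧ Com D B) := by
    rintro ⟨h1, h2⟩
    apply r1_not_com hr
    have e1 : A ≤ Subgroup.centralizer (D : Set _) := fun a ha => by
      rw [Subgroup.mem_centralizer_iff]; intro d hd; exact h1 d hd a ha
    have e2 : B ≤ Subgroup.centralizer (D : Set _) := fun a ha => by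
      rw [Subgroup.mem_centralizer_iff]; intro d hd; exact h2 d hd a ha
    have e3 : ⁅A, B⁆ ≤ Subgroup.centralizer (D : Set _) := by
      rw [Subgroup.commutator_le]
      intro a ha b hb
      rw [commutatorElement_def]
      exact mul_mem (mul_mem (mul_mem (e1 ha) (e2 hb)) (inv_mem (e1 ha))) (inv_mem (e2 hb))
    intro x hx d hd
    exact (Subgroup.mem_centralizer_iff.1 (e3 hx) d hd).symm
  have h2 : D ∈ Co G X := by
    by_cases h3 : Com D A
    · have h4 : ¬ Com D B := fun h4 => h1 ⟨h3, h4⟩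
      rw [← com_iff] at h4
      exact ⟨hD, hB.2.trans (reach_symm (connected_of_noncomm hk2 hk3 hG hD hB.1 h4))⟩
    · rw [← com_iff] at h3
      exact ⟨hD, hA.2.trans (reach_symm (connected_of_noncomm hk2 hk3 hG hD hA.1 h3))⟩
  exact ⟨h, h2.2.tail ⟨hD, h, RankOnePair_symm hr⟩⟩

theorem comp_pair {X A B : Subgroup (LinearMap.GeneralLinearGroup k M)}
    (hA : A ∈ Co G X) (hB : B ∈ Co G X) :
    ⁅A, B⁆ = ⊥ ∨ IsRankOnePair A B ∨ RootCommutatorCase (Co G X) A B := by
  rcases trich hk2 hk3 hG hA.1 hB.1 with h | h | ⟨h1, h2⟩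
  · exact Or.inl h
  · exact Or.inr (Or.inl h)
  · exact Or.inr (Or.inr ⟨comm_mem_comp hk2 hk3 hG hA hB h1, h2⟩)

omit hk2 hk3 hG in
theorem comp_le_G {X A : Subgroup (LinearMap.GeneralLinearGroup k M)} (hA : A ∈ Co G X) : A ≤ G := root_le_G hA.1

omit hk2 hk3 hG in
theorem Es_comm {A : Subgroup (LinearMap.GeneralLinearGroup k M)} (hA : A ∈ quadraticRootSubgroups G) :
    IsMulCommutative A := by
  obtain ⟨a, ha, rfl⟩ := exists_root hA
  exact ⟨⟨fun x y => Subtype.ext (sameActionSubgroup_comm _ x.2 y.2)⟩⟩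

omit hk2 hk3 hG in
theorem comp_conj {X : Subgroup (LinearMap.GeneralLinearGroup k M)} :
    ∀ A ∈ Co G X, ∀ g ∈ (⨆ B ∈ Co G X, B), conjBy A g ∈ Co G X := by
  intro A hA g hg
  have := comp_stab (S := quadraticRootSubgroups G) (K := G) (fun A hA g hg => conj_mem_roots hA hg)
    (fun A hA => root_le_G hA) hg
  exact (this A).1 hA

theorem comp_root_set (X : Subgroup (LinearMap.GeneralLinearGroup k M)) :
    IsRootSubgroupSet (subSet (Co G X) (⨆ B ∈ Co G X, B)) := by
  apply isRootSubgroupSet_sub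
  · intro A hA; exact Es_comm hA.1
  · intro A hA h
    obtain ⟨a, ha, rfl⟩ := exists_root hA.1
    exact Es_ne_bot ha h
  · exact comp_conj
  · intro A hA B hB
    exact comp_pair hk2 hk3 hG hA hB

omit hk2 hk3 hG in
theorem comp_sub_le {X : Subgroup (LinearMap.GeneralLinearGroup k M)} : ∀ A ∈ Co G X, A ≤ (⨆ B ∈ Co G X, B) :=
  fun A hA => le_iSup₂_of_le A hA le_rfl

omit hk2 hk3 hG in
theorem comp_connected' (X : Subgroup (LinearMap.GeneralLinearGroup k M)) :
    IsConnectedFamily (FAdj (subSet (Co G X) (⨆ B ∈ Co G X, B))) (subSet (Co G X) (⨆ B ∈ Co G X, B)) :=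
  sub_connected comp_sub_le comp_connected

theorem comp_two {X : Subgroup (LinearMap.GeneralLinearGroup k M)} (hX : X ∈ quadraticRootSubgroups G) :
    ∃ A ∈ subSet (Co G X) (⨆ B ∈ Co G X, B), ∃ B ∈ subSet (Co G X) (⨆ B ∈ Co G X, B), A ≠ B := by
  obtain ⟨D, hD, hr⟩ := exists_r1 hk2 hk3 hG hX
  have h1 : D ∈ Co G X := ⟨hD, .single ⟨hX, hD, hr⟩⟩
  have h2 : X ∈ Co G X := mem_comp_self hX
  refine ⟨_, ⟨X, h2, rfl⟩, _, ⟨D, h1, rfl⟩, ?_⟩
  exact ((sub_r1 comp_sub_le h2 h1).2 hr).ne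

theorem comp_special {X : Subgroup (LinearMap.GeneralLinearGroup k M)} :
    ∀ A ∈ subSet (Co G X) (⨆ B ∈ Co G X, B), ∀ B ∈ rankOnePartners (subSet (Co G X) (⨆ B ∈ Co G X, B)) A,
      IsSpecialRankOnePair A B := by
  rintro _ ⟨A, hA, rfl⟩ _ ⟨⟨B, hB, rfl⟩, hr⟩
  have h := (sub_r1 comp_sub_le hA hB).1 hr
  exact (sub_special comp_sub_le hA hB).2 (special_of_r1 hk2 hk3 hG hA.1 hB.1 h)

end

end Cfsg.Agent.H84.QP
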