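import Mathlib
import Cfsg.Prelude.Def_RootSubgroups
import Cfsg.Agent.H84.Root1
set_option autoImplicit false

/-!
# Abstract root subgroups II: TI, the commutator lemma, the action of a rank one group on `AC` (helper84)
-/

namespace Cfsg.Agent.H84

open Cfsg
open scoped commutatorElement

variable {G : Type*} [Group G] {A B C D E F : Subgroup G} {S : Set (Subgroup G)}

theorem rs_comm (hS : IsRootSubgroupSet S) (hA : A ∈ S) : Com A A := fun a ha b hb => by
  have := (hS.commutative A hA).is_comm.comm ⟨a, ha⟩ ⟨b, hb⟩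
  exact congrArg Subtype.val this

theorem rs_pair (hS : IsRootSubgroupSet S) (hA : A ∈ S) (hB : B ∈ S) :
    Com A B ∨ IsRankOnePair A B ∨ RootCommutatorCase S A B := by
  rw [← com_iff]; exact hS.pair A hA B hB

theorem cc_ne_bot (hS : IsRootSubgroupSet S) (h : RootCommutatorCase S A B) : ⁅A, B⁆ ≠ ⊥ := hS.ne_bot _ h.1

theorem cc_not_com (hS : IsRootSubgroupSet S) (h : RootCommutatorCase S A B) : ¬ Com A B := fun hc =>
  cc_ne_bot hS h (com_iff.mpr hc)

theorem conjBy_comm_left {a : G} (ha : a ∈ A) : conjBy ⁅A, B⁆ a = ⁅A, B⁆ := by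
  have key : ∀ a ∈ A, conjBy ⁅A, B⁆ a ≤ ⁅A, B⁆ := by
    intro a ha
    rw [conjBy, Subgroup.map_le_iff_le_comap, Subgroup.commutator_le]
    intro x hx y hy
    show a * ⁅x, y⁆ * a⁻¹ ∈ ⁅A, B⁆
    have e : a * ⁅x, y⁆ * a⁻¹ = ⁅a * x, y⁆ * ⁅a, y⁆⁻¹ := by simp only [commutatorElement_def]; group
    rw [e]
    exact mul_mem (Subgroup.commutator_mem_commutator (mul_mem ha hx) hy)
      (inv_mem (Subgroup.commutator_mem_commutator ha hy))
  refine le_antisymm (key a ha) ?_
  have h := conjBy_mono (key a⁻¹ (inv_mem ha)) a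
  rwa [conjBy_conjBy, mul_inv_cancel, conjBy_one] at h

theorem conjBy_comm_right {b : G} (hb : b ∈ B) : conjBy ⁅A, B⁆ b = ⁅A, B⁆ := by
  rw [Subgroup.commutator_comm]; exact conjBy_comm_left hb

theorem conj_eq_comm_mul (a b : G) : a * b * a⁻¹ = ⁅a, b⁆ * b := by rw [commutatorElement_def]; group

/-- `conjBy B a ≤ ⁅A,B⁆ ⊔ B` -/
theorem conjBy_le_comm_sup {a : G} (ha : a ∈ A) : conjBy B a ≤ ⁅A, B⁆ ⊔ B := by
  rintro _ ⟨b', hb', rfl⟩
  show a * b' * a⁻¹ ∈ _
  rw [conj_eq_comm_mul]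
  exact mul_mem (Subgroup.mem_sup_left (comm_mem ha hb')) (Subgroup.mem_sup_right hb')

/-- different members meet trivially, if one has a rank one partner -/
theorem rs_TI (hS : IsRootSubgroupSet S) (hA : A ∈ S) (hD : D ∈ S) (hAD : IsRankOnePair A D) (hC : C ∈ S)
    (hne : C ≠ A) {x : G} (hxA : x ∈ A) (hxC : x ∈ C) : x = 1 := by
  rcases rs_pair hS hA hC with h | h | h
  · by_contra hx1
    obtain ⟨d, hd, hd1, hxd⟩ := r1_left hAD hxA hx1
    rcases rs_pair hS hC hD with h' | h' | h'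
    · exact hx1 (r1_norm_left hAD hxA (h'.symm.conjBy_eq hxC))
    · obtain ⟨d', hd', -, hxd'⟩ := r1_left h' hxC hx1
      have e1 : conjBy C (d⁻¹ * d') = A := by
        rw [← conjBy_conjBy, hxd', ← hxd, conjBy_conjBy, inv_mul_cancel, conjBy_one]
      by_cases h1 : d⁻¹ * d' = 1
      · rw [h1, conjBy_one] at e1; exact hne e1
      · have := r1_not_com_conj h' (mul_mem (inv_mem hd) hd') h1
        rw [e1] at this
        exact this h.symm
    · exact r1_not_com_conj' hAD hxA hx1 (cc_conj_com h' (rs_comm hS hD) hxC)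
  · exact r1_inf h hxA hxC
  · exact cc_ne h (cc_ne_bot hS h) hxA fun c hc => rs_comm hS hC _ hxC _ hc

/-- if the commutator of two members is a member, the commutator case holds. -/
theorem rs_cc (hS : IsRootSubgroupSet S) (hA : A ∈ S) (hB : B ∈ S) (hC : ⁅A, B⁆ ∈ S) : RootCommutatorCase S A B := by
  rcases rs_pair hS hA hB with h | h | h
  · exact absurd (com_iff.mpr h) (hS.ne_bot _ hC)
  · exfalso
    rcases rs_pair hS hB hC with h' | h' | h'
    · obtain ⟨a, ha, ha1⟩ := le_iff_of_bot (r1_ne_bot h)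
      refine r1_not_com_conj' h ha ha1 ?_
      exact (h'.sup_right (rs_comm hS hB)).mono le_rfl (conjBy_le_comm_sup ha)
    · obtain ⟨b, hb, hb1⟩ := le_iff_of_bot (r1_ne_bot h')
      exact hb1 (r1_norm_left h' hb (conjBy_comm_right hb))
    · obtain ⟨e, he, he1⟩ := le_iff_of_bot (cc_ne_bot hS h')
      have he2 : ⁅B, ⁅A, B⁆⁆ ≤ ⁅A, B⁆ := by
        rw [Subgroup.commutator_le]
        intro b hb c hc
        rw [commutatorElement_def]
        refine mul_mem ?_ (inv_mem hc)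
        have := conj_mem_conjBy (g := b) hc
        rwa [conjBy_comm_right hb] at this
      exact he1 (cc_ne' h' (cc_ne_bot hS h') (he2 he) fun b hb => (cc_comA h' e he b hb).symm)
  · exact h

/-! ### S5036: the action of `⟨B,D⟩` on `AC`, `C = ⁅A,B⁆`, `A = ⁅D,C⁆` -/

/-- The configuration of S5036. -/
structure Conf (S : Set (Subgroup G)) (A B C D : Subgroup G) : Prop where
  rs : IsRootSubgroupSet S
  hA : A ∈ S
  hB : B ∈ S
  hC : C ∈ S
  hD : D ∈ S
  eC : ⁅A, B⁆ = C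
  eA : ⁅C, D⁆ = A

namespace Conf

theorem symm (h : Conf S A B C D) : Conf S C D A B := ⟨h.rs, h.hC, h.hD, h.hA, h.hB, h.eA, h.eC⟩

theorem cc (h : Conf S A B C D) : RootCommutatorCase S A B := rs_cc h.rs h.hA h.hB (by rw [h.eC]; exact h.hC)

theorem comAC (h : Conf S A B C D) : Com A C := by
  have := cc_comA h.cc
  rw [h.eC] at this
  exact this.symm

theorem comBC (h : Conf S A B C D) : Com B C := by
  have := cc_comB h.cc
  rw [h.eC] at this
  exact this.symm

theorem comAD (h : Conf S A B C D) : Com A D := h.symm.comBC.symm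

theorem nebot (h : Conf S A B C D) : C ≠ ⊥ := h.rs.ne_bot _ h.hC

theorem inf (h : Conf S A B C D) {x : G} (hxA : x ∈ A) (hxC : x ∈ C) : x = 1 :=
  cc_ne h.cc (by rw [h.eC]; exact h.nebot) hxA fun b hb => (h.comBC b hb x hxC).symm

theorem comN (h : Conf S A B C D) : Com (A ⊔ C) (A ⊔ C) :=
  ((rs_comm h.rs h.hA).sup_left h.comAC.symm).sup_right (h.comAC.sup_left (rs_comm h.rs h.hC))

/-- `C_N(B) = C` -/
theorem mem_of_com (h : Conf S A B C D) {x : G} (hx : x ∈ A ⊔ C) (hxb : ∀ b ∈ B, x * b = b * x) : x ∈ C := by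
  obtain ⟨a, ha, c, hc, rfl⟩ := mem_sup_com h.comAC hx
  have ha1 : a = 1 := by
    refine cc_ne h.cc (by rw [h.eC]; exact h.nebot) ha fun b hb => ?_
    have hbc := h.comBC b hb c hc
    have h1 : a * b * c = b * a * c := by
      calc a * b * c = a * (b * c) := by group
        _ = a * c * b := by rw [hbc]; group
        _ = b * (a * c) := hxb b hb
        _ = _ := by group
    exact mul_right_cancel h1
  rw [ha1, one_mul]; exact hc

theorem conjN (h : Conf S A B C D) {b : G} (hb : b ∈ B) : conjBy (A ⊔ C) b = A ⊔ C := by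
  have key : ∀ b ∈ B, conjBy (A ⊔ C) b ≤ A ⊔ C := by
    intro b hb
    rw [conjBy_sup, h.comBC.symm.conjBy_eq hb]
    refine sup_le ?_ le_sup_right
    refine (conjBy_le_comm_sup hb).trans ?_
    rw [Subgroup.commutator_comm, h.eC, sup_comm]
  refine le_antisymm (key b hb) ?_
  have h1 := conjBy_mono (key b⁻¹ (inv_mem hb)) b
  rwa [conjBy_conjBy, mul_inv_cancel, conjBy_one] at h1

theorem conjN' (h : Conf S A B C D) {d : G} (hd : d ∈ D) : conjBy (A ⊔ C) d = A ⊔ C := by
  rw [sup_comm]; exact h.symm.conjN hd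

theorem conjNX (h : Conf S A B C D) {x : G} (hx : x ∈ B ⊔ D) : conjBy (A ⊔ C) x = A ⊔ C := by
  rw [Subgroup.sup_eq_closure] at hx
  refine Subgroup.closure_induction (p := fun (x : G) _ => conjBy (A ⊔ C) x = A ⊔ C) ?_ ?_ ?_ ?_ hx
  · rintro x (hx | hx)
    · exact h.conjN hx
    · exact h.conjN' hx
  · exact conjBy_one _
  · intro x y _ _ hx hy
    rw [← conjBy_conjBy, hy, hx]
  · intro x _ hx
    rw [conjBy_eq_iff, inv_inv, hx]

theorem conj_memN (h : Conf S A B C D) {x y : G} (hx : x ∈ B ⊔ D) (hy : y ∈ A ⊔ C) : x * y * x⁻¹ ∈ A ⊔ C := by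
  rw [← h.conjNX hx]; exact conj_mem_conjBy hy

theorem conj_memN' (h : Conf S A B C D) {x y : G} (hx : x ∈ B ⊔ D) (hy : y ∈ A ⊔ C) : x⁻¹ * y * x ∈ A ⊔ C := by
  have := h.conj_memN (inv_mem hx) hy
  rwa [inv_inv] at this

theorem conj_comm {u x y : G} (h : x * y = y * x) : (u * x * u⁻¹) * (u * y * u⁻¹) = (u * y * u⁻¹) * (u * x * u⁻¹) := by
  calc (u * x * u⁻¹) * (u * y * u⁻¹) = u * (x * y) * u⁻¹ := by group
    _ = u * (y * x) * u⁻¹ := by rw [h]
    _ = _ := by group

theorem r1 (h : Conf S A B C D) : IsRankOnePair B D := by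
  rcases rs_pair h.rs h.hB h.hD with h1 | h1 | h1
  · exfalso
    have h2 : Com B A := by
      rw [← com_iff, Subgroup.commutator_eq_bot_iff_le_centralizer, ← h.eA]
      intro b hb
      rw [Subgroup.mem_centralizer_iff]
      intro x hx
      have hC : C ≤ Subgroup.centralizer {b} := by
        intro c hc
        rw [Subgroup.mem_centralizer_iff]
        rintro _ rfl
        exact h.comBC _ hb c hc
      have hD : D ≤ Subgroup.centralizer {b} := by
        intro c hc
        rw [Subgroup.mem_centralizer_iff]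
        rintro _ rfl
        exact h1 _ hb c hc
      have : ⁅C, D⁆ ≤ Subgroup.centralizer {b} :=
        (Subgroup.commutator_le_sup C D).trans (sup_le hC hD)
      exact (Subgroup.mem_centralizer_iff.mp (this hx) b rfl).symm
    exact cc_not_com h.rs h.cc h2.symm
  · exact h1
  · exfalso
    obtain ⟨b, hb, hb1⟩ := le_iff_of_bot (h.rs.ne_bot _ h.hB)
    obtain ⟨e, he, he1⟩ := le_iff_of_bot (cc_ne_bot h.rs h1)
    obtain ⟨d, hd, rfl⟩ := cc_exA h1 hb hb1 he
    have hd1 : d ≠ 1 := by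
      rintro rfl
      exact he1 (by simp)
    have heX : ⁅b, d⁆ ∈ B ⊔ D := Subgroup.commutator_le_sup B D he
    refine hb1 (cc_ne' h.cc (by rw [h.eC]; exact h.nebot) hb fun a' ha' => ?_)
    obtain ⟨c, hc, hca⟩ := cc_exB h.symm.cc hd hd1 (c := a'⁻¹) (by rw [h.eA]; exact inv_mem ha')
    obtain ⟨x, hx, hxc⟩ := cc_exB h.cc (inv_mem hb) (inv_ne_one.mpr hb1) (c := c⁻¹) (by rw [h.eC]; exact inv_mem hc)
    have e1 : d * c * d⁻¹ = a' * c := by
      have : ⁅d, c⁆ = a' := by rw [← commutatorElement_inv, hca, inv_inv]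
      rw [← this, commutatorElement_def]; group
    have e2 : b⁻¹ * x * b = c * x := by
      have : ⁅b⁻¹, x⁆ = c := by rw [← commutatorElement_inv, hxc, inv_inv]
      rw [← this, commutatorElement_def]; group
    have hxd := h.comAD x hx d hd
    have hbc := h.comBC b hb c hc
    have e3 : b * x * b⁻¹ = c⁻¹ * x := by
      have h3 : x = b * (c * x) * b⁻¹ := by rw [← e2]; group
      have h4 : x = c * (b * x * b⁻¹) := by
        calc x = b * (c * x) * b⁻¹ := h3
          _ = (b * c) * x * b⁻¹ := by group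
          _ = _ := by rw [hbc]; group
      rw [eq_inv_mul_iff_mul_eq]; exact h4.symm
    have hex : ⁅b, d⁆ * x * ⁅b, d⁆⁻¹ = b * a' * b⁻¹ * x := by
      calc ⁅b, d⁆ * x * ⁅b, d⁆⁻¹ = b * (d * (b⁻¹ * (d⁻¹ * x * d) * b) * d⁻¹) * b⁻¹ := by
            rw [commutatorElement_def]; group
        _ = b * (d * (b⁻¹ * x * b) * d⁻¹) * b⁻¹ := by
            have : d⁻¹ * x * d = x := by rw [mul_assoc, hxd]; group
            rw [this]
        _ = b * ((d * c * d⁻¹) * (d * x * d⁻¹)) * b⁻¹ := by rw [e2]; group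
        _ = b * (a' * c * x) * b⁻¹ := by
            have : d * x * d⁻¹ = x := by rw [← hxd]; group
            rw [e1, this]
        _ = (b * a' * b⁻¹) * (b * c * b⁻¹) * (b * x * b⁻¹) := by group
        _ = (b * a' * b⁻¹) * c * (c⁻¹ * x) := by
            have : b * c * b⁻¹ = c := by rw [hbc]; group
            rw [this, e3]
        _ = _ := by group
    have hexA : ⁅b, d⁆ * x * ⁅b, d⁆⁻¹ ∈ A := by
      refine h.symm.mem_of_com (by rw [sup_comm]; exact h.conj_memN heX (Subgroup.mem_sup_left hx)) fun d' hd' => ?_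
      have h5 : ⁅b, d⁆ * d' * ⁅b, d⁆⁻¹ = d' := by
        rw [cc_comB h1 _ he _ hd']; group
      have h6 := conj_comm (u := ⁅b, d⁆) (h.comAD x hx d' hd')
      rwa [h5] at h6
    rw [hex] at hexA
    have h7 : b * a' * b⁻¹ ∈ A := by
      have := mul_mem hexA (inv_mem hx)
      rwa [mul_assoc, mul_inv_cancel, mul_one] at this
    have h8 : b * a' * b⁻¹ * a'⁻¹ = 1 := by
      refine h.inf (mul_mem h7 (inv_mem ha')) ?_
      have := comm_mem' ha' hb
      rwa [h.eC, commutatorElement_def] at this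
    rw [mul_inv_eq_one, mul_inv_eq_iff_eq_mul] at h8
    exact h8.symm

theorem conj_eq (h : Conf S A B C D) {b d : G} (hb : b ∈ B) (hd : d ∈ D) (he : conjBy D b = conjBy B d) :
    conjBy A b = conjBy C d := by
  apply le_antisymm
  · rintro _ ⟨x, hx, rfl⟩
    rw [mem_conjBy]
    show d⁻¹ * (b * x * b⁻¹) * d ∈ C
    refine h.mem_of_com ?_ fun b' hb' => ?_
    · exact h.conj_memN' (Subgroup.mem_sup_right hd) (h.conj_memN (Subgroup.mem_sup_left hb) (Subgroup.mem_sup_left hx))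
    · have h1 : d * b' * d⁻¹ ∈ conjBy D b := by rw [he]; exact conj_mem_conjBy hb'
      rw [mem_conjBy] at h1
      have h2 := conj_comm (u := b) (h.comAD x hx _ h1)
      have e : b * (b⁻¹ * (d * b' * d⁻¹) * b) * b⁻¹ = d * b' * d⁻¹ := by group
      rw [e] at h2
      have h3 := conj_comm (u := d⁻¹) h2
      have e' : d⁻¹ * (d * b' * d⁻¹) * d⁻¹⁻¹ = b' := by group
      rw [e', inv_inv] at h3
      exact h3
  · rintro _ ⟨x, hx, rfl⟩
    rw [mem_conjBy]
    show b⁻¹ * (d * x * d⁻¹) * b ∈ A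
    refine h.symm.mem_of_com ?_ fun b' hb' => ?_
    · rw [sup_comm]
      exact h.conj_memN' (Subgroup.mem_sup_left hb) (h.conj_memN (Subgroup.mem_sup_right hd) (Subgroup.mem_sup_right hx))
    · have h1 : b * b' * b⁻¹ ∈ conjBy B d := by rw [← he]; exact conj_mem_conjBy hb'
      rw [mem_conjBy] at h1
      have h2 := conj_comm (u := d) (h.comBC.symm x hx _ h1)
      have e : d * (d⁻¹ * (b * b' * b⁻¹) * d) * d⁻¹ = b * b' * b⁻¹ := by group
      rw [e] at h2
      have h3 := conj_comm (u := b⁻¹) h2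
      have e' : b⁻¹ * (b * b' * b⁻¹) * b⁻¹⁻¹ = b' := by group
      rw [e', inv_inv] at h3
      exact h3

theorem ex_d (h : Conf S A B C D) {b : G} (hb : b ∈ B) (hb1 : b ≠ 1) :
    ∃ d ∈ D, d ≠ 1 ∧ conjBy D b = conjBy B d ∧ conjBy A b = conjBy C d := by
  obtain ⟨d, hd, hd1, he⟩ := r1_left h.r1 hb hb1
  exact ⟨d, hd, hd1, he.symm, h.conj_eq hb hd he.symm⟩

theorem inf_conj (h : Conf S A B C D) {a b : G} (hb : b ∈ B) (hb1 : b ≠ 1) (ha : a ∈ A) (ha' : a ∈ conjBy A b) :
    a = 1 := by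
  obtain ⟨d, hd, hd1, he, he'⟩ := h.ex_d hb hb1
  rw [he', mem_conjBy] at ha'
  have e : d⁻¹ * a * d = a := by rw [mul_assoc, h.comAD a ha d hd]; group
  rw [e] at ha'
  exact h.inf ha ha'

theorem inj (h : Conf S A B C D) {a b : G} (hb : b ∈ B) (hb1 : b ≠ 1) (ha : a ∈ A) (hab : a * b = b * a) : a = 1 := by
  refine h.inf_conj hb hb1 ha ?_
  rw [mem_conjBy, mul_assoc, hab]
  simpa using ha

theorem conj_ne (h : Conf S A B C D) {b b' : G} (hb : b ∈ B) (hb' : b' ∈ B) (hbb : b ≠ b') {x : G}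
    (hx : x ∈ conjBy A b) (hx' : x ∈ conjBy A b') : x = 1 := by
  rw [mem_conjBy] at hx hx'
  have h1 : b⁻¹ * x * b ∈ conjBy A (b⁻¹ * b') := by
    rw [mem_conjBy]
    have e : (b⁻¹ * b')⁻¹ * (b⁻¹ * x * b) * (b⁻¹ * b') = b'⁻¹ * x * b' := by group
    rw [e]; exact hx'
  have h2 := h.inf_conj (mul_mem (inv_mem hb) hb') (fun h3 => hbb (by rwa [inv_mul_eq_one] at h3)) hx h1
  have e : x = b * (b⁻¹ * x * b) * b⁻¹ := by group
  rw [e, h2]; simp

/-- the members of the orbit of `A` -/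
def T (A B C M : Subgroup G) : Prop := M = C ∨ ∃ b ∈ B, M = conjBy A b

theorem T_symm (h : Conf S A B C D) {M : Subgroup G} (hM : T A B C M) : T C D A M := by
  rcases hM with rfl | ⟨b, hb, rfl⟩
  · exact Or.inr ⟨1, one_mem _, (conjBy_one _).symm⟩
  · by_cases hb1 : b = 1
    · subst hb1; rw [conjBy_one]; exact Or.inl rfl
    · obtain ⟨d, hd, -, -, he⟩ := h.ex_d hb hb1
      exact Or.inr ⟨d, hd, he⟩

theorem T_conj (h : Conf S A B C D) {M : Subgroup G} (hM : T A B C M) {x : G} (hx : x ∈ B ⊔ D) :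
    T A B C (conjBy M x) := by
  have key : ∀ (A B C D : Subgroup G), Conf S A B C D → ∀ b ∈ B, ∀ M, T A B C M → T A B C (conjBy M b) := by
    intro A B C D h b hb M hM
    rcases hM with rfl | ⟨b', hb', rfl⟩
    · exact Or.inl (h.comBC.symm.conjBy_eq hb)
    · exact Or.inr ⟨b * b', mul_mem hb hb', conjBy_conjBy _ _ _⟩
  have main : ∀ M, T A B C M → T A B C (conjBy M x) := by
    rw [Subgroup.sup_eq_closure] at hx
    refine Subgroup.closure_induction_left (p := fun (x : G) _ => ∀ M, T A B C M → T A B C (conjBy M x)) ?_ ?_ ?_ hx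
    · intro M hM; rw [conjBy_one]; exact hM
    · rintro x (hx | hx) y _ ih M hM
      · rw [← conjBy_conjBy]; exact key A B C D h x hx _ (ih M hM)
      · rw [← conjBy_conjBy]; exact h.symm.T_symm (key C D A B h.symm x hx _ (h.T_symm (ih M hM)))
    · rintro x (hx | hx) y _ ih M hM
      · rw [← conjBy_conjBy]; exact key A B C D h _ (inv_mem hx) _ (ih M hM)
      · rw [← conjBy_conjBy]; exact h.symm.T_symm (key C D A B h.symm _ (inv_mem hx) _ (h.T_symm (ih M hM)))
  exact main M hM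

theorem ex_X (h : Conf S A B C D) : ∃ x ∈ B ⊔ D, C = conjBy A x := by
  obtain ⟨b, hb, hb1⟩ := le_iff_of_bot (h.rs.ne_bot _ h.hB)
  obtain ⟨d, hd, -, -, he⟩ := h.ex_d hb hb1
  refine ⟨d⁻¹ * b, mul_mem (inv_mem (Subgroup.mem_sup_right hd)) (Subgroup.mem_sup_left hb), ?_⟩
  rw [← conjBy_conjBy, he, conjBy_conjBy, inv_mul_cancel, conjBy_one]

theorem T_iff (h : Conf S A B C D) {M : Subgroup G} : T A B C M ↔ ∃ x ∈ B ⊔ D, M = conjBy A x := by
  constructor
  · rintro (rfl | ⟨b, hb, rfl⟩)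
    · exact h.ex_X
    · exact ⟨b, Subgroup.mem_sup_left hb, rfl⟩
  · rintro ⟨x, hx, rfl⟩
    exact h.T_conj (Or.inr ⟨1, one_mem _, (conjBy_one _).symm⟩) hx

theorem T_mem (h : Conf S A B C D) {M : Subgroup G} (hM : T A B C M) : M ∈ S := by
  rcases hM with rfl | ⟨b, hb, rfl⟩
  · exact h.hC
  · exact h.rs.conj_mem _ h.hA _

theorem T_le (h : Conf S A B C D) {M : Subgroup G} (hM : T A B C M) : M ≤ A ⊔ C := by
  rcases hM with rfl | ⟨b, hb, rfl⟩
  · exact le_sup_right
  · rw [← h.conjN hb]; exact conjBy_mono le_sup_left b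

theorem T_cover (h : Conf S A B C D) {x : G} (hx : x ∈ A ⊔ C) : ∃ M, T A B C M ∧ x ∈ M := by
  obtain ⟨a, ha, c, hc, rfl⟩ := mem_sup_com h.comAC hx
  by_cases ha1 : a = 1
  · subst ha1; rw [one_mul]; exact ⟨C, Or.inl rfl, hc⟩
  · obtain ⟨b, hb, he⟩ := cc_exA h.cc ha ha1 (c := c⁻¹) (by rw [h.eC]; exact inv_mem hc)
    refine ⟨conjBy A b, Or.inr ⟨b, hb, rfl⟩, ?_⟩
    have e : b * a * b⁻¹ = a * c := by
      rw [conj_eq_comm_mul, ← commutatorElement_inv, he, inv_inv, h.comAC a ha c hc]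
    rw [← e]; exact conj_mem_conjBy ha

theorem T_inf (h : Conf S A B C D) {M M' : Subgroup G} (hM : T A B C M) (hM' : T A B C M') (hne : M ≠ M') {x : G}
    (hx : x ∈ M) (hx' : x ∈ M') : x = 1 := by
  have key : ∀ b ∈ B, ∀ x ∈ C, x ∈ conjBy A b → x = 1 := by
    intro b hb x hx hx'
    rw [mem_conjBy] at hx'
    have e : b⁻¹ * x * b = x := by rw [mul_assoc, ← h.comBC b hb x hx]; group
    rw [e] at hx'
    exact h.inf hx' hx
  rcases hM with rfl | ⟨b, hb, rfl⟩
  · rcases hM' with rfl | ⟨b', hb', rfl⟩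
    · exact absurd rfl hne
    · exact key b' hb' x hx hx'
  · rcases hM' with rfl | ⟨b', hb', rfl⟩
    · exact key b hb x hx' hx
    · exact h.conj_ne hb hb' (fun h' => hne (by rw [h'])) hx hx'

theorem partition (h : Conf S A B C D) : IsSubgroupPartition (A ⊔ C) {E | ∃ x ∈ B ⊔ D, E = conjBy A x} := by
  refine ⟨fun M hM => h.T_le (h.T_iff.mpr hM), fun x hx _ => ?_, fun M hM M' hM' hne => ?_⟩
  · obtain ⟨M, hM, hxM⟩ := h.T_cover hx
    exact ⟨M, h.T_iff.mp hM, hxM⟩
  · rw [Subgroup.eq_bot_iff_forall]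
    rintro x ⟨hx, hx'⟩
    exact h.T_inf (h.T_iff.mpr hM) (h.T_iff.mpr hM') hne hx hx'

/-- an element centralizing `N = AC` and normalizing... : if `y ∈ G` centralizes `A ⊔ C` and lies in `⟨B,D⟩`, it
commutes with `B`. -/
theorem cent_aux (h : Conf S A B C D) {y : G} (hy : y ∈ B ⊔ D) (hyN : ∀ n ∈ A ⊔ C, y * n = n * y) {b : G} (hb : b ∈ B) :
    y * b = b * y := by
  -- `y` normalizes every member of the orbit of `B`
  have hyT : ∀ M ≤ A ⊔ C, conjBy M y = M := fun M hM => conjBy_of_comm fun x hx => (hyN x (hM hx)).symm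
  have key : ∀ M M' : Subgroup G, Orb B D M → Orb B D M' →
      (∀ x ∈ A ⊔ C, (∀ m ∈ M, x * m = m * x) ↔ ∀ m ∈ M', x * m = m * x) → M = M' := by
    have char : ∀ M, Orb B D M → ∃ L, T A B C L ∧ (∀ x ∈ A ⊔ C, (∀ m ∈ M, x * m = m * x) ↔ x ∈ L) ∧
        ((M = B ∧ L = C) ∨ ∃ b ∈ B, M = conjBy D b ∧ L = conjBy A b) := by
      rintro M (rfl | ⟨b, hb, rfl⟩)
      · exact ⟨C, Or.inl rfl, fun x hx => ⟨fun h' => h.mem_of_com hx h', fun h' m hm => (h.comBC m hm x h').symm⟩,
          Or.inl ⟨rfl, rfl⟩⟩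
      · refine ⟨conjBy A b, Or.inr ⟨b, hb, rfl⟩, fun x hx => ⟨fun h' => ?_, fun h' m hm => ?_⟩,
          Or.inr ⟨b, hb, rfl, rfl⟩⟩
        · rw [mem_conjBy]
          refine h.symm.mem_of_com ?_ fun d hd => ?_
          · rw [sup_comm]; exact h.conj_memN' (Subgroup.mem_sup_left hb) hx
          · have h1 := conj_comm (u := b⁻¹) (h' _ (conj_mem_conjBy hd))
            have e : b⁻¹ * (b * d * b⁻¹) * b⁻¹⁻¹ = d := by group
            rw [e, inv_inv] at h1
            exact h1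
        · rw [mem_conjBy] at h' hm
          have h1 := conj_comm (u := b) (h.comAD _ h' _ hm)
          have e : ∀ z, b * (b⁻¹ * z * b) * b⁻¹ = z := fun z => by group
          rwa [e, e] at h1
    intro M M' hM hM' hMM
    obtain ⟨L, hL, hL2, hL3⟩ := char M hM
    obtain ⟨L', hL', hL2', hL3'⟩ := char M' hM'
    have hLL : L = L' := by
      ext x
      constructor
      · intro hx
        have hxN := h.T_le hL hx
        exact (hL2' x hxN).mp ((hMM x hxN).mp ((hL2 x hxN).mpr hx))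
      · intro hx
        have hxN := h.T_le hL' hx
        exact (hL2 x hxN).mp ((hMM x hxN).mpr ((hL2' x hxN).mpr hx))
    have key2 : ∀ b ∈ B, C ≠ conjBy A b := by
      intro b hb he
      obtain ⟨c, hc, hc1⟩ := le_iff_of_bot h.nebot
      have hc' := hc
      rw [he, mem_conjBy] at hc'
      have e : b⁻¹ * c * b = c := by rw [mul_assoc, ← h.comBC b hb c hc]; group
      rw [e] at hc'
      exact hc1 (h.inf hc' hc)
    rcases hL3 with ⟨rfl, rfl⟩ | ⟨b, hb, rfl, rfl⟩
    · rcases hL3' with ⟨rfl, -⟩ | ⟨b', hb', -, rfl⟩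
      · rfl
      · exact absurd hLL (key2 b' hb')
    · rcases hL3' with ⟨-, rfl⟩ | ⟨b', hb', rfl, rfl⟩
      · exact absurd hLL.symm (key2 b hb)
      · by_contra hne
        have hbb : b ≠ b' := fun h' => hne (by rw [h'])
        apply h.rs.ne_bot _ (h.T_mem hL)
        rw [Subgroup.eq_bot_iff_forall]
        intro x hx
        exact h.conj_ne hb hb' hbb hx (hLL ▸ hx)
  have hfix : ∀ M, Orb B D M → conjBy M y = M := by
    intro M hM
    refine key _ _ (orb_conj h.r1 hM hy) hM fun x hx => ⟨fun h' m hm => ?_, fun h' m hm => ?_⟩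
    · have h1 := conj_comm (u := y⁻¹) (h' _ (conj_mem_conjBy hm))
      have e : y⁻¹ * (y * m * y⁻¹) * y⁻¹⁻¹ = m := by group
      have e2 : y⁻¹ * x * y⁻¹⁻¹ = x := by
        rw [inv_inv, mul_assoc, ← hyN x hx]; group
      rwa [e, e2] at h1
    · rw [mem_conjBy] at hm
      have h1 := conj_comm (u := y) (h' _ hm)
      have e : y * (y⁻¹ * m * y) * y⁻¹ = m := by group
      have e2 : y * x * y⁻¹ = x := by rw [hyN x hx]; group
      rwa [e, e2] at h1
  have hB : conjBy B y = B := hfix B (orb_left B D)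
  have hD : conjBy D y = D := hfix D (orb_right B D)
  have hDb : conjBy (conjBy D b) y = conjBy D b := hfix _ (Or.inr ⟨b, hb, rfl⟩)
  have hyb : y * b * y⁻¹ ∈ B := by
    have := conj_mem_conjBy (g := y) hb
    rwa [hB] at this
  have h1 : conjBy D (y * b * y⁻¹) = conjBy D b := by
    have e : y * b * y⁻¹ = (y * b) * y⁻¹ := rfl
    have hD' : conjBy D y⁻¹ = D := by rw [conjBy_eq_iff, inv_inv, hD]
    rw [e, ← conjBy_conjBy, hD', ← conjBy_conjBy, hDb]
  have h2 := r1_regular (RankOnePair_symm h.r1) hyb hb h1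
  rw [mul_inv_eq_iff_eq_mul] at h2
  exact h2

theorem cent (h : Conf S A B C D) {y : G} (hy : y ∈ B ⊔ D) (hyN : ∀ n ∈ A ⊔ C, y * n = n * y) {x : G} (hx : x ∈ B ⊔ D) :
    y * x = x * y := by
  have h1 : B ⊔ D ≤ Subgroup.centralizer {y} := by
    refine sup_le ?_ ?_
    · intro b hb
      rw [Subgroup.mem_centralizer_iff]
      rintro _ rfl
      exact h.cent_aux hy hyN hb
    · intro b hb
      rw [Subgroup.mem_centralizer_iff]
      rintro _ rfl
      refine h.symm.cent_aux (by rw [sup_comm]; exact hy) (fun n hn => hyN n (by rw [sup_comm]; exact hn)) hb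
  exact Subgroup.mem_centralizer_iff.mp (h1 hx) y rfl

end Conf

end Cfsg.Agent.H84
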