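import Mathlib
import Cfsg.Prelude.Def_RootSubgroups
import Cfsg.Agent.H84.Root2
set_option autoImplicit false

/-!
# Abstract root subgroups III: lines (helper84)
-/

namespace Cfsg.Agent.H84

open Cfsg
open scoped commutatorElement

variable {G : Type*} [Group G] {A B C D E F M U : Subgroup G} {S : Set (Subgroup G)}

theorem aux1 (hS : IsRootSubgroupSet S) (hM : M ∈ S) (hD : D ∈ S) (hFD : Com F D) (hF0 : F ≠ ⊥) {e u : G}
    (hu : u ∈ M) (hdu : ∀ d ∈ D, ⁅d, u⁆ = ⁅e, d⁆) (hF1 : ∀ d ∈ D, ⁅e, d⁆ ∈ F) (hF2 : ∀ y ∈ F, ∃ d ∈ D, ⁅e, d⁆ = y) :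
    RootCommutatorCase S M D ∧ ⁅M, D⁆ = F := by
  obtain ⟨y, hy, hy1⟩ := le_iff_of_bot hF0
  obtain ⟨d, hd, rfl⟩ := hF2 y hy
  have hu1 : u ≠ 1 := by
    rintro rfl
    exact hy1 (by rw [← hdu d hd]; simp)
  rcases rs_pair hS hM hD with h | h | h
  · exfalso
    rw [← hdu d hd] at hy1
    exact hy1 (commutatorElement_eq_one_iff_mul_comm.mpr (h u hu d hd).symm)
  · exfalso
    refine r1_not_com_conj' h hu hu1 ?_
    have : conjBy D u ≤ F ⊔ D := by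
      rintro _ ⟨d', hd', rfl⟩
      show u * d' * u⁻¹ ∈ _
      rw [conj_eq_comm_mul, ← commutatorElement_inv, hdu d' hd']
      exact mul_mem (Subgroup.mem_sup_left (inv_mem (hF1 d' hd'))) (Subgroup.mem_sup_right hd')
    exact (hFD.symm.sup_right (rs_comm hS hD)).mono le_rfl this
  · refine ⟨h, le_antisymm ?_ ?_⟩
    · intro c hc
      obtain ⟨d', hd', rfl⟩ := cc_exA h hu hu1 hc
      rw [← commutatorElement_inv, hdu d' hd']
      exact inv_mem (hF1 d' hd')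
    · intro c hc
      obtain ⟨d', hd', rfl⟩ := hF2 c hc
      rw [← hdu d' hd']
      exact comm_mem' hu hd'

theorem conjBy_inv_eq {g : G} (h : conjBy A g = A) : conjBy A g⁻¹ = A := by
  rw [conjBy_eq_iff, inv_inv, h]

/-- Lemma L1. -/
theorem L1 (hS : IsRootSubgroupSet S) (hA : A ∈ S) (hD : D ∈ S) (hE : E ∈ S) (hAD : IsRankOnePair A D)
    (hEA : Com E A) (hF : ⁅E, D⁆ ∈ S) : Conf S ⁅E, D⁆ A ⁅⁅E, D⁆, A⁆ D := by
  have c1 := rs_cc hS hE hD hF
  have hFE : Com ⁅E, D⁆ E := cc_comA c1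
  have hFD : Com ⁅E, D⁆ D := cc_comB c1
  have hF0 := hS.ne_bot _ hF
  obtain ⟨e, he, he1⟩ := le_iff_of_bot (hS.ne_bot _ hE)
  obtain ⟨y, hy, hy1⟩ := le_iff_of_bot hF0
  have hF1 : ∀ d ∈ D, ⁅e, d⁆ ∈ ⁅E, D⁆ := fun d hd => comm_mem he hd
  have hF2 : ∀ y ∈ ⁅E, D⁆, ∃ d ∈ D, ⁅e, d⁆ = y := fun y hy => cc_exA c1 he he1 hy
  obtain ⟨d, hd, hdy⟩ := hF2 y hy
  have hd1 : d ≠ 1 := by
    rintro rfl
    exact hy1 (by rw [← hdy]; simp)
  obtain ⟨a, ha, ha1, hda⟩ := r1_right hAD hd hd1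
  set f := ⁅d, e⁆ with hf
  have hfF : f ∈ ⁅E, D⁆ := comm_mem' he hd
  set u := a⁻¹ * f * a with hu
  have hea : a⁻¹ * e * a = e := by rw [mul_assoc, hEA e he a ha]; group
  have hefu : e * u = u * e := by
    have h1 := Conf.conj_comm (u := a⁻¹) (hFE f hfF e he)
    rw [inv_inv, hea] at h1
    exact h1.symm
  have hueD : ∀ d' ∈ D, u * e * d' = d' * (u * e) := by
    intro d' hd'
    -- `f * e = d e d⁻¹` commutes with `conjBy A d = conjBy D a`
    have h1 : a * d' * a⁻¹ ∈ conjBy A d := by rw [hda]; exact conj_mem_conjBy hd'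
    rw [mem_conjBy] at h1
    have h2 := Conf.conj_comm (u := d) (hEA e he _ h1)
    have e1 : d * (d⁻¹ * (a * d' * a⁻¹) * d) * d⁻¹ = a * d' * a⁻¹ := by group
    rw [e1, conj_eq_comm_mul d e] at h2
    have h3 := Conf.conj_comm (u := a⁻¹) h2
    have e2 : a⁻¹ * (a * d' * a⁻¹) * a⁻¹⁻¹ = d' := by group
    have e3 : a⁻¹ * (⁅d, e⁆ * e) * a⁻¹⁻¹ = u * e := by
      calc a⁻¹ * (⁅d, e⁆ * e) * a⁻¹⁻¹ = (a⁻¹ * ⁅d, e⁆ * a) * (a⁻¹ * e * a) := by group
        _ = _ := by rw [hea]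
    rwa [e2, e3] at h3
  have hdu : ∀ d' ∈ D, ⁅d', u⁆ = ⁅e, d'⁆ := by
    intro d' hd'
    have h1 := hueD d' hd'
    have h2 := hFE ⁅e, d'⁆ (comm_mem he hd') e he
    have h3 : d' * e⁻¹ * d'⁻¹ * e = ⁅e, d'⁆ := by
      have : e⁻¹ * (⁅e, d'⁆ * e) = ⁅e, d'⁆ := by rw [h2]; group
      rw [← this, commutatorElement_def]; group
    calc ⁅d', u⁆ = d' * e⁻¹ * (e * u) * d'⁻¹ * u⁻¹ := by rw [commutatorElement_def]; group
      _ = d' * e⁻¹ * d'⁻¹ * (d' * (u * e)) * d'⁻¹ * u⁻¹ := by rw [hefu]; group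
      _ = d' * e⁻¹ * d'⁻¹ * (u * e) * u⁻¹ := by rw [← h1]; group
      _ = d' * e⁻¹ * d'⁻¹ * e := by rw [← hefu]; group
      _ = _ := h3
  -- the conjugate `F^a`
  have huFa : u ∈ conjBy ⁅E, D⁆ a⁻¹ := by
    have := conj_mem_conjBy (g := a⁻¹) hfF
    rwa [inv_inv] at this
  obtain ⟨k1, k2⟩ := aux1 hS (hS.conj_mem _ hF a⁻¹) hD hFD hF0 huFa hdu hF1 hF2
  have hFFa : Com ⁅E, D⁆ (conjBy ⁅E, D⁆ a⁻¹) := by
    have := cc_comA k1
    rwa [k2] at this
  have hG : RootCommutatorCase S ⁅E, D⁆ A := by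
    rcases rs_pair hS hF hA with h | h | h
    · exfalso
      have h5 : conjBy ⁅E, D⁆ a⁻¹ = ⁅E, D⁆ := h.conjBy_eq (inv_mem ha)
      rw [h5, com_iff.mpr hFD] at k2
      exact hF0 k2.symm
    · exact absurd hFFa (r1_not_com_conj h (inv_mem ha) (inv_ne_one.mpr ha1))
    · exact h
  have hGF : Com ⁅⁅E, D⁆, A⁆ ⁅E, D⁆ := cc_comA hG
  obtain ⟨-, k4⟩ := aux1 (u := ⁅a⁻¹, f⁆) hS hG.1 hD hFD hF0 (comm_mem' hfF (inv_mem ha)) (fun d' hd' => by
    rw [← hdu d' hd']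
    have e1 : u = ⁅a⁻¹, f⁆ * f := by rw [hu, commutatorElement_def]; group
    have e2 := hFD f hfF d' hd'
    have e3 : d' * f * d'⁻¹ = f := by rw [← e2]; group
    calc ⁅d', ⁅a⁻¹, f⁆⁆ = d' * ⁅a⁻¹, f⁆ * d'⁻¹ * (f * f⁻¹) * ⁅a⁻¹, f⁆⁻¹ := by rw [commutatorElement_def]; group
      _ = d' * ⁅a⁻¹, f⁆ * d'⁻¹ * ((d' * f * d'⁻¹) * f⁻¹) * ⁅a⁻¹, f⁆⁻¹ := by rw [e3]
      _ = ⁅d', u⁆ := by rw [e1, commutatorElement_def]; group) hF1 hF2
  exact ⟨hS, hF, hA, hG.1, hD, rfl, k4⟩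

/-- every member has a rank one partner -/
def HR (S : Set (Subgroup G)) : Prop := ∀ A ∈ S, ∃ D ∈ S, IsRankOnePair A D

theorem TI (hS : IsRootSubgroupSet S) (hR : HR S) (hA : A ∈ S) (hC : C ∈ S) (hne : C ≠ A) {x : G} (hxA : x ∈ A)
    (hxC : x ∈ C) : x = 1 := by
  obtain ⟨D, hD, hAD⟩ := hR A hA
  exact rs_TI hS hA hD hAD hC hne hxA hxC

theorem TI_eq (hS : IsRootSubgroupSet S) (hR : HR S) (hA : A ∈ S) (hC : C ∈ S) {x : G} (hxA : x ∈ A)
    (hxC : x ∈ C) (hx1 : x ≠ 1) : C = A := by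
  by_contra hne
  exact hx1 (TI hS hR hA hC hne hxA hxC)

theorem TI_le (hS : IsRootSubgroupSet S) (hR : HR S) (hA : A ∈ S) (hC : C ∈ S) (h : A ≤ C) : C = A := by
  obtain ⟨x, hx, hx1⟩ := le_iff_of_bot (hS.ne_bot _ hA)
  exact TI_eq hS hR hA hC hx (h hx) hx1

structure Line (S : Set (Subgroup G)) (U : Subgroup G) : Prop where
  com : Com U U
  cover : ∀ x ∈ U, x ≠ 1 → ∃ M ∈ S, M ≤ U ∧ x ∈ M

theorem line_of_partner (hS : IsRootSubgroupSet S) (hA : A ∈ S) (hB : B ∈ linePartners S A) : Line S (A ⊔ B) := by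
  obtain ⟨⟨hBS, hBA, hBc⟩, h1, h2, h3⟩ := hB
  have hc : Com A B := com_iff.mp hBc
  refine ⟨((rs_comm hS hA).sup_left hc.symm).sup_right (hc.sup_left (rs_comm hS hBS)), fun x hx hx1 => ?_⟩
  obtain ⟨C, ⟨hC, hCU⟩, hxC⟩ := h2 x hx hx1
  exact ⟨C, hC, hCU, hxC⟩

theorem partner_of_line (hS : IsRootSubgroupSet S) (hR : HR S) (hB : B ∈ S) (hne : B ≠ A) (hL : Line S (A ⊔ B)) :
    B ∈ linePartners S A := by
  refine ⟨⟨hB, hne, com_iff.mpr (hL.com.mono le_sup_left le_sup_right)⟩, fun C hC => hC.2, fun x hx hx1 => ?_,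
    fun C hC D hD hne => ?_⟩
  · obtain ⟨M, hM, hMU, hxM⟩ := hL.cover x hx hx1
    exact ⟨M, ⟨hM, hMU⟩, hxM⟩
  · rw [Subgroup.eq_bot_iff_forall]
    rintro x ⟨hx, hx'⟩
    exact TI hS hR hC.1 hD.1 hne.symm hx hx'

/-- The line lemma. -/
theorem cc_cover (hS : IsRootSubgroupSet S) (hA : A ∈ S) (h : RootCommutatorCase S A B) : Line S (A ⊔ ⁅A, B⁆) := by
  have hAC := (cc_comA h).symm
  refine ⟨((rs_comm hS hA).sup_left hAC.symm).sup_right (hAC.sup_left (rs_comm hS h.1)), fun x hx hx1 => ?_⟩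
  obtain ⟨a, ha, c, hc, rfl⟩ := mem_sup_com hAC hx
  by_cases ha1 : a = 1
  · subst ha1; rw [one_mul]; exact ⟨_, h.1, le_sup_right, hc⟩
  · obtain ⟨b, hb, he⟩ := cc_exA h ha ha1 (c := c⁻¹) (inv_mem hc)
    refine ⟨conjBy A b, hS.conj_mem _ hA _, ?_, ?_⟩
    · rw [sup_comm, Subgroup.commutator_comm]; exact conjBy_le_comm_sup hb
    · have e : b * a * b⁻¹ = a * c := by
        rw [conj_eq_comm_mul, ← commutatorElement_inv, he, inv_inv, hAC a ha c hc]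
      rw [← e]; exact conj_mem_conjBy ha

theorem cc_ne_left (hS : IsRootSubgroupSet S) (h : RootCommutatorCase S A B) : ⁅A, B⁆ ≠ A := by
  intro he
  have := cc_comB h
  rw [he] at this
  exact cc_not_com hS h this

theorem cc_ne_right (hS : IsRootSubgroupSet S) (h : RootCommutatorCase S A B) : ⁅A, B⁆ ≠ B := by
  intro he
  have := cc_comA h
  rw [he] at this
  exact cc_not_com hS h this.symm

theorem cc_line (hS : IsRootSubgroupSet S) (hR : HR S) (hA : A ∈ S) (h : RootCommutatorCase S A B) :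
    ⁅A, B⁆ ∈ linePartners S A := partner_of_line hS hR h.1 (cc_ne_left hS h) (cc_cover hS hA h)

theorem cc_line' (hS : IsRootSubgroupSet S) (hR : HR S) (hB : B ∈ S) (h : RootCommutatorCase S A B) :
    ⁅A, B⁆ ∈ linePartners S B := by
  rw [Subgroup.commutator_comm]; exact cc_line hS hR hB (cc_symm h)

theorem linePartner_symm (hA : A ∈ S) (h : B ∈ linePartners S A) : A ∈ linePartners S B := by
  obtain ⟨⟨h1, h2, h3⟩, h4⟩ := h
  refine ⟨⟨hA, h2.symm, ?_⟩, ?_⟩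
  · rw [Subgroup.commutator_comm]; exact h3
  · rw [sup_comm]; exact h4

theorem linePartner_conj (hS : IsRootSubgroupSet S) (hR : HR S) (hA : A ∈ S) (h : B ∈ linePartners S A) (g : G) :
    conjBy B g ∈ linePartners S (conjBy A g) := by
  have hL := line_of_partner hS hA h
  refine partner_of_line hS hR (hS.conj_mem _ h.1.1 g) (fun h' => h.1.2.1 (conjBy_inj.mp h')) ?_
  rw [← conjBy_sup]
  refine ⟨hL.com.conj g, fun x hx hx1 => ?_⟩
  rw [mem_conjBy] at hx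
  obtain ⟨M, hM, hMU, hxM⟩ := hL.cover _ hx (fun h' => hx1 (by
    have e : x = g * (g⁻¹ * x * g) * g⁻¹ := by group
    rw [e, h']; simp))
  exact ⟨conjBy M g, hS.conj_mem _ hM g, conjBy_mono hMU g, mem_conjBy.mpr hxM⟩

/-- K1 -/
theorem K1 (hS : IsRootSubgroupSet S) (hR : HR S) (hL : Line S U) (hA : A ∈ S) (hAU : A ≤ U) (hD : D ∈ S)
    (hAD : IsRankOnePair A D) (hE : E ∈ S) (hEU : E ≤ U) (hEA : E ≠ A) : ¬ Com E D := by
  intro hED
  obtain ⟨a, ha, ha1⟩ := le_iff_of_bot (hS.ne_bot _ hA)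
  obtain ⟨e, he, he1⟩ := le_iff_of_bot (hS.ne_bot _ hE)
  have hae : a * e ≠ 1 := fun h => ha1 (TI hS hR hA hE hEA ha (by rw [mul_eq_one_iff_eq_inv.mp h]; exact inv_mem he))
  obtain ⟨M, hM, hMU, haM⟩ := hL.cover (a * e) (mul_mem (hAU ha) (hEU he)) hae
  have hMA : M ≠ A := by
    rintro rfl
    exact he1 (TI hS hR hA hE hEA (by
      have := mul_mem (inv_mem ha) haM
      rwa [inv_mul_cancel_left] at this) he)
  have hc : conjBy D (a * e) = conjBy D a := by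
    rw [← conjBy_conjBy, hED.symm.conjBy_eq he]
  obtain ⟨d, hd, hd1, hda⟩ := r1_left hAD ha ha1
  rcases rs_pair hS hM hD with h | h | h
  · have := h.symm.conjBy_eq haM
    rw [hc] at this
    exact ha1 (r1_norm_left hAD ha this)
  · obtain ⟨d', hd', -, hda'⟩ := r1_left h haM hae
    rw [hc, ← hda] at hda'
    have e1 : M = conjBy A (d'⁻¹ * d) := by
      rw [← conjBy_conjBy, ← hda', conjBy_conjBy, inv_mul_cancel, conjBy_one]
    by_cases h1 : d'⁻¹ * d = 1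
    · rw [h1, conjBy_one] at e1; exact hMA e1
    · refine r1_not_com_conj hAD (mul_mem (inv_mem hd') hd) h1 ?_
      rw [← e1]; exact hL.com.mono hAU hMU
  · have := cc_conj_com h (rs_comm hS hD) haM
    rw [hc] at this
    exact r1_not_com_conj' hAD ha ha1 this

/-- K3 -/
theorem K3 (hS : IsRootSubgroupSet S) (hR : HR S) (hL : Line S U) (hA : A ∈ S) (hAU : A ≤ U) (hD : D ∈ S)
    (hAD : IsRankOnePair A D) {b : G} (hb : b ∈ U) (hbA : b ∉ A) :
    ∃ a ∈ A, ∃ E ∈ S, E ≤ U ∧ a * b ∈ E ∧ RootCommutatorCase S E D := by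
  have hb1 : b ≠ 1 := fun h => hbA (h ▸ one_mem _)
  obtain ⟨B, hB, hBU, hbB⟩ := hL.cover b hb hb1
  have hBA : B ≠ A := by rintro rfl; exact hbA hbB
  rcases rs_pair hS hB hD with h | h | h
  · exact absurd h (K1 hS hR hL hA hAU hD hAD hB hBU hBA)
  · obtain ⟨d, hd, hd1, hdb⟩ := r1_left h (inv_mem hbB) (inv_ne_one.mpr hb1)
    obtain ⟨a, ha, ha1, hda⟩ := r1_right hAD hd hd1
    have h1 : Com (conjBy D (b * a)) D := by
      have h2 : Com (conjBy A d) (conjBy B d) := (hL.com.mono hAU hBU).conj d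
      rw [hda, hdb] at h2
      have h3 := h2.conj b
      rwa [conjBy_conjBy, conjBy_conjBy, mul_inv_cancel, conjBy_one] at h3
    have hab : b * a = a * b := hL.com b hb a (hAU ha)
    rw [hab] at h1
    have hm : a * b ∉ A := fun h => hbA (by
      have := mul_mem (inv_mem ha) h
      rwa [inv_mul_cancel_left] at this)
    have hm1 : a * b ≠ 1 := fun h => hm (h ▸ one_mem _)
    obtain ⟨M, hM, hMU, hmM⟩ := hL.cover (a * b) (mul_mem (hAU ha) hb) hm1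
    have hMA : M ≠ A := by rintro rfl; exact hm hmM
    rcases rs_pair hS hM hD with h' | h' | h'
    · exact absurd h' (K1 hS hR hL hA hAU hD hAD hM hMU hMA)
    · exact absurd h1.symm (r1_not_com_conj' h' hmM hm1)
    · exact ⟨a, ha, M, hM, hMU, hmM, h'⟩
  · exact ⟨1, one_mem _, B, hB, hBU, by rwa [one_mul], h⟩

/-- K4a -/
theorem K4a (hS : IsRootSubgroupSet S) (hR : HR S) (hL : Line S U) (hA : A ∈ S) (hAU : A ≤ U) (hD : D ∈ S)
    (hAD : IsRankOnePair A D) (hEU : E ≤ U) (hED : RootCommutatorCase S E D) (hM : M ∈ S) (hMU : M ≤ U)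
    {a e : G} (ha : a ∈ A) (ha1 : a ≠ 1) (he : e ∈ E) (hm : a * e ∈ M) : IsRankOnePair M D := by
  rcases rs_pair hS hM hD with h | h | h
  · by_cases hMA : M = A
    · rw [hMA]; exact hAD
    · exact absurd h (K1 hS hR hL hA hAU hD hAD hM hMU hMA)
  · exact h
  · exfalso
    have h1 := (cc_conj_com h (rs_comm hS hD) hm).conj a⁻¹
    rw [conjBy_conjBy, inv_mul_cancel_left] at h1
    obtain ⟨d, hd, hd1, hda⟩ := r1_left hAD (inv_mem ha) (inv_ne_one.mpr ha1)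
    rw [← hda] at h1
    have h2 := h1.conj d⁻¹
    rw [conjBy_conjBy, inv_mul_cancel, conjBy_one,
      (cc_conj_com hED (rs_comm hS hD) he).symm.conjBy_eq (inv_mem hd)] at h2
    have h3 := h2.conj e⁻¹
    rw [conjBy_conjBy, inv_mul_cancel, conjBy_one] at h3
    rw [(hL.com.mono hAU hEU).conjBy_eq (inv_mem he)] at h3
    exact r1_not_com hAD h3

/-- K4 -/
theorem K4 (hS : IsRootSubgroupSet S) (hR : HR S) (hL : Line S U) (hA : A ∈ S) (hAU : A ≤ U) (hD : D ∈ S)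
    (hAD : IsRankOnePair A D) (hE : E ∈ S) (hEU : E ≤ U) (hED : RootCommutatorCase S E D) :
    Conf S ⁅E, D⁆ A E D ∧ ∀ M ∈ S, M ≤ U → ∀ a ∈ A, a ≠ 1 → ∀ e ∈ E, a * e ∈ M → ∃ f ∈ ⁅E, D⁆, M = conjBy A f := by
  have hEA : Com E A := hL.com.mono hEU hAU
  have hEA' : E ≠ A := by
    rintro rfl
    obtain ⟨a, ha, ha1⟩ := le_iff_of_bot (hS.ne_bot _ hE)
    exact r1_not_com_conj' hAD ha ha1 (cc_conj_com hED (rs_comm hS hD) ha)
  have h := L1 hS hA hD hE hAD hEA hED.1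
  set F := ⁅E, D⁆ with hF
  set G1 := ⁅F, A⁆ with hG1
  have hFE : Com F E := cc_comA hED
  have hG1F : Com G1 F := h.comAC.symm
  have hG1A : Com G1 A := h.comBC.symm
  have hFD : Com F D := h.comAD
  have hEG1 : Com E G1 := by
    rw [← com_iff, Subgroup.commutator_eq_bot_iff_le_centralizer, hG1]
    intro e he
    rw [Subgroup.mem_centralizer_iff]
    intro x hx
    have k1 : F ⊔ A ≤ Subgroup.centralizer {e} := by
      refine sup_le ?_ ?_
      · intro c hc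
        rw [Subgroup.mem_centralizer_iff]
        rintro _ rfl
        exact (hFE c hc _ he).symm
      · intro c hc
        rw [Subgroup.mem_centralizer_iff]
        rintro _ rfl
        exact hEA _ he c hc
    exact (Subgroup.mem_centralizer_iff.mp (k1 (Subgroup.commutator_le_sup F A hx)) e rfl).symm
  obtain ⟨d₀, hd₀, hd₀1⟩ := le_iff_of_bot (hS.ne_bot _ hD)
  have key : ∀ M ∈ S, M ≤ U → ∀ a ∈ A, a ≠ 1 → ∀ e ∈ E, a * e ∈ M → (∃ f ∈ F, M = conjBy A f) ∧ e ∈ G1 := by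
    intro M hM hMU a ha ha1 e he haeM
    have hf₀ : ⁅d₀, e⁆ ∈ F := comm_mem' he hd₀
    obtain ⟨g, hg, hgd⟩ := cc_exB h.symm.cc hd₀ hd₀1 (c := ⁅d₀, e⁆⁻¹) (by rw [h.symm.eC]; exact inv_mem hf₀)
    have hgd' : ⁅d₀, g⁆ = ⁅d₀, e⁆ := by rw [← commutatorElement_inv, hgd, inv_inv]
    -- z = g⁻¹ e commutes with d₀
    have hz0 : d₀ * (g⁻¹ * e) * d₀⁻¹ = g⁻¹ * e := by
      have e1 : d₀ * g * d₀⁻¹ = ⁅d₀, e⁆ * g := by rw [conj_eq_comm_mul, hgd']
      have e2 : d₀ * e * d₀⁻¹ = ⁅d₀, e⁆ * e := conj_eq_comm_mul _ _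
      calc d₀ * (g⁻¹ * e) * d₀⁻¹ = (d₀ * g * d₀⁻¹)⁻¹ * (d₀ * e * d₀⁻¹) := by group
        _ = g⁻¹ * e := by rw [e1, e2]; group
    have hzA : ∀ a ∈ A, a * (g⁻¹ * e) = (g⁻¹ * e) * a := by
      intro a ha
      have e1 := hG1A (g⁻¹) (inv_mem hg) a ha
      have e2 := hEA e he a ha
      calc a * (g⁻¹ * e) = (a * g⁻¹) * e := by group
        _ = g⁻¹ * (a * e) := by rw [← e1]; group
        _ = _ := by rw [← e2]; group
    have hzX : A ⊔ D ≤ Subgroup.centralizer {g⁻¹ * e} := by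
      rw [← r1_gen hAD hd₀ hd₀1]
      have hA' : A ≤ Subgroup.centralizer {g⁻¹ * e} := by
        intro a ha
        rw [Subgroup.mem_centralizer_iff]
        rintro _ rfl
        exact (hzA a ha).symm
      have hd' : d₀ ∈ Subgroup.centralizer {g⁻¹ * e} := by
        rw [Subgroup.mem_centralizer_iff]
        rintro _ rfl
        rw [mul_inv_eq_iff_eq_mul] at hz0
        exact hz0.symm
      exact sup_le hA' (conjBy_le_of_mem hA' hd')
    have hzD : ∀ d ∈ D, d * (g⁻¹ * e) = (g⁻¹ * e) * d := fun d hd =>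
      (Subgroup.mem_centralizer_iff.mp (hzX (Subgroup.mem_sup_right hd)) _ rfl).symm
    -- a * g ∈ conjBy A f
    obtain ⟨f, hf, hfg⟩ := cc_exB h.cc ha ha1 (c := g) hg
    have hag : f * a * f⁻¹ = a * g := by
      rw [conj_eq_comm_mul, hfg]; exact hG1A g hg a ha
    have hagA : a * g ∈ conjBy A f := by rw [← hag]; exact conj_mem_conjBy ha
    have hag1 : a * g ≠ 1 := by
      rw [← hag]; intro h'
      exact ha1 (conj_eq_one_iff.mp h')
    have hAfD : IsRankOnePair (conjBy A f) D := by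
      have := r1_conj hAD f
      rwa [hFD.symm.conjBy_eq hf] at this
    have hMD : IsRankOnePair M D := K4a hS hR hL hA hAU hD hAD hEU hED hM hMU ha ha1 he haeM
    have hae1 : a * e ≠ 1 := fun h' =>
      ha1 (TI hS hR hA hE hEA' ha (by rw [mul_eq_one_iff_eq_inv.mp h']; exact inv_mem he))
    obtain ⟨d₂, hd₂, -, h2⟩ := r1_left hAfD hagA hag1
    obtain ⟨d, hd, -, h3⟩ := r1_left hMD haeM hae1
    have hz : conjBy D (g⁻¹ * e) = D := conjBy_of_comm hzD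
    have h4 : conjBy D (a * e) = conjBy D (a * g) := by
      have e1 : a * e = (a * g) * (g⁻¹ * e) := by group
      rw [e1, ← conjBy_conjBy, hz]
    rw [h4, ← h2] at h3
    have h5 : M = conjBy (conjBy A f) (d⁻¹ * d₂) := by
      rw [← conjBy_conjBy, ← h3, conjBy_conjBy, inv_mul_cancel, conjBy_one]
    have hMA : M = conjBy A f := by
      by_cases h6 : d⁻¹ * d₂ = 1
      · rw [h6, conjBy_one] at h5; exact h5
      · exfalso
        have h7 : IsRankOnePair (conjBy A f) M := by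
          rw [h5]; exact r1_conj_pair hAfD (mul_mem (inv_mem hd) hd₂) h6
        have hcomm : (a * g) * (a * e) = (a * e) * (a * g) := by
          have e1 := hG1A g hg a ha
          have e2 := hEA e he a ha
          have e3 := hEG1 e he g hg
          calc (a * g) * (a * e) = a * (g * a) * e := by group
            _ = a * a * (e * g) := by rw [e1, e3]; group
            _ = a * (e * a) * g := by rw [e2]; group
            _ = _ := by group
        have h8 : a * e ∈ conjBy M (a * g) := by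
          have := conj_mem_conjBy (g := a * g) haeM
          rwa [hcomm, mul_inv_cancel_right] at this
        have h9 := TI_eq hS hR hM (hS.conj_mem _ hM _) haeM h8 hae1
        exact hag1 (r1_norm_left h7 hagA h9)
    refine ⟨⟨f, hf, hMA⟩, ?_⟩
    have h10 : g⁻¹ * e ∈ conjBy A f := by
      rw [hMA] at haeM
      have := mul_mem (inv_mem hagA) haeM
      have e1 : (a * g)⁻¹ * (a * e) = g⁻¹ * e := by group
      rwa [e1] at this
    have h11 := r1_norm_left hAfD h10 hz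
    rw [inv_mul_eq_one] at h11
    rw [← h11]; exact hg
  have hEG : G1 = E := by
    obtain ⟨a, ha, ha1⟩ := le_iff_of_bot (hS.ne_bot _ hA)
    obtain ⟨e, he, he1⟩ := le_iff_of_bot (hS.ne_bot _ hE)
    have hae1 : a * e ≠ 1 := fun h' =>
      ha1 (TI hS hR hA hE hEA' ha (by rw [mul_eq_one_iff_eq_inv.mp h']; exact inv_mem he))
    obtain ⟨M, hM, hMU, hMae⟩ := hL.cover (a * e) (mul_mem (hAU ha) (hEU he)) hae1
    exact TI_eq hS hR hE h.hC he (key M hM hMU a ha ha1 e he hMae).2 he1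
  rw [hEG] at h
  exact ⟨h, fun M hM hMU a ha ha1 e he hae => (key M hM hMU a ha ha1 e he hae).1⟩

/-- K5 -/
theorem K5 (hS : IsRootSubgroupSet S) (hR : HR S) (hA : A ∈ S) (hB : B ∈ linePartners S A) (hD : D ∈ S)
    (hAD : IsRankOnePair A D) :
    ∃ E ∈ S, E ≠ A ∧ A ⊔ E = A ⊔ B ∧ Conf S ⁅E, D⁆ A E D ∧
      (∀ M ∈ S, M ≤ A ⊔ B → M = E ∨ ∃ f ∈ ⁅E, D⁆, M = conjBy A f) ∧ ∀ f ∈ ⁅E, D⁆, conjBy (A ⊔ B) f = A ⊔ B := by
  have hL := line_of_partner hS hA hB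
  have hBS := hB.1.1
  have hBA : B ≠ A := hB.1.2.1
  obtain ⟨b, hb, hb1⟩ := le_iff_of_bot (hS.ne_bot _ hBS)
  have hbA : b ∉ A := fun h => hb1 (TI hS hR hA hBS hBA h hb)
  obtain ⟨a, ha, E, hE, hEU, habE, hED⟩ := K3 hS hR hL hA le_sup_left hD hAD (Subgroup.mem_sup_right hb) hbA
  obtain ⟨h, hM⟩ := K4 hS hR hL hA le_sup_left hD hAD hE hEU hED
  have hconj : ∀ f ∈ ⁅E, D⁆, conjBy A f ≤ A ⊔ E := by
    intro f hf
    refine (conjBy_le_comm_sup hf).trans ?_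
    rw [h.eC, sup_comm]
  have hEA : E ≠ A := by
    rintro rfl
    exact hbA (by
      have := mul_mem (inv_mem ha) habE
      rwa [inv_mul_cancel_left] at this)
  have hU : A ⊔ E = A ⊔ B := by
    refine le_antisymm (sup_le le_sup_left hEU) (sup_le le_sup_left ?_)
    by_cases ha1 : a = 1
    · rw [ha1, one_mul] at habE
      rw [TI_eq hS hR hE hBS habE hb hb1]; exact le_sup_right
    · obtain ⟨f, hf, hBf⟩ := hM B hBS le_sup_right a⁻¹ (inv_mem ha) (inv_ne_one.mpr ha1) (a * b) habE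
        (by rwa [inv_mul_cancel_left])
      rw [hBf]; exact hconj f hf
  refine ⟨E, hE, hEA, hU, h, fun M hMS hMU => ?_, fun f hf => ?_⟩
  · obtain ⟨m, hm, hm1⟩ := le_iff_of_bot (hS.ne_bot _ hMS)
    have hm' := hMU hm
    rw [← hU] at hm'
    obtain ⟨a', ha', e', he', rfl⟩ := mem_sup_com (hL.com.mono le_sup_left hEU) hm'
    by_cases h1 : a' = 1
    · left
      subst h1
      rw [one_mul] at hm hm1
      exact TI_eq hS hR hE hMS he' hm hm1
    · right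
      exact hM M hMS hMU a' ha' h1 e' he' hm
  · rw [← hU]
    have key : ∀ f ∈ ⁅E, D⁆, conjBy (A ⊔ E) f ≤ A ⊔ E := by
      intro f hf
      rw [conjBy_sup]
      refine sup_le (hconj f hf) ?_
      rw [h.comAC.symm.conjBy_eq hf]
      exact le_sup_right
    refine le_antisymm (key f hf) ?_
    have h1 := conjBy_mono (key f⁻¹ (inv_mem hf)) f
    rwa [conjBy_conjBy, mul_inv_cancel, conjBy_one] at h1

/-! ### double transitivity on a line -/

theorem mem_normalizer_of_conjBy {g : G} (h : conjBy U g = U) : g ∈ Subgroup.normalizer (U : Set G) := by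
  rw [Subgroup.mem_normalizer_iff]
  intro x
  constructor
  · intro hx
    rw [← h]; exact conj_mem_conjBy hx
  · intro hx
    have h1 := conj_mem_conjBy (g := g⁻¹) hx
    rw [conjBy_inv_eq h] at h1
    have e : g⁻¹ * (g * x * g⁻¹) * g⁻¹⁻¹ = x := by group
    rwa [e] at h1

theorem conjBy_of_mem_normalizer {g : G} (h : g ∈ Subgroup.normalizer (U : Set G)) : conjBy U g = U := by
  rw [Subgroup.mem_normalizer_iff] at h
  ext x
  rw [mem_conjBy, h]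
  have e : g * (g⁻¹ * x * g) * g⁻¹ = x := by group
  rw [e]

theorem line_two_trans (hS : IsRootSubgroupSet S) (hR : HR S) (hA : A ∈ S) (hB : B ∈ linePartners S A)
    {C₁ C₂ D₁ D₂ : Subgroup G} (hC₁ : C₁ ∈ membersIn S (A ⊔ B)) (hC₂ : C₂ ∈ membersIn S (A ⊔ B))
    (hD₁ : D₁ ∈ membersIn S (A ⊔ B)) (hD₂ : D₂ ∈ membersIn S (A ⊔ B)) (hC : C₁ ≠ C₂) (hDD : D₁ ≠ D₂) :
    ∃ x ∈ ⨆ E ∈ normalizingMembers S (A ⊔ B), E, conjBy C₁ x = D₁ ∧ conjBy C₂ x = D₂ := by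
  obtain ⟨D, hD, hAD⟩ := hR A hA
  obtain ⟨E, hE, hEA, hUE, h, hM, hN⟩ := K5 hS hR hA hB hD hAD
  have hLE : A ∈ linePartners S E := by
    refine linePartner_symm hA (partner_of_line hS hR hE hEA ?_)
    rw [hUE]; exact line_of_partner hS hA hB
  obtain ⟨D', hD', hED'⟩ := hR E hE
  obtain ⟨E', hE', hEE', hUE', h', hM', hN'⟩ := K5 hS hR hE hLE hD' hED'
  have hUE'' : E ⊔ A = A ⊔ B := by rw [sup_comm, hUE]
  rw [hUE''] at hM' hN' hUE'
  set K := ⨆ E ∈ normalizingMembers S (A ⊔ B), E with hK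
  have hFK : ⁅E, D⁆ ≤ K := by
    refine le_iSup₂_of_le ⁅E, D⁆ ⟨h.hA, fun f hf => mem_normalizer_of_conjBy (hN f hf)⟩ le_rfl
  have hFK' : ⁅E', D'⁆ ≤ K := by
    refine le_iSup₂_of_le ⁅E', D'⁆ ⟨h'.hA, fun f hf => mem_normalizer_of_conjBy (hN' f hf)⟩ le_rfl
  have hEmem : E ∈ membersIn S (A ⊔ B) := ⟨hE, by rw [← hUE]; exact le_sup_right⟩
  -- A is conjugate to E under K
  have hAE : ∃ k ∈ K, conjBy A k = E := by
    by_cases hAE' : A = E'
    · obtain ⟨f, hf, hf1⟩ := le_iff_of_bot (hS.ne_bot _ h.hA)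
      have hne : conjBy A f ≠ A := by
        intro heq
        obtain ⟨a, ha, ha1⟩ := le_iff_of_bot (hS.ne_bot _ hA)
        have h1 : f * a * f⁻¹ ∈ A := by rw [← heq]; exact conj_mem_conjBy ha
        rw [conj_eq_comm_mul] at h1
        have h2 : ⁅f, a⁆ ∈ A := by
          have := mul_mem h1 (inv_mem ha)
          rwa [mul_inv_cancel_right] at this
        have h3 : ⁅f, a⁆ ∈ E := by rw [← h.eC]; exact comm_mem hf ha
        have h4 := TI hS hR hA hE hEA h2 h3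
        rw [commutatorElement_eq_one_iff_mul_comm] at h4
        exact hf1 (h.inj ha ha1 hf h4)
      have hle : conjBy A f ≤ A ⊔ B := by
        rw [← hN f hf]; exact conjBy_mono le_sup_left f
      rcases hM' _ (hS.conj_mem _ hA f) hle with h5 | ⟨f', hf', h5⟩
      · exact absurd (h5.trans hAE'.symm) hne
      · refine ⟨f'⁻¹ * f, mul_mem (inv_mem (hFK' hf')) (hFK hf), ?_⟩
        rw [← conjBy_conjBy, h5, conjBy_conjBy, inv_mul_cancel, conjBy_one]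
    · rcases hM' A hA le_sup_left with h5 | ⟨f', hf', h5⟩
      · exact absurd h5 hAE'
      · refine ⟨f'⁻¹, inv_mem (hFK' hf'), ?_⟩
        rw [← conjBy_inj (g := f'), conjBy_conjBy, mul_inv_cancel, conjBy_one]; exact h5
  have hall : ∀ M ∈ membersIn S (A ⊔ B), ∃ k ∈ K, conjBy M k = E := by
    rintro M ⟨hMS, hMU⟩
    rcases hM M hMS hMU with rfl | ⟨f, hf, rfl⟩
    · exact ⟨1, one_mem _, conjBy_one _⟩
    · obtain ⟨k, hk, hkE⟩ := hAE
      refine ⟨k * f⁻¹, mul_mem hk (inv_mem (hFK hf)), ?_⟩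
      rw [conjBy_conjBy, inv_mul_cancel_right, hkE]
  have hKmem : ∀ k ∈ K, ∀ M ∈ membersIn S (A ⊔ B), conjBy M k ∈ membersIn S (A ⊔ B) := by
    rintro k hk M ⟨hMS, hMU⟩
    have hkn : k ∈ Subgroup.normalizer ((A ⊔ B : Subgroup G) : Set G) := by
      have : K ≤ Subgroup.normalizer ((A ⊔ B : Subgroup G) : Set G) := iSup₂_le fun E hE => hE.2
      exact this hk
    refine ⟨hS.conj_mem _ hMS k, ?_⟩
    rw [← conjBy_of_mem_normalizer hkn]; exact conjBy_mono hMU k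
  obtain ⟨k₁, hk₁, e₁⟩ := hall C₁ hC₁
  obtain ⟨k₂, hk₂, e₂⟩ := hall D₁ hD₁
  have h1 : conjBy C₂ k₁ ≠ E := by
    intro h'; rw [← e₁] at h'; exact hC (conjBy_inj.mp h').symm
  have h2 : conjBy D₂ k₂ ≠ E := by
    intro h'; rw [← e₂] at h'; exact hDD (conjBy_inj.mp h').symm
  obtain ⟨f₁, hf₁, e₃⟩ := (hM _ (hKmem k₁ hk₁ C₂ hC₂).1 (hKmem k₁ hk₁ C₂ hC₂).2).resolve_left h1
  obtain ⟨f₂, hf₂, e₄⟩ := (hM _ (hKmem k₂ hk₂ D₂ hD₂).1 (hKmem k₂ hk₂ D₂ hD₂).2).resolve_left h2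
  have hfE : conjBy E (f₂ * f₁⁻¹) = E := h.comAC.symm.conjBy_eq (mul_mem hf₂ (inv_mem hf₁))
  refine ⟨k₂⁻¹ * (f₂ * f₁⁻¹) * k₁, mul_mem (mul_mem (inv_mem hk₂) (mul_mem (hFK hf₂) (inv_mem (hFK hf₁)))) hk₁, ?_, ?_⟩
  · rw [← conjBy_conjBy, e₁, ← conjBy_conjBy, hfE, ← e₂, conjBy_conjBy, inv_mul_cancel, conjBy_one]
  · rw [← conjBy_conjBy, e₃, conjBy_conjBy]
    have e : k₂⁻¹ * (f₂ * f₁⁻¹) * f₁ = k₂⁻¹ * f₂ := by group
    rw [e, ← conjBy_conjBy, ← e₄, conjBy_conjBy, inv_mul_cancel, conjBy_one]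

/-! ### special rank one pairs -/

theorem Conf.special (h : Conf S A B C D) : IsSpecialRankOnePair B D := by
  refine ⟨h.r1, fun b hb hb1 d hd hd1 hbd => ?_⟩
  have hAC : conjBy A b⁻¹ = conjBy C d⁻¹ := h.conj_eq (inv_mem hb) (inv_mem hd) hbd.symm
  -- the correspondence `a ↔ c`
  have key1 : ∀ a ∈ A, ∀ c ∈ C, b⁻¹ * a * b = a * c → d⁻¹ * c * d = a * c →
      (d⁻¹ * b * d) * a * (d⁻¹ * b * d)⁻¹ = (b⁻¹ * d⁻¹ * b) * a * (b⁻¹ * d⁻¹ * b)⁻¹ ∧
      (d⁻¹ * b * d) * c * (d⁻¹ * b * d)⁻¹ = (b⁻¹ * d⁻¹ * b) * c * (b⁻¹ * d⁻¹ * b)⁻¹ := by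
    intro a ha c hc e1 e2
    have hda : d * a * d⁻¹ = a := by rw [← h.comAD a ha d hd]; group
    have hda' : d⁻¹ * a * d = a := by rw [mul_assoc, h.comAD a ha d hd]; group
    have hbc : b * c * b⁻¹ = c := by rw [h.comBC b hb c hc]; group
    have hbc' : b⁻¹ * c * b = c := by rw [mul_assoc, ← h.comBC b hb c hc]; group
    have hac := h.comAC a ha c hc
    have e3 : b * a * b⁻¹ = a * c⁻¹ := by
      have : b * (b⁻¹ * a * b) * b⁻¹ = a := by group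
      rw [e1] at this
      have h2 : b * (a * c) * b⁻¹ = (b * a * b⁻¹) * (b * c * b⁻¹) := by group
      rw [h2, hbc] at this
      exact eq_mul_inv_of_mul_eq this
    have e4 : d * c * d⁻¹ = a⁻¹ * c := by
      have : d * (d⁻¹ * c * d) * d⁻¹ = c := by group
      rw [e2] at this
      have h2 : d * (a * c) * d⁻¹ = (d * a * d⁻¹) * (d * c * d⁻¹) := by group
      rw [h2, hda] at this
      exact eq_inv_mul_of_mul_eq this
    constructor
    · calc (d⁻¹ * b * d) * a * (d⁻¹ * b * d)⁻¹ = d⁻¹ * (b * (d * a * d⁻¹) * b⁻¹) * d := by group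
        _ = (d⁻¹ * a * d) * (d⁻¹ * c * d)⁻¹ := by rw [hda, e3]; group
        _ = c⁻¹ := by rw [hda', e2, hac]; group
        _ = b⁻¹ * c⁻¹ * b := by
          have : b⁻¹ * c⁻¹ * b = (b⁻¹ * c * b)⁻¹ := by group
          rw [this, hbc']
        _ = b⁻¹ * ((d⁻¹ * a * d) * (d⁻¹ * c * d)⁻¹) * b := by rw [hda', e2, hac]; group
        _ = b⁻¹ * (d⁻¹ * (a * c⁻¹) * d) * b := by group
        _ = _ := by rw [← e3]; group
    · calc (d⁻¹ * b * d) * c * (d⁻¹ * b * d)⁻¹ = d⁻¹ * (b * (d * c * d⁻¹) * b⁻¹) * d := by group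
        _ = d⁻¹ * ((b * a * b⁻¹)⁻¹ * (b * c * b⁻¹)) * d := by rw [e4]; group
        _ = (d⁻¹ * c * d) * (d⁻¹ * a * d)⁻¹ * (d⁻¹ * c * d) := by rw [e3, hbc]; group
        _ = a * c * c := by rw [e2, hda']; group
        _ = (b⁻¹ * a * b) * (b⁻¹ * c * b) := by rw [e1, hbc']
        _ = b⁻¹ * (a * c) * b := by group
        _ = b⁻¹ * (d⁻¹ * c * d) * b := by rw [e2]
        _ = b⁻¹ * (d⁻¹ * (b * c * b⁻¹) * d) * b := by rw [hbc]
        _ = _ := by group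
  have exc : ∀ a ∈ A, ∃ c ∈ C, b⁻¹ * a * b = a * c ∧ d⁻¹ * c * d = a * c := by
    intro a ha
    have h1 : b⁻¹ * a * b = a * (a⁻¹ * (b⁻¹ * a * b)) := by group
    set c := a⁻¹ * (b⁻¹ * a * b) with hc
    have hcC : c ∈ C := by
      have : c = ⁅a⁻¹, b⁻¹⁆ := by rw [hc, commutatorElement_def]; group
      rw [this, ← h.eC]; exact comm_mem (inv_mem ha) (inv_mem hb)
    refine ⟨c, hcC, h1, ?_⟩
    have h2 : b⁻¹ * a * b ∈ conjBy C d⁻¹ := by
      rw [← hAC]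
      have := conj_mem_conjBy (g := b⁻¹) ha
      rwa [inv_inv] at this
    rw [h1, mem_conjBy, inv_inv] at h2
    have hda : d * a * d⁻¹ = a := by rw [← h.comAD a ha d hd]; group
    have h3 : d * (a * c) * d⁻¹ = a * ⁅d, c⁆ * c := by
      calc d * (a * c) * d⁻¹ = (d * a * d⁻¹) * (d * c * d⁻¹) := by group
        _ = _ := by rw [hda, conj_eq_comm_mul]; group
    rw [h3] at h2
    have h4 : a * ⁅d, c⁆ ∈ C := by
      have := mul_mem h2 (inv_mem hcC)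
      rwa [mul_inv_cancel_right] at this
    have h5 : a * ⁅d, c⁆ ∈ A := mul_mem ha (by rw [← h.eA]; exact comm_mem' hcC hd)
    have h6 := h.inf h5 h4
    rw [h6, one_mul] at h3
    have h7 : a * c = d⁻¹ * (d * (a * c) * d⁻¹) * d := by group
    rw [h7, h3]
  have exa : ∀ c ∈ C, ∃ a ∈ A, b⁻¹ * a * b = a * c ∧ d⁻¹ * c * d = a * c := by
    intro c hc
    have h1 : d⁻¹ * c * d = (d⁻¹ * c * d * c⁻¹) * c := by group
    set a := d⁻¹ * c * d * c⁻¹ with ha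
    have haA : a ∈ A := by
      have : a = ⁅d⁻¹, c⁆ := by rw [ha, commutatorElement_def]; group
      rw [this, ← h.eA]; exact comm_mem' hc (inv_mem hd)
    refine ⟨a, haA, ?_, h1⟩
    have h2 : d⁻¹ * c * d ∈ conjBy A b⁻¹ := by
      rw [hAC]
      have := conj_mem_conjBy (g := d⁻¹) hc
      rwa [inv_inv] at this
    rw [h1, mem_conjBy, inv_inv] at h2
    have hda : b * c * b⁻¹ = c := by rw [h.comBC b hb c hc]; group
    have h3 : b * (a * c) * b⁻¹ = ⁅b, a⁆ * a * c := by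
      calc b * (a * c) * b⁻¹ = (b * a * b⁻¹) * (b * c * b⁻¹) := by group
        _ = _ := by rw [hda, conj_eq_comm_mul]
    rw [h3] at h2
    have hbaC : ⁅b, a⁆ ∈ C := by rw [← h.eC]; exact comm_mem' haA hb
    have h4 : ⁅b, a⁆ * c ∈ A := by
      rw [mul_assoc, h.comAC a haA c hc, ← mul_assoc] at h2
      have := mul_mem h2 (inv_mem haA)
      rwa [mul_inv_cancel_right] at this
    have h6 := h.inf h4 (mul_mem hbaC hc)
    have h3' : ⁅b, a⁆ * a * c = a := by rw [mul_assoc, h.comAC a haA c hc, ← mul_assoc, h6, one_mul]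
    rw [h3'] at h3
    have h7 : b⁻¹ * (b * (a * c) * b⁻¹) * b = a * c := by group
    rw [h3] at h7; exact h7
  have hy : ∀ n ∈ A ⊔ C, (d⁻¹ * b * d) * n * (d⁻¹ * b * d)⁻¹ = (b⁻¹ * d⁻¹ * b) * n * (b⁻¹ * d⁻¹ * b)⁻¹ := by
    intro n hn
    obtain ⟨a, ha, c, hc, rfl⟩ := mem_sup_com h.comAC hn
    obtain ⟨c', hc', e1, e2⟩ := exc a ha
    obtain ⟨a', ha', e3, e4⟩ := exa c hc
    have k1 := (key1 a ha c' hc' e1 e2).1
    have k2 := (key1 a' ha' c hc e3 e4).2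
    calc (d⁻¹ * b * d) * (a * c) * (d⁻¹ * b * d)⁻¹ = ((d⁻¹ * b * d) * a * (d⁻¹ * b * d)⁻¹) * ((d⁻¹ * b * d) * c * (d⁻¹ * b * d)⁻¹) := by group
      _ = _ := by rw [k1, k2]; group
  set u := d⁻¹ * b * d with hu
  set v := b⁻¹ * d⁻¹ * b with hv
  have hbX : b ∈ B ⊔ D := Subgroup.mem_sup_left hb
  have hdX : d ∈ B ⊔ D := Subgroup.mem_sup_right hd
  have huX : u ∈ B ⊔ D := mul_mem (mul_mem (inv_mem hdX) hbX) hdX
  have hvX : v ∈ B ⊔ D := mul_mem (mul_mem (inv_mem hbX) (inv_mem hdX)) hbX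
  have hyN : ∀ n ∈ A ⊔ C, (v⁻¹ * u) * n = n * (v⁻¹ * u) := by
    intro n hn
    have h1 := hy n hn
    calc (v⁻¹ * u) * n = v⁻¹ * (u * n * u⁻¹) * u := by group
      _ = _ := by rw [h1]; group
  have hcent := fun x hx => h.cent (mul_mem (inv_mem hvX) huX) hyN (x := x) hx
  have hu' : u ∈ conjBy B d⁻¹ := by
    have := conj_mem_conjBy (g := d⁻¹) hb
    rwa [inv_inv] at this
  have hv' : v ∈ conjBy B d⁻¹ := by
    rw [hbd]
    have := conj_mem_conjBy (g := b⁻¹) (inv_mem hd)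
    rwa [inv_inv] at this
  have h1 := mul_mem (inv_mem hv') hu'
  rw [mem_conjBy, inv_inv] at h1
  have h2 : d * (v⁻¹ * u) * d⁻¹ = v⁻¹ * u := by rw [← hcent d hdX]; group
  rw [h2] at h1
  have h3 := r1_norm_left h.r1 h1 (conjBy_of_comm fun x hx => (hcent x (Subgroup.mem_sup_right hx)).symm)
  rw [inv_mul_eq_one] at h3
  exact h3.symm

/-! ### classes -/

theorem class_conj_R (hc : IsRootSubgroupClass S) (hr : ∃ A ∈ S, ∃ B ∈ S, IsRankOnePair A B) : HR S := by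
  obtain ⟨A, hA, B, hB, hAB⟩ := hr
  intro C hC
  obtain ⟨g, rfl⟩ := hc.2.2 A hA C hC
  exact ⟨conjBy B g, hc.1.conj_mem _ hB g, r1_conj hAB g⟩

theorem cc_conj (hS : IsRootSubgroupSet S) (h : RootCommutatorCase S A B) (hA : A ∈ S) (hB : B ∈ S) (g : G) :
    RootCommutatorCase S (conjBy A g) (conjBy B g) := by
  refine rs_cc hS (hS.conj_mem _ hA g) (hS.conj_mem _ hB g) ?_
  rw [← conjBy_commutator]; exact hS.conj_mem _ h.1 g

theorem nd_R (hc : IsRootSubgroupClass S) (hnd : IsNondegenerateRootSet S) : HR S := by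
  obtain ⟨A, hA, B, hB, hAB⟩ := hnd.2.1
  intro C hC
  obtain ⟨g, rfl⟩ := hc.2.2 A hA C hC
  exact ⟨conjBy B g, hc.1.conj_mem _ hB g, r1_conj hAB g⟩

theorem nd_cc (hc : IsRootSubgroupClass S) (hnd : IsNondegenerateRootSet S) (hA : A ∈ S) :
    ∃ B ∈ S, RootCommutatorCase S A B := by
  obtain ⟨A', hA', B, hB, hAB⟩ := hnd.2.2
  obtain ⟨g, rfl⟩ := hc.2.2 A' hA' A hA
  exact ⟨conjBy B g, hc.1.conj_mem _ hB g, cc_conj hc.1 hAB hA' hB g⟩

theorem nd_line (hc : IsRootSubgroupClass S) (hnd : IsNondegenerateRootSet S) (hA : A ∈ S) :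
    ∃ B, B ∈ linePartners S A := by
  obtain ⟨B, hB, h⟩ := nd_cc hc hnd hA
  exact ⟨_, cc_line hc.1 (nd_R hc hnd) hA h⟩

/-- the main existence result for a rank one pair in a nondegenerate class: `E`, `F = ⁅E,D⁆`. -/
theorem nd_conf (hc : IsRootSubgroupClass S) (hnd : IsNondegenerateRootSet S) (hA : A ∈ S) (hD : D ∈ S)
    (hAD : IsRankOnePair A D) : ∃ E ∈ linePartners S A, Conf S ⁅E, D⁆ A E D := by
  have hR := nd_R hc hnd
  obtain ⟨B, hB⟩ := nd_line hc hnd hA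
  obtain ⟨E, hE, hEA, hU, h, -, -⟩ := K5 hc.1 hR hA hB hD hAD
  refine ⟨E, partner_of_line hc.1 hR hE hEA ?_, h⟩
  rw [hU]; exact line_of_partner hc.1 hA hB

end Cfsg.Agent.H84
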