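import Mathlib
import Cfsg.Prelude.Def_RootSubgroups
import Cfsg.Agent.H84.Root3
set_option autoImplicit false

/-!
# Abstract root subgroups IV: connectivity, generation, weak TI subsets (helper84)
-/

namespace Cfsg.Agent.H84

open Cfsg
open scoped commutatorElement

variable {G : Type*} [Group G] {A B C D E F M U : Subgroup G} {S : Set (Subgroup G)}

/-- induction over the generation by members -/
theorem gen_induction (hS : IsRootSubgroupSet S) {P : G → Prop} (h1 : P 1)
    (hmul : ∀ x ∈ rootElements S, ∀ y, P y → P (x * y)) (g : G) : P g := by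
  have hg : g ∈ (⨆ A ∈ S, A) := by rw [hS.generates]; exact Subgroup.mem_top g
  have hcl : (⨆ A ∈ S, A) = Subgroup.closure (rootElements S) := by
    apply le_antisymm
    · refine iSup₂_le fun A hA a ha => ?_
      by_cases ha1 : a = 1
      · rw [ha1]; exact one_mem _
      · exact Subgroup.subset_closure ⟨ha1, A, hA, ha⟩
    · rw [Subgroup.closure_le]
      rintro x ⟨-, A, hA, hx⟩
      exact (le_iSup₂_of_le A hA le_rfl : A ≤ _) hx
  rw [hcl] at hg
  refine Subgroup.closure_induction_left (p := fun (x : G) _ => P x) h1 ?_ ?_ hg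
  · intro x hx y _ hy
    exact hmul x hx y hy
  · rintro x ⟨hx1, A, hA, hxA⟩ y _ hy
    exact hmul x⁻¹ ⟨inv_ne_one.mpr hx1, A, hA, inv_mem hxA⟩ y hy

theorem EAdj_conj (hS : IsRootSubgroupSet S) (hR : HR S) (h : EAdj S S A B) (g : G) :
    EAdj S S (conjBy A g) (conjBy B g) :=
  ⟨hS.conj_mem _ h.1 g, hS.conj_mem _ h.2.1 g, linePartner_conj hS hR h.1 h.2.2 g⟩

theorem EAdj_symm (h : EAdj S S A B) : EAdj S S B A := ⟨h.2.1, h.1, linePartner_symm h.1 h.2.2⟩

theorem E_symm {A B : Subgroup G} (h : Relation.ReflTransGen (EAdj S S) A B) : Relation.ReflTransGen (EAdj S S) B A := by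
  induction h with
  | refl => exact Relation.ReflTransGen.refl
  | tail _ h2 ih => exact Relation.ReflTransGen.head (EAdj_symm h2) ih

theorem E_conj (hS : IsRootSubgroupSet S) (hR : HR S) {A B : Subgroup G} (h : Relation.ReflTransGen (EAdj S S) A B) (g : G) :
    Relation.ReflTransGen (EAdj S S) (conjBy A g) (conjBy B g) :=
  h.lift (fun X => conjBy X g) fun _ _ h => EAdj_conj hS hR h g

theorem E_connected (hc : IsRootSubgroupClass S) (hnd : IsNondegenerateRootSet S) (hA : A ∈ S) (hB : B ∈ S) :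
    Relation.ReflTransGen (EAdj S S) A B := by
  have hS := hc.1
  have hR := nd_R hc hnd
  have hcc : ∀ A ∈ S, ∀ B ∈ S, RootCommutatorCase S A B → Relation.ReflTransGen (EAdj S S) A B := by
    intro A hA B hB h
    have h1 : EAdj S S A ⁅A, B⁆ := ⟨hA, h.1, cc_line hS hR hA h⟩
    have h2 : EAdj S S B ⁅A, B⁆ := ⟨hB, h.1, cc_line' hS hR hB h⟩
    exact (Relation.ReflTransGen.single h1).tail (EAdj_symm h2)
  have step : ∀ A ∈ S, ∀ x ∈ rootElements S, Relation.ReflTransGen (EAdj S S) A (conjBy A x) := by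
    rintro A hA x ⟨hx1, D, hD, hxD⟩
    have hAD : Com A D ∨ Relation.ReflTransGen (EAdj S S) A D := by
      rcases rs_pair hS hA hD with h | h | h
      · exact Or.inl h
      · right
        obtain ⟨E, hE, hconf⟩ := nd_conf hc hnd hA hD h
        have h1 : EAdj S S A E := ⟨hA, hE.1.1, hE⟩
        refine (Relation.ReflTransGen.single h1).trans (hcc E hE.1.1 D hD ?_)
        exact rs_cc hS hE.1.1 hD hconf.hA
      · exact Or.inr (hcc A hA D hD h)
    rcases hAD with h | h
    · rw [h.conjBy_eq hxD]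
    · have h2 := E_conj hS hR h x
      rw [conjBy_self hxD] at h2
      exact h.trans (E_symm h2)
  obtain ⟨g, rfl⟩ := hc.2.2 A hA B hB
  clear hB
  refine gen_induction hS (P := fun g => ∀ A ∈ S, Relation.ReflTransGen (EAdj S S) A (conjBy A g)) ?_ ?_ g A hA
  · intro A hA; rw [conjBy_one]
  · intro x hx y hy A hA
    rw [← conjBy_conjBy]
    exact (hy A hA).trans (step _ (hS.conj_mem _ hA y) x hx)

theorem D_connected (hc : IsRootSubgroupClass S) (hnd : IsNondegenerateRootSet S) (hA : A ∈ S) (hB : B ∈ S) :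
    Relation.ReflTransGen (DAdj S) A B := by
  have h := E_connected hc hnd hA hB
  induction h with
  | refl => exact Relation.ReflTransGen.refl
  | tail _ h ih => exact Relation.ReflTransGen.tail (ih h.1) ⟨h.1, h.2.1, h.2.2.1.2.1.symm, h.2.2.1.2.2⟩

/-- S5042 -/
theorem nd_generates (hc : IsRootSubgroupClass S) (hnd : IsNondegenerateRootSet S) (hA : A ∈ S) (hB : B ∈ S)
    (hAB : IsRankOnePair A B) : (⨆ C ∈ linePartners S A, C) ⊔ B = ⊤ := by
  have hS := hc.1
  have hR := nd_R hc hnd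
  set G₀ := (⨆ C ∈ linePartners S A, C) ⊔ B with hG₀
  have hLA : ∀ C ∈ linePartners S A, C ≤ G₀ := fun C hC =>
    (le_iSup₂_of_le C hC le_rfl : C ≤ ⨆ C ∈ linePartners S A, C).trans le_sup_left
  have hBG : B ≤ G₀ := le_sup_right
  -- A and line partners are conjugate in G₀
  have main : ∀ C ∈ linePartners S A, ∃ g ∈ G₀, C = conjBy A g := by
    intro C hC
    obtain ⟨E, hE, hEA, hU, h, hM, hN⟩ := K5 hS hR hA hC hB hAB
    have hEl : E ∈ linePartners S A := partner_of_line hS hR hE hEA (by rw [hU]; exact line_of_partner hS hA hC)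
    have hEG := hLA E hEl
    have hFG : ⁅E, B⁆ ≤ G₀ := (Subgroup.commutator_le_sup E B).trans (sup_le hEG hBG)
    -- E is conjugate to A in G₀
    have hEA' : ∃ g ∈ G₀, E = conjBy A g := by
      obtain ⟨D₀, hD₀, hED₀⟩ := hR E hE
      obtain ⟨Q, hQ, hQE, hUQ, hq, hMq, hNq⟩ := K5 hS hR hE (linePartner_symm hA hEl) hD₀ hED₀
      -- conjugating so that Q = A
      have hQU : Q ≤ A ⊔ C := by
        rw [← hU, sup_comm A E, ← hUQ]; exact le_sup_right
      obtain ⟨f, hf, hQf⟩ := (hM Q hQ hQU).resolve_left hQE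
      -- F'' = conj of F' by f⁻¹
      have hF'' : conjBy ⁅Q, D₀⁆ f⁻¹ ≤ G₀ := by
        refine hLA _ ?_
        have h1 : conjBy ⁅Q, D₀⁆ f⁻¹ ∈ linePartners S (conjBy Q f⁻¹) := by
          refine linePartner_conj hS hR hQ ?_ _
          exact cc_line hS hR hQ (rs_cc hS hQ hD₀ hq.hA)
        rwa [hQf, conjBy_conjBy, inv_mul_cancel, conjBy_one, ← hQf] at h1
      -- there is x ∈ F' with A = ... : R any member
      have hEf : conjBy E f = E := h.comAC.symm.conjBy_eq hf
      -- pick f₁ ∈ F nontrivial: R = conjBy A f₁ ≠ A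
      obtain ⟨f₁, hf₁, hf₁1⟩ := le_iff_of_bot (hS.ne_bot _ h.hA)
      have hne : conjBy A f₁ ≠ A := by
        intro heq
        obtain ⟨a, ha, ha1⟩ := le_iff_of_bot (hS.ne_bot _ hA)
        have h1 : f₁ * a * f₁⁻¹ ∈ A := by rw [← heq]; exact conj_mem_conjBy ha
        rw [conj_eq_comm_mul] at h1
        have h2 : ⁅f₁, a⁆ ∈ A := by
          have := mul_mem h1 (inv_mem ha)
          rwa [mul_inv_cancel_right] at this
        have h3 : ⁅f₁, a⁆ ∈ E := by rw [← h.eC]; exact comm_mem hf₁ ha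
        have h4 := TI hS hR hA hE hEA h2 h3
        rw [commutatorElement_eq_one_iff_mul_comm] at h4
        exact hf₁1 (h.inj ha ha1 hf₁ h4)
      -- R' = conjBy (conjBy A f₁) f is a member ≠ Q
      have hR' : conjBy A (f * f₁) ≤ E ⊔ A := by
        rw [sup_comm, hU, ← hN _ (mul_mem hf hf₁)]; exact conjBy_mono le_sup_left _
      have hne' : conjBy A (f * f₁) ≠ Q := by
        rw [hQf, ← conjBy_conjBy, Ne, conjBy_inj]; exact hne
      obtain ⟨x, hx, hRx⟩ := (hMq _ (hS.conj_mem _ hA _) hR').resolve_left hne'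
      -- conjBy A f₁ = conjBy (conjBy E x) f⁻¹ = conjBy E (f⁻¹ x f)
      have h5 : conjBy A f₁ = conjBy E (f⁻¹ * x * f) := by
        have : conjBy E (f⁻¹ * x * f) = conjBy (conjBy (conjBy E f) x) f⁻¹ := by
          rw [conjBy_conjBy, conjBy_conjBy, mul_assoc]
        rw [this, hEf, ← hRx, conjBy_conjBy, inv_mul_cancel_left]
      have h6 : f⁻¹ * x * f ∈ G₀ := by
        apply hF''
        rw [mem_conjBy]
        have e : f⁻¹⁻¹ * (f⁻¹ * x * f) * f⁻¹ = x := by group
        rw [e]; exact hx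
      refine ⟨(f⁻¹ * x * f)⁻¹ * f₁, mul_mem (inv_mem h6) (hFG hf₁), ?_⟩
      rw [← conjBy_conjBy, h5, conjBy_conjBy, inv_mul_cancel, conjBy_one]
    rcases hM C hC.1.1 le_sup_right with rfl | ⟨f, hf, rfl⟩
    · exact hEA'
    · exact ⟨f, hFG hf, rfl⟩
  -- propagate along the connected graph
  have prop : ∀ M, Relation.ReflTransGen (EAdj S S) A M → ∃ g ∈ G₀, M = conjBy A g := by
    intro M hM
    induction hM with
    | refl => exact ⟨1, one_mem _, (conjBy_one A).symm⟩
    | tail hXY hYZ ih =>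
      rename_i Y Z
      obtain ⟨g, hg, rfl⟩ := ih
      have h1 := linePartner_conj hS hR hYZ.1 hYZ.2.2 g⁻¹
      rw [conjBy_conjBy, inv_mul_cancel, conjBy_one] at h1
      obtain ⟨g', hg', h2⟩ := main _ h1
      refine ⟨g * g', mul_mem hg hg', ?_⟩
      rw [← conjBy_conjBy, ← h2, conjBy_conjBy, mul_inv_cancel, conjBy_one]
  have hAG : A ≤ G₀ := by
    -- A is a line partner of a line partner
    obtain ⟨C, hC⟩ := nd_line hc hnd hA
    obtain ⟨g, hg, rfl⟩ := main C hC
    have h1 := linePartner_conj hS hR hC.1.1 (linePartner_symm hA hC) g⁻¹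
    rw [conjBy_conjBy, inv_mul_cancel, conjBy_one] at h1
    have h2 := conjBy_le_of_mem (hLA _ h1) hg
    rwa [conjBy_conjBy, mul_inv_cancel, conjBy_one] at h2
  rw [eq_top_iff, ← hS.generates]
  refine iSup₂_le fun M hM => ?_
  obtain ⟨g, hg, rfl⟩ := prop M (E_connected hc hnd hA hM)
  exact conjBy_le_of_mem hAG hg

/-- S5040 -/
theorem weakTI_abelian (hc : IsRootSubgroupClass S) (hnd : IsNondegenerateRootSet S) {Δ : Set (Subgroup G)}
    (hΔ : IsWeakTISubset S Δ) (hA : A ∈ Δ) (hB : B ∈ Δ) : Com A B := by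
  have hS := hc.1
  have hR := nd_R hc hnd
  obtain ⟨hΔS, -, hne, hTI⟩ := hΔ
  -- the stabilizer
  have stab : ∀ A ∈ Δ, ∀ C ∈ S, Com A C → ∀ c ∈ C, (fun A => conjBy A c) '' Δ = Δ := by
    intro A hA C hC hAC c hcC
    by_cases hc1 : c = 1
    · subst hc1
      ext M
      constructor
      · rintro ⟨N, hN, rfl⟩; simpa only [conjBy_one] using hN
      · intro hM; exact ⟨M, hM, conjBy_one M⟩
    · rcases hTI c ⟨hc1, C, hC, hcC⟩ with h | h
      · exact h
      · exfalso
        exact Set.disjoint_left.mp h ⟨A, hA, hAC.conjBy_eq hcC⟩ hA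
  let N : Subgroup G :=
    { carrier := {g | (fun A => conjBy A g) '' Δ = Δ}
      one_mem' := by
        show (fun A => conjBy A 1) '' Δ = Δ
        ext M
        constructor
        · rintro ⟨N, hN, rfl⟩; simpa only [conjBy_one] using hN
        · intro hM; exact ⟨M, hM, conjBy_one M⟩
      mul_mem' := by
        intro a b ha hb
        have ha' : (fun A => conjBy A a) '' Δ = Δ := ha
        have hb' : (fun A => conjBy A b) '' Δ = Δ := hb
        show (fun A => conjBy A (a * b)) '' Δ = Δ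
        have : (fun A : Subgroup G => conjBy A (a * b)) = (fun A => conjBy A a) ∘ (fun A => conjBy A b) := by
          funext A; exact (conjBy_conjBy A b a).symm
        rw [this, Set.image_comp, hb', ha']
      inv_mem' := by
        intro a ha
        have ha' : (fun A => conjBy A a) '' Δ = Δ := ha
        show (fun A => conjBy A a⁻¹) '' Δ = Δ
        have : (fun A : Subgroup G => conjBy A a⁻¹) '' ((fun A => conjBy A a) '' Δ) = Δ := by
          rw [← Set.image_comp]
          ext M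
          constructor
          · rintro ⟨N, hN, rfl⟩
            show conjBy (conjBy N a) a⁻¹ ∈ Δ
            rwa [conjBy_conjBy, inv_mul_cancel, conjBy_one]
          · intro hM
            refine ⟨M, hM, ?_⟩
            show conjBy (conjBy M a) a⁻¹ = M
            rw [conjBy_conjBy, inv_mul_cancel, conjBy_one]
        rwa [ha'] at this }
  have memN : ∀ g, g ∈ N ↔ (fun A => conjBy A g) '' Δ = Δ := fun g => Iff.rfl
  have hN : ∀ A ∈ Δ, ∀ C ∈ S, Com A C → C ≤ N := fun A hA C hC hAC c hcC => stab A hA C hC hAC c hcC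
  have hNtop : N ≠ ⊤ := by
    intro htop
    apply hne
    refine Set.Subset.antisymm hΔS fun M hM => ?_
    obtain ⟨g, rfl⟩ := hc.2.2 A (hΔS hA) M hM
    have : g ∈ N := by rw [htop]; exact Subgroup.mem_top g
    rw [memN] at this
    rw [← this]; exact ⟨A, hA, rfl⟩
  -- no rank one pair inside Δ
  have noR1 : ∀ A ∈ Δ, ∀ B ∈ Δ, ¬ IsRankOnePair A B := by
    intro A hA B hB hAB
    apply hNtop
    rw [eq_top_iff, ← nd_generates hc hnd (hΔS hA) (hΔS hB) hAB]
    refine sup_le (iSup₂_le fun C hC => ?_) ?_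
    · exact hN A hA C hC.1.1 (com_iff.mp hC.1.2.2)
    · exact hN B hB B (hΔS hB) (rs_comm hS (hΔS hB))
  rcases rs_pair hS (hΔS hA) (hΔS hB) with h | h | h
  · exact h
  · exact absurd h (noR1 A hA B hB)
  · exfalso
    -- C = ⁅A,B⁆, B ∈ linePartners C; choose D with ⁅D, C⁆ = B
    have hAS := hΔS hA
    have hBS := hΔS hB
    have hCS := h.1
    have hBC : B ∈ linePartners S ⁅A, B⁆ := linePartner_symm hBS (cc_line' hS hR hBS h)
    obtain ⟨D₀, hD₀, hCD₀⟩ := hR _ hCS
    obtain ⟨Q, hQ, hQC, hUQ, hq, hMq, hNq⟩ := K5 hS hR hCS hBC hD₀ hCD₀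
    have hQU : Q ≤ ⁅A, B⁆ ⊔ B := by rw [← hUQ]; exact le_sup_right
    obtain ⟨x, -, hx1, hx2⟩ := line_two_trans hS hR hCS hBC (C₁ := ⁅A, B⁆) (C₂ := Q) (D₁ := ⁅A, B⁆) (D₂ := B)
      ⟨hCS, le_sup_left⟩ ⟨hQ, hQU⟩ ⟨hCS, le_sup_left⟩ ⟨hBS, le_sup_right⟩ hQC.symm hBC.1.2.1.symm
    have hconf : Conf S B A ⁅A, B⁆ (conjBy ⁅Q, D₀⁆ x) := by
      refine ⟨hS, hBS, hAS, hCS, hS.conj_mem _ hq.hA x, Subgroup.commutator_comm _ _, ?_⟩
      have h1 : ⁅conjBy ⁅A, B⁆ x, conjBy ⁅Q, D₀⁆ x⁆ = conjBy Q x := by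
        rw [← conjBy_commutator, Subgroup.commutator_comm, hq.eC]
      rwa [hx1, hx2] at h1
    have hr := hconf.r1
    have hD := hconf.hD
    obtain ⟨d, hd, hd1⟩ := le_iff_of_bot (r1_ne_bot' hr)
    have hdN : d ∈ N := hN B hB _ hD hconf.comAD hd
    rw [memN] at hdN
    have hAd : conjBy A d ∈ Δ := by rw [← hdN]; exact ⟨A, hA, rfl⟩
    exact noR1 A hA _ hAd (r1_conj_pair hr hd hd1)

end Cfsg.Agent.H84
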