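import Mathlib
import Cfsg.Prelude.Def_RootSubgroups
import Cfsg.Agent.H84.Root4
set_option autoImplicit false

/-!
# Abstract root subgroups V: special rank one pairs (helper84)
-/

namespace Cfsg.Agent.H84

open Cfsg
open scoped commutatorElement

variable {G : Type*} [Group G] {A B C D E F M U : Subgroup G} {S : Set (Subgroup G)}

theorem r1_not_right (h : IsRankOnePair A D) {d : G} (hd : d ∈ D) : conjBy A d ≠ D := by
  intro h1
  rw [conjBy_eq_iff, conjBy_self (inv_mem hd)] at h1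
  exact h.ne h1

theorem g1 (hAD : IsRankOnePair A D) (hCD : IsRankOnePair C D) (hAC : Com A C) {a c d : G} (ha : a ∈ A) (hc : c ∈ C)
    (hd : d ∈ D) (h1 : conjBy A d = conjBy D a) (h2 : conjBy C d = conjBy D c) :
    Com D (conjBy D (a⁻¹ * c)) ∧ ∃ e ∈ D, conjBy A e = conjBy D a⁻¹ ∧ conjBy C e = conjBy D c⁻¹ := by
  have k0 := hAC.conj d
  rw [h1, h2] at k0
  have k1 : Com D (conjBy D (a⁻¹ * c)) := by
    have := k0.conj a⁻¹
    rwa [conjBy_conjBy, conjBy_conjBy, inv_mul_cancel, conjBy_one] at this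
  refine ⟨k1, ?_⟩
  have ha1 : a ≠ 1 := by
    rintro rfl
    rw [conjBy_one] at h1
    exact r1_not_right hAD hd h1
  have hc1 : c ≠ 1 := by
    rintro rfl
    rw [conjBy_one] at h2
    exact r1_not_right hCD hd h2
  obtain ⟨e, he, he1, h3⟩ := r1_left hAD (inv_mem ha) (inv_ne_one.mpr ha1)
  obtain ⟨e', he', he1', h4⟩ := r1_left hCD (inv_mem hc) (inv_ne_one.mpr hc1)
  have k2 : Com (conjBy D c⁻¹) (conjBy D a⁻¹) := by
    have := k1.conj c⁻¹
    rw [conjBy_conjBy] at this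
    have e1 : c⁻¹ * (a⁻¹ * c) = a⁻¹ := by
      have := hAC _ (inv_mem ha) _ hc
      rw [this]; group
    rwa [e1] at this
  rw [← h3, ← h4] at k2
  have k3 : Com C (conjBy A (e'⁻¹ * e)) := by
    have := k2.conj e'⁻¹
    rwa [conjBy_conjBy, conjBy_conjBy, inv_mul_cancel, conjBy_one] at this
  have hee : e'⁻¹ * e = 1 := by
    by_contra hne
    obtain ⟨a₂, ha₂, -, h5⟩ := r1_right hAD (mul_mem (inv_mem he') he) hne
    rw [h5] at k3
    have := k3.conj a₂⁻¹
    rw [conjBy_conjBy, inv_mul_cancel, conjBy_one, hAC.symm.conjBy_eq (inv_mem ha₂)] at this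
    exact r1_not_com hCD this
  rw [inv_mul_eq_one] at hee
  subst hee
  exact ⟨e', he', h3, h4⟩

/-- characterization of special pairs -/
theorem special_of_inv (h : IsRankOnePair A D)
    (hinv : ∀ a ∈ A, ∀ d ∈ D, a ≠ 1 → d ≠ 1 → conjBy A d = conjBy D a → conjBy A d⁻¹ = conjBy D a⁻¹) :
    IsSpecialRankOnePair A D := by
  refine ⟨h, fun a ha ha1 d hd hd1 had => ?_⟩
  have had' : conjBy A d = conjBy D a := by
    have := hinv a⁻¹ (inv_mem ha) d⁻¹ (inv_mem hd) (inv_ne_one.mpr ha1) (inv_ne_one.mpr hd1) had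
    rwa [inv_inv, inv_inv] at this
  have hL : IsRankOnePair (conjBy A d⁻¹) D := by
    have := r1_conj h d⁻¹
    rwa [conjBy_self (inv_mem hd)] at this
  have hx : d⁻¹ * a * d ∈ conjBy A d⁻¹ := by
    have := conj_mem_conjBy (g := d⁻¹) ha
    rwa [inv_inv] at this
  have hy : a⁻¹ * d⁻¹ * a ∈ conjBy A d⁻¹ := by
    rw [had]
    have := conj_mem_conjBy (g := a⁻¹) (inv_mem hd)
    rwa [inv_inv] at this
  refine r1_regular' hL hx hy ?_
  have e1 : conjBy D (d⁻¹ * a * d) = A := by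
    rw [← conjBy_conjBy, conjBy_self hd, ← conjBy_conjBy, ← had', conjBy_conjBy, inv_mul_cancel, conjBy_one]
  have e2 : conjBy D (a⁻¹ * d⁻¹ * a) = A := by
    rw [← conjBy_conjBy, ← had', conjBy_conjBy, inv_mul_cancel_right, conjBy_self (inv_mem ha)]
  rw [e1, e2]

theorem special_symm (h : IsSpecialRankOnePair A D) : IsSpecialRankOnePair D A := by
  refine ⟨RankOnePair_symm h.1, fun d hd hd1 a ha ha1 had => ?_⟩
  have := h.2 a ha ha1 d hd hd1 had.symm
  have h2 := congrArg (fun x => x⁻¹) this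
  simp only [mul_inv_rev, inv_inv] at h2
  rw [mul_assoc, mul_assoc]
  exact h2.symm

/-- special pairs satisfy the inversion property -/
theorem special_inv (h : IsSpecialRankOnePair A D) {a d : G} (ha : a ∈ A) (hd : d ∈ D) (ha1 : a ≠ 1) (hd1 : d ≠ 1)
    (had : conjBy A d = conjBy D a) : conjBy A d⁻¹ = conjBy D a⁻¹ := by
  -- b⁻¹ a b = a⁻¹ b⁻¹ a for the pair (a⁻¹, d⁻¹)
  have h1 := h.2 a⁻¹ (inv_mem ha) (inv_ne_one.mpr ha1) d⁻¹ (inv_mem hd) (inv_ne_one.mpr hd1)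
    (by rw [inv_inv, inv_inv]; exact had)
  rw [inv_inv, inv_inv] at h1
  -- d * a⁻¹ * d⁻¹ = a * d * a⁻¹; conjugate `D` by it
  have e1 : conjBy D (d * a⁻¹ * d⁻¹) = conjBy (conjBy D a⁻¹) d := by
    rw [← conjBy_conjBy, conjBy_self (inv_mem hd), conjBy_conjBy]
  have e2 : conjBy D (a * d * a⁻¹) = conjBy (conjBy (conjBy D a⁻¹) d) a := by
    rw [conjBy_conjBy, conjBy_conjBy, mul_assoc]
  rw [h1, e2] at e1
  have hX : Orb A D (conjBy (conjBy D a⁻¹) d) := by
    rw [conjBy_conjBy]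
    exact orb_conj h.1 (orb_right A D) (mul_mem (Subgroup.mem_sup_right hd) (inv_mem (Subgroup.mem_sup_left ha)))
  rcases hX with hX | ⟨a', ha', hX⟩
  · rw [← conjBy_inj (g := d), hX, conjBy_conjBy, mul_inv_cancel, conjBy_one]
  · exfalso
    rw [hX, conjBy_conjBy] at e1
    have := r1_regular' h.1 (mul_mem ha ha') ha' e1
    exact ha1 (mul_eq_right.mp this)

/-- The good case. -/
theorem good_special (hAD : IsRankOnePair A D) (hCD : IsRankOnePair C D) (hAC : Com A C) (hne : A ≠ C)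
    (hA : Com A A) (hD : Com D D) : IsSpecialRankOnePair A D := by
  refine special_of_inv hAD fun a ha d hd ha1 hd1 h1 => ?_
  obtain ⟨c, hc, hc1, h2⟩ := r1_right hCD hd hd1
  obtain ⟨k1, e, he, h3, h4⟩ := g1 hAD hCD hAC ha hc hd h1 h2
  set u := a⁻¹ * c with hu
  have huA : conjBy A u = A := by
    rw [hu, ← conjBy_conjBy, hAC.conjBy_eq hc, conjBy_self (inv_mem ha)]
  have huC : conjBy C u = C := by
    rw [hu, ← conjBy_conjBy, conjBy_self hc, hAC.symm.conjBy_eq (inv_mem ha)]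
  have hac := hAC _ (inv_mem ha) _ hc
  have e1 : conjBy A (u * d * u⁻¹) = conjBy C d := by
    rw [← conjBy_conjBy, conjBy_inv_eq huA, ← conjBy_conjBy, h1, conjBy_conjBy, h2]
    congr 1
    rw [hu, hac]; group
  have e2 : conjBy C (u * e * u⁻¹) = conjBy A e := by
    rw [← conjBy_conjBy, conjBy_inv_eq huC, ← conjBy_conjBy, h4, conjBy_conjBy, h3]
    congr 1
    rw [hu]; group
  have hue : u * e * u⁻¹ ∈ conjBy D u := conj_mem_conjBy he
  have e3 : conjBy A (u * (d * e) * u⁻¹) = conjBy A (d * e) := by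
    have e4 : u * (d * e) * u⁻¹ = (u * e * u⁻¹) * (u * d * u⁻¹) := by
      rw [hD d hd e he]; group
    rw [e4, ← conjBy_conjBy, e1, conjBy_conjBy, ← k1 d hd _ hue, ← conjBy_conjBy, e2, conjBy_conjBy]
  have hf : d * e = 1 := by
    by_contra hf
    obtain ⟨a₂, ha₂, -, h5⟩ := r1_right hAD (mul_mem hd he) hf
    rw [← conjBy_conjBy, conjBy_inv_eq huA, ← conjBy_conjBy, h5, conjBy_conjBy] at e3
    have e4 : u * a₂ = a₂ * u := by
      have h6 := hA a₂ ha₂ _ (inv_mem ha)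
      have h7 := hAC a₂ ha₂ c hc
      rw [hu]
      calc a⁻¹ * c * a₂ = a⁻¹ * (a₂ * c) := by rw [h7]; group
        _ = _ := by rw [← mul_assoc, ← h6]; group
    rw [e4, ← conjBy_conjBy, conjBy_inj, hu, ← conjBy_conjBy, conjBy_eq_iff, inv_inv, ← h1, ← h2, conjBy_inj] at e3
    exact hne e3.symm
  have hed : e = d⁻¹ := (inv_eq_of_mul_eq_one_right hf).symm
  rw [← hed]; exact h3

/-! ### S5037 -/

/-- An equivariant family of sets attached to subgroups. -/
def Equiv (P : Subgroup G → Set (Subgroup G)) : Prop := ∀ A B : Subgroup G, ∀ g : G, B ∈ P A → conjBy B g ∈ P (conjBy A g)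

theorem Equiv.sub_iff {P : Subgroup G → Set (Subgroup G)} (hP : Equiv P) {A C : Subgroup G} (g : G) :
    P (conjBy A g) ⊆ P (conjBy C g) ↔ P A ⊆ P C := by
  have key : ∀ (A C : Subgroup G) (g : G), P A ⊆ P C → P (conjBy A g) ⊆ P (conjBy C g) := by
    intro A C g h B hB
    have h1 := hP _ _ g⁻¹ hB
    rw [conjBy_conjBy, inv_mul_cancel, conjBy_one] at h1
    have h2 := hP _ _ g (h h1)
    rwa [conjBy_conjBy, mul_inv_cancel, conjBy_one] at h2
  refine ⟨fun h => ?_, key A C g⟩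
  have := key _ _ g⁻¹ h
  rwa [conjBy_conjBy, conjBy_conjBy, inv_mul_cancel, conjBy_one, conjBy_one] at this

theorem sub_eq {P : Subgroup G → Set (Subgroup G)} (hP : Equiv P) (hAD : IsRankOnePair A D) (hCD : IsRankOnePair C D)
    (hAC : Com A C) (h : P A ⊆ P C) : P C ⊆ P A := by
  obtain ⟨d, hd, hd1⟩ := le_iff_of_bot (r1_ne_bot' hAD)
  obtain ⟨a, ha, ha1, h1⟩ := r1_right hAD hd hd1
  obtain ⟨c, hc, hc1, h2⟩ := r1_right hCD hd hd1
  obtain ⟨-, e, he, h3, h4⟩ := g1 hAD hCD hAC ha hc hd h1 h2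
  have k1 := (hP.sub_iff e).mpr h
  rw [h3, h4] at k1
  -- P (conjBy D a⁻¹) ⊆ P (conjBy D c⁻¹)
  have k2 : P (conjBy D c) ⊆ P (conjBy D a) := by
    have k3 := (hP.sub_iff (a * c)).mpr k1
    rw [conjBy_conjBy, conjBy_conjBy] at k3
    have e1 : a * c * a⁻¹ = c := by rw [hAC a ha c hc]; group
    have e2 : a * c * c⁻¹ = a := by group
    rwa [e1, e2] at k3
  rw [← h1, ← h2] at k2
  exact (hP.sub_iff d).mp k2

theorem mem_cm : B ∈ centralizingMembers S A ↔ B ∈ S ∧ Com B A := by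
  constructor
  · rintro ⟨h1, h2⟩
    exact ⟨h1, fun b hb a ha => (Subgroup.mem_centralizer_iff.mp (h2 hb) a ha).symm⟩
  · rintro ⟨h1, h2⟩
    exact ⟨h1, fun b hb => Subgroup.mem_centralizer_iff.mpr fun a ha => (h2 b hb a ha).symm⟩

theorem equiv_cm (hS : IsRootSubgroupSet S) : Equiv (centralizingMembers S) := by
  intro A B g h
  rw [mem_cm] at h ⊢
  exact ⟨hS.conj_mem _ h.1 g, h.2.conj g⟩

theorem equiv_r1 (hS : IsRootSubgroupSet S) : Equiv (rankOnePartners S) := by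
  rintro A B g ⟨h1, h2⟩
  exact ⟨hS.conj_mem _ h1 g, r1_conj h2 g⟩

theorem cc_not_r1 (hS : IsRootSubgroupSet S) (hA : A ∈ S) (hD : D ∈ S) (h : RootCommutatorCase S A D) :
    ¬ IsRankOnePair A D := by
  intro h'
  obtain ⟨a, ha, ha1⟩ := le_iff_of_bot (hS.ne_bot _ hA)
  exact r1_not_com_conj' h' ha ha1 (cc_conj_com h (rs_comm hS hD) ha)

/-- uniqueness of the member of a line in the commutator case -/
theorem K5u (hS : IsRootSubgroupSet S) (hR : HR S) (hA : A ∈ S) (hB : B ∈ linePartners S A) (hD : D ∈ S)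
    (hAD : IsRankOnePair A D) {M M' : Subgroup G} (hM : M ∈ S) (hMU : M ≤ A ⊔ B) (hM' : M' ∈ S) (hMU' : M' ≤ A ⊔ B)
    (h : RootCommutatorCase S M D) (h' : RootCommutatorCase S M' D) : M = M' := by
  obtain ⟨E, hE, hEA, hU, hc, hmem, hN⟩ := K5 hS hR hA hB hD hAD
  have key : ∀ M ∈ S, M ≤ A ⊔ B → RootCommutatorCase S M D → M = E := by
    intro M hM hMU h
    rcases hmem M hM hMU with h1 | ⟨f, hf, rfl⟩
    · exact h1
    · exfalso
      refine cc_not_r1 hS hM hD h ?_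
      have := r1_conj hAD f
      rwa [hc.comAD.symm.conjBy_eq hf] at this
  rw [key M hM hMU h, key M' hM' hMU' h']

theorem not_cc_of_sub (hc : IsRootSubgroupClass S) (hnd : IsNondegenerateRootSet S) (hA : A ∈ S) (hC : C ∈ S)
    (hsub : rankOnePartners S A ⊆ rankOnePartners S C) (h : RootCommutatorCase S A C) : False := by
  have hS := hc.1
  have hR := nd_R hc hnd
  set E := ⁅A, C⁆ with hE
  have hES : E ∈ S := h.1
  have hEC : E ∈ linePartners S C := cc_line' hS hR hC h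
  have hEA : E ∈ linePartners S A := cc_line hS hR hA h
  have claimX : ∀ D ∈ S, IsRankOnePair A D → RootCommutatorCase S E D := by
    intro D hD hAD
    have hCD : IsRankOnePair C D := (hsub ⟨hD, hAD⟩).2
    obtain ⟨E₀, hE₀, hE₀C, hU, hconf, -, -⟩ := K5 hS hR hC hEC hD hCD
    have hccE₀ : RootCommutatorCase S E₀ D := hconf.symm.cc
    by_cases hEE : E₀ = E
    · rw [← hEE]; exact hccE₀
    · exfalso
      have hE₀U : E₀ ≤ C ⊔ E := by rw [← hU]; exact le_sup_right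
      obtain ⟨m, hm, hm1⟩ := le_iff_of_bot (hS.ne_bot _ hE₀)
      obtain ⟨c, hc', e, he, rfl⟩ := mem_sup_com (cc_comB h).symm (hE₀U hm)
      by_cases hc1 : c = 1
      · subst hc1
        rw [one_mul] at hm hm1
        exact hEE (TI_eq hS hR hES hE₀ he hm hm1)
      · obtain ⟨a, ha, hae⟩ := cc_exB h hc' hc1 (c := e) he
        have h1 : c * e ∈ conjBy C a := by
          have h2 : a * c * a⁻¹ = c * e := by
            rw [conj_eq_comm_mul, hae]; exact cc_comB h e he c hc'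
          rw [← h2]; exact conj_mem_conjBy hc'
        have hE₀a : E₀ = conjBy C a := (TI_eq hS hR (hS.conj_mem _ hC a) hE₀ h1 hm hm1)
        have h3 : IsRankOnePair A (conjBy D a⁻¹) := by
          have := r1_conj hAD a⁻¹
          rwa [conjBy_self (inv_mem ha)] at this
        have h4 : IsRankOnePair C (conjBy D a⁻¹) := (hsub ⟨hS.conj_mem _ hD _, h3⟩).2
        have h5 := r1_conj h4 a
        rw [conjBy_conjBy, mul_inv_cancel, conjBy_one, ← hE₀a] at h5
        exact cc_not_r1 hS hE₀ hD hccE₀ h5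
  obtain ⟨D, hD, hAD⟩ := hR A hA
  have hED := claimX D hD hAD
  obtain ⟨E₁, hE₁, hE₁A, hU, hconf, hmem, hN⟩ := K5 hS hR hA hEA hD hAD
  have hEU : E ≤ A ⊔ E := le_sup_right
  have hE₁U : E₁ ≤ A ⊔ E := by rw [← hU]; exact le_sup_right
  have hEE₁ : E = E₁ := K5u hS hR hA hEA hD hAD hES hEU hE₁ hE₁U hED hconf.symm.cc
  -- a third member
  obtain ⟨f₁, hf₁, hf₁1⟩ := le_iff_of_bot (hS.ne_bot _ hconf.hA)
  have hne : conjBy A f₁ ≠ A := by
    intro heq
    obtain ⟨a, ha, ha1⟩ := le_iff_of_bot (hS.ne_bot _ hA)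
    have h1 : f₁ * a * f₁⁻¹ ∈ A := by rw [← heq]; exact conj_mem_conjBy ha
    rw [conj_eq_comm_mul] at h1
    have h2 : ⁅f₁, a⁆ ∈ A := by
      have := mul_mem h1 (inv_mem ha)
      rwa [mul_inv_cancel_right] at this
    have h3 : ⁅f₁, a⁆ ∈ E₁ := by rw [← hconf.eC]; exact comm_mem hf₁ ha
    have h4 := TI hS hR hA hE₁ hE₁A h2 h3
    rw [commutatorElement_eq_one_iff_mul_comm] at h4
    exact hf₁1 (hconf.inj ha ha1 hf₁ h4)
  have hE'r : IsRankOnePair (conjBy A f₁) D := by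
    have := r1_conj hAD f₁
    rwa [hconf.comAD.symm.conjBy_eq hf₁] at this
  have hE'E : conjBy A f₁ ≠ E := by
    intro heq
    rw [heq] at hE'r
    exact cc_not_r1 hS hES hD hED hE'r
  have hE'U : conjBy A f₁ ≤ A ⊔ E := by
    rw [← hN f₁ hf₁]; exact conjBy_mono le_sup_left f₁
  have hE'S := hS.conj_mem _ hA f₁
  obtain ⟨x, -, hx1, hx2⟩ := line_two_trans hS hR hA hEA (C₁ := A) (C₂ := E) (D₁ := A) (D₂ := conjBy A f₁)
    ⟨hA, le_sup_left⟩ ⟨hES, le_sup_right⟩ ⟨hA, le_sup_left⟩ ⟨hE'S, hE'U⟩ hEA.1.2.1.symm (Ne.symm hne)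
  have hD' := hS.conj_mem _ hD x
  have hAD' : IsRankOnePair A (conjBy D x) := by
    have := r1_conj hAD x
    rwa [hx1] at this
  have h6 := claimX _ hD' hAD'
  have h7 := cc_conj hS hED hES hD x
  rw [hx2] at h7
  exact hE'E (K5u hS hR hA hEA hD' hAD' hES hEU hE'S hE'U h6 h7).symm

end Cfsg.Agent.H84
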