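import Mathlib
import Cfsg.Prelude.Def_RootSubgroups
import Cfsg.Agent.H84.Root5
set_option autoImplicit false

/-!
# Abstract root subgroups VI: perfectness of special rank one groups, quasisimplicity (helper84)
-/

namespace Cfsg.Agent.H84

open Cfsg
open scoped commutatorElement

variable {G : Type*} [Group G] {A B C D E F M U : Subgroup G} {S : Set (Subgroup G)}

theorem conj_mul_inv_mem {X : Subgroup G} {x y : G} (hx : x ∈ X) (hy : y ∈ X) : x * y * x⁻¹ * y⁻¹ ∈ ⁅X, X⁆ := by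
  rw [← commutatorElement_def]; exact Subgroup.commutator_mem_commutator hx hy

/-- the key identity: all non-identity elements of `B` with `b₁ ≠ b₂⁻¹` are congruent modulo `X'`. -/
theorem special_congr (h : IsSpecialRankOnePair A B) (hA : Com A A) (hB : Com B B) {b₁ b₂ : G} (h1 : b₁ ∈ B)
    (h2 : b₂ ∈ B) (h11 : b₁ ≠ 1) (h21 : b₂ ≠ 1) (h12 : b₁ * b₂ ≠ 1) : b₂⁻¹ * b₁ ∈ ⁅A ⊔ B, A ⊔ B⁆ := by
  obtain ⟨a₁, ha₁, ha₁1, e1⟩ := r1_right h.1 h1 h11
  obtain ⟨a₂, ha₂, ha₂1, e2⟩ := r1_right h.1 h2 h21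
  obtain ⟨a₃, ha₃, ha₃1, e3⟩ := r1_right h.1 (mul_mem h1 h2) h12
  have i1 := special_inv h ha₁ h1 ha₁1 h11 e1
  have i2 := special_inv h ha₂ h2 ha₂1 h21 e2
  -- special identity: b a b⁻¹ = a b⁻¹ a⁻¹  (for the pair (a⁻¹, b⁻¹)), i.e. `b a⁻¹ b⁻¹ = a b a⁻¹`
  have s1 : b₁ * a₁ * b₁⁻¹ = a₁ * b₁⁻¹ * a₁⁻¹ := by
    have := h.2 a₁⁻¹ (inv_mem ha₁) (inv_ne_one.mpr ha₁1) b₁⁻¹ (inv_mem h1) (inv_ne_one.mpr h11)
      (by rw [inv_inv, inv_inv]; exact e1)
    have := congrArg (fun x => x⁻¹) this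
    simp only [mul_inv_rev, inv_inv] at this
    rw [mul_assoc, mul_assoc]; exact this
  have s2 : b₂⁻¹ * a₂ * b₂ = a₂⁻¹ * b₂⁻¹ * a₂ := h.2 a₂ ha₂ ha₂1 b₂ h2 h21 i2
  have s2' : a₂ * b₂⁻¹ * a₂ = b₂⁻¹ * a₂ * b₂⁻¹ := by
    calc a₂ * b₂⁻¹ * a₂ = a₂ * (b₂⁻¹ * a₂ * b₂) * b₂⁻¹ := by group
      _ = _ := by rw [s2]; group
  set x := a₂ * (b₂⁻¹ * a₃ * b₂) * a₂⁻¹ with hx
  set y := a₁ * (b₁⁻¹ * a₃ * b₁) * a₁⁻¹ with hy
  have hxB : x ∈ B := by
    have k1 : conjBy (conjBy A b₂⁻¹) a₂ = B := by rw [i2, conjBy_conjBy, mul_inv_cancel, conjBy_one]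
    have k2 : x ∈ conjBy (conjBy A b₂⁻¹) a₂ := by
      have := conj_mem_conjBy (g := b₂⁻¹) ha₃
      rw [inv_inv] at this
      exact conj_mem_conjBy this
    rwa [k1] at k2
  have hyB : y ∈ B := by
    have k1 : conjBy (conjBy A b₁⁻¹) a₁ = B := by rw [i1, conjBy_conjBy, mul_inv_cancel, conjBy_one]
    have k2 : y ∈ conjBy (conjBy A b₁⁻¹) a₁ := by
      have := conj_mem_conjBy (g := b₁⁻¹) ha₃
      rw [inv_inv] at this
      exact conj_mem_conjBy this
    rwa [k1] at k2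
  have key : b₂⁻¹ * b₁ * y = x := by
    refine r1_regular h.1 (mul_mem (mul_mem (inv_mem h2) h1) hyB) hxB ?_
    -- conjBy A y = conjBy B (a₁ * b₁⁻¹ * a₃ * a₁)
    have f1 : conjBy A y = conjBy B (a₁ * b₁⁻¹ * a₃ * a₁) := by
      have : y = a₁ * b₁⁻¹ * a₃ * (b₁ * a₁⁻¹) := by rw [hy]; group
      rw [this, ← conjBy_conjBy, ← conjBy_conjBy A, conjBy_self (inv_mem ha₁), e1, conjBy_conjBy]
    have f2 : conjBy A x = conjBy B (a₂ * b₂⁻¹ * a₃ * a₂) := by
      have : x = a₂ * b₂⁻¹ * a₃ * (b₂ * a₂⁻¹) := by rw [hx]; group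
      rw [this, ← conjBy_conjBy, ← conjBy_conjBy A, conjBy_self (inv_mem ha₂), e2, conjBy_conjBy]
    have f3 : b₂⁻¹ * b₁ * (a₁ * b₁⁻¹ * a₃ * a₁) = b₂⁻¹ * a₁ * b₁⁻¹ * a₃ := by
      have c1 : a₃ * a₁ = a₁ * a₃ := hA a₃ ha₃ a₁ ha₁
      calc b₂⁻¹ * b₁ * (a₁ * b₁⁻¹ * a₃ * a₁) = b₂⁻¹ * (b₁ * a₁ * b₁⁻¹) * (a₃ * a₁) := by group
        _ = _ := by rw [s1, c1]; group
    have f4 : conjBy B (b₂⁻¹ * a₁ * b₁⁻¹ * a₃) = conjBy B (b₂⁻¹ * (a₁ * a₂)) := by
      rw [← conjBy_conjBy, ← e3, conjBy_conjBy]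
      have : b₂⁻¹ * a₁ * b₁⁻¹ * (b₁ * b₂) = b₂⁻¹ * a₁ * b₂ := by group
      rw [this, ← conjBy_conjBy, e2, conjBy_conjBy, mul_assoc]
    have f5 : conjBy B (a₂ * b₂⁻¹ * a₃ * a₂) = conjBy B (b₂⁻¹ * (a₁ * a₂)) := by
      have c1 : a₃ * a₂ = a₂ * a₃ := hA a₃ ha₃ a₂ ha₂
      have c2 : a₂ * b₂⁻¹ * a₃ * a₂ = b₂⁻¹ * a₂ * b₂⁻¹ * a₃ := by
        rw [mul_assoc, c1, ← mul_assoc, s2']
      rw [c2, ← conjBy_conjBy, ← e3, conjBy_conjBy]
      have c3 : b₂⁻¹ * a₂ * b₂⁻¹ * (b₁ * b₂) = b₂⁻¹ * a₂ * (b₂⁻¹ * b₁ * b₂) := by group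
      have c4 : conjBy A (b₂⁻¹ * a₂ * (b₂⁻¹ * b₁ * b₂)) = conjBy B (b₂⁻¹ * (a₁ * a₂)) := by
        have c5 : b₂⁻¹ * b₁ * b₂ = b₁ := by rw [mul_assoc, hB b₁ h1 b₂ h2]; group
        rw [c5, ← conjBy_conjBy, e1, conjBy_conjBy, mul_assoc, hA a₂ ha₂ a₁ ha₁]
      rw [c3, c4]
    rw [← conjBy_conjBy, f1, conjBy_conjBy, f3, f4, f2, f5]
  have hx' : x = ⁅a₂ * b₂⁻¹, a₃⁆ * a₃ := by rw [hx, commutatorElement_def]; group
  have hy' : y = ⁅a₁ * b₁⁻¹, a₃⁆ * a₃ := by rw [hy, commutatorElement_def]; group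
  have hfin : b₂⁻¹ * b₁ = ⁅a₂ * b₂⁻¹, a₃⁆ * ⁅a₁ * b₁⁻¹, a₃⁆⁻¹ := by
    have : b₂⁻¹ * b₁ = x * y⁻¹ := by rw [← key]; group
    rw [this, hx', hy']; group
  have mA : ∀ {a}, a ∈ A → a ∈ A ⊔ B := fun h => Subgroup.mem_sup_left h
  have mB : ∀ {a}, a ∈ B → a ∈ A ⊔ B := fun h => Subgroup.mem_sup_right h
  rw [hfin]
  exact mul_mem (Subgroup.commutator_mem_commutator (mul_mem (mA ha₂) (inv_mem (mB h2))) (mA ha₃))
    (inv_mem (Subgroup.commutator_mem_commutator (mul_mem (mA ha₁) (inv_mem (mB h1))) (mA ha₃)))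

/-- special rank one groups with `|B| > 3`: `B ≤ X'`. -/
theorem special_le_commutator (h : IsSpecialRankOnePair A B) (hA : Com A A) (hB : Com B B) (hcard : 3 < ENat.card B) :
    B ≤ ⁅A ⊔ B, A ⊔ B⁆ := by
  -- the main step: if `x ≠ 1`, `x y ≠ 1`, `x x y ≠ 1` then `y ∈ X'`
  have good : ∀ y ∈ B, ∀ x ∈ B, x ≠ 1 → x * y ≠ 1 → x * x * y ≠ 1 → y ∈ ⁅A ⊔ B, A ⊔ B⁆ := by
    intro y hy x hx hx1 hxy hxxy
    have h1 := special_congr h hA hB (mul_mem hx hy) hx hxy hx1 (by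
      rw [hB (x * y) (mul_mem hx hy) x hx, ← mul_assoc]; exact hxxy)
    rwa [inv_mul_cancel_left] at h1
  intro y hy
  by_cases hy1 : y = 1
  · rw [hy1]; exact one_mem _
  by_cases hex : ∃ x ∈ B, x ≠ 1 ∧ x * y ≠ 1 ∧ x * x * y ≠ 1
  · obtain ⟨x, hx, h1, h2, h3⟩ := hex
    exact good y hy x hx h1 h2 h3
  · push Not at hex
    -- there is `x ∉ {1, y, y⁻¹}`
    have hx : ∃ x ∈ B, x ≠ 1 ∧ x ≠ y ∧ x ≠ y⁻¹ := by
      by_contra hcon
      push Not at hcon
      have hsub : (B : Set G) ⊆ {1, y, y⁻¹} := by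
        intro x hx
        by_cases h1 : x = 1
        · simp [h1]
        by_cases h2 : x = y
        · simp [h2]
        · simp [hcon x hx h1 h2]
      have h4 : (B : Set G).encard ≤ 3 := by
        refine (Set.encard_le_encard hsub).trans ?_
        refine (Set.encard_insert_le _ _).trans ?_
        refine (add_le_add_left (Set.encard_insert_le _ _) _).trans ?_
        rw [Set.encard_singleton]
        norm_num
      have h5 : ENat.card B = (B : Set G).encard := rfl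
      rw [h5] at hcard
      exact absurd hcard (not_lt.mpr h4)
    obtain ⟨x, hx, hx1, hxy, hxy'⟩ := hx
    have h2 : x * x * y = 1 := hex x hx hx1 (fun h' => hxy' (eq_inv_of_mul_eq_one_left h'))
    have hxx : x * x = y⁻¹ := eq_inv_of_mul_eq_one_left h2
    have hxX := good x hx x hx hx1 (by rw [hxx]; exact inv_ne_one.mpr hy1) (by
      rw [hxx]; intro h'; exact hxy (inv_mul_eq_one.mp h').symm)
    have h3 := mul_mem hxX hxX
    rw [hxx] at h3
    rwa [inv_mem_iff] at h3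

theorem special_le_commutator' (h : IsSpecialRankOnePair A B) (hA : Com A A) (hB : Com B B) (hcard : 3 < ENat.card A) :
    A ≤ ⁅A ⊔ B, A ⊔ B⁆ := by
  rw [sup_comm]; exact special_le_commutator (special_symm h) hB hA hcard

theorem isSimple_quot {H : Type*} [Group H] (hne : Subgroup.center H ≠ ⊤)
    (h : ∀ N : Subgroup H, N.Normal → N = ⊤ ∨ N ≤ Subgroup.center H) : IsSimpleGroup (H ⧸ Subgroup.center H) := by
  have hnt : Nontrivial (H ⧸ Subgroup.center H) := by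
    rw [← not_subsingleton_iff_nontrivial]
    intro hs
    apply hne
    rw [eq_top_iff]
    intro x _
    rw [← QuotientGroup.eq_one_iff]
    exact Subsingleton.elim _ _
  refine { toNontrivial := hnt, eq_bot_or_eq_top_of_normal := fun K hK => ?_ }
  have hN : (K.comap (QuotientGroup.mk' (Subgroup.center H))).Normal := hK.comap _
  have hmap : (K.comap (QuotientGroup.mk' (Subgroup.center H))).map (QuotientGroup.mk' (Subgroup.center H)) = K :=
    Subgroup.map_comap_eq_self_of_surjective (QuotientGroup.mk'_surjective _) K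
  rcases h _ hN with h1 | h1
  · right
    rw [← hmap, h1]
    exact Subgroup.map_top_of_surjective _ (QuotientGroup.mk'_surjective _)
  · left
    rw [eq_bot_iff, ← hmap, Subgroup.map_le_iff_le_comap]
    intro x hx
    rw [Subgroup.mem_comap, Subgroup.mem_bot]
    exact (QuotientGroup.eq_one_iff x).mpr (h1 hx)

theorem isQuasisimple_top {H : Type*} [Group H] (hp : commutator H = ⊤) (hne : Subgroup.center H ≠ ⊤)
    (h : ∀ N : Subgroup H, N.Normal → N = ⊤ ∨ N ≤ Subgroup.center H) : IsQuasisimple ↥(⊤ : Subgroup H) := by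
  have key : ∀ {X Y : Type _} [Group X] [Group Y] (e : X ≃* Y), commutator X = ⊤ → Subgroup.center X ≠ ⊤ →
      (∀ N : Subgroup X, N.Normal → N = ⊤ ∨ N ≤ Subgroup.center X) → IsQuasisimple Y := by
    intro X Y _ _ e hp hne h
    have hcen : ∀ x : X, e x ∈ Subgroup.center Y ↔ x ∈ Subgroup.center X := by
      intro x
      rw [Subgroup.mem_center_iff, Subgroup.mem_center_iff]
      constructor
      · intro h y
        apply e.injective
        rw [map_mul, map_mul]; exact h (e y)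
      · intro h y
        obtain ⟨y, rfl⟩ := e.surjective y
        rw [← map_mul, ← map_mul, h y]
    refine ⟨?_, isSimple_quot ?_ ?_⟩
    · have := Group.isPerfect_def.mpr hp
      exact Group.IsPerfect.ofSurjective (f := e.toMonoidHom) e.surjective
    · intro h'
      apply hne
      rw [eq_top_iff]
      intro x _
      rw [← hcen, h']
      exact Subgroup.mem_top _
    · intro N hN
      rcases h (N.comap e.toMonoidHom) (hN.comap _) with h1 | h1
      · left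
        rw [eq_top_iff]
        intro y _
        obtain ⟨x, rfl⟩ := e.surjective y
        have : x ∈ N.comap e.toMonoidHom := by rw [h1]; exact Subgroup.mem_top _
        exact this
      · right
        intro y hy
        obtain ⟨x, rfl⟩ := e.surjective y
        rw [hcen]
        exact h1 hy
  exact key Subgroup.topEquiv.symm hp hne h

theorem F_connected_conj (hc : IsConnectedFamily (FAdj S) S) (hA : A ∈ S) (hB : B ∈ S) : ∃ g : G, B = conjBy A g := by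
  have h := hc A hA B hB
  induction h with
  | refl => exact ⟨1, (conjBy_one A).symm⟩
  | tail _ h ih =>
    obtain ⟨g, hg⟩ := ih h.1
    obtain ⟨b, hb, hb1⟩ := le_iff_of_bot (r1_ne_bot' h.2.2)
    obtain ⟨a, ha, -, hab⟩ := r1_right h.2.2 hb hb1
    refine ⟨a⁻¹ * b * g, ?_⟩
    rw [← conjBy_conjBy, ← hg, ← conjBy_conjBy, hab, conjBy_conjBy, inv_mul_cancel, conjBy_one]

theorem F_connected_R (hc : IsConnectedFamily (FAdj S) S) (h2 : ∃ A ∈ S, ∃ B ∈ S, A ≠ B) : HR S := by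
  intro A hA
  obtain ⟨X, hX, Y, hY, hXY⟩ := h2
  have : ∃ B ∈ S, A ≠ B := by
    by_cases h : A = X
    · exact ⟨Y, hY, by rw [h]; exact hXY⟩
    · exact ⟨X, hX, h⟩
  obtain ⟨B, hB, hAB⟩ := this
  have h := hc A hA B hB
  rcases Relation.ReflTransGen.cases_head h with h | ⟨D, h, -⟩
  · exact absurd h hAB
  · exact ⟨D, h.2.1, h.2.2⟩

section quasi

theorem normal_top (hS : IsRootSubgroupSet S) (hc : IsConnectedFamily (FAdj S) S) (hp : commutator G = ⊤) {N : Subgroup G}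
    (hN : N.Normal) (hA : A ∈ S) {a : G} (ha : a ∈ A) (ha1 : a ≠ 1) (haN : a ∈ N) : N = ⊤ := by
  have hNc : ∀ g : G, conjBy N g = N := by
    intro g
    ext x
    rw [mem_conjBy]
    constructor
    · intro h
      have := hN.conj_mem _ h g
      have e : g * (g⁻¹ * x * g) * g⁻¹ = x := by group
      rwa [e] at this
    · intro h
      have := hN.conj_mem _ h g⁻¹
      rwa [inv_inv] at this
  have step : ∀ A B : Subgroup G, IsRankOnePair A B → (∃ a ∈ A, a ≠ 1 ∧ a ∈ N) → (∃ b ∈ B, b ≠ 1 ∧ b ∈ N) ∧ A ⊔ N = B ⊔ N := by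
    rintro A B h ⟨a, ha, ha1, haN⟩
    obtain ⟨b, hb, hb1, hab⟩ := r1_left h ha ha1
    have e1 : conjBy (B ⊔ N) a = B ⊔ N := conjBy_self (Subgroup.mem_sup_right haN)
    have e2 : conjBy (A ⊔ N) b = B ⊔ N := by
      rw [conjBy_sup, hNc, hab, ← hNc a, ← conjBy_sup, hNc]; exact e1
    constructor
    · refine ⟨a⁻¹ * (b * a * b⁻¹) * a, ?_, fun h' => ha1 ?_, ?_⟩
      · have h1 : b * a * b⁻¹ ∈ conjBy B a := by rw [← hab]; exact conj_mem_conjBy ha
        exact mem_conjBy.mp h1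
      · have h1 : b * a * b⁻¹ = 1 := by
          have : b * a * b⁻¹ = a * (a⁻¹ * (b * a * b⁻¹) * a) * a⁻¹ := by group
          rw [this, h']; simp
        exact conj_eq_one_iff.mp h1
      · exact mul_mem (mul_mem (inv_mem haN) (hN.conj_mem _ haN b)) haN
    · have h1 : A ⊔ N = conjBy (B ⊔ N) b⁻¹ := conjBy_eq_iff.mp e2
      rw [h1, conjBy_self (inv_mem (Subgroup.mem_sup_left hb))]
  have all : ∀ B ∈ S, (∃ b ∈ B, b ≠ 1 ∧ b ∈ N) ∧ A ⊔ N = B ⊔ N := by
    intro B hB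
    have h := hc A hA B hB
    induction h with
    | refl => exact ⟨⟨a, ha, ha1, haN⟩, rfl⟩
    | tail _ h ih =>
      obtain ⟨h1, h2⟩ := ih h.1
      obtain ⟨h3, h4⟩ := step _ _ h.2.2 h1
      exact ⟨h3, h2.trans h4⟩
  have htop : A ⊔ N = ⊤ := by
    rw [eq_top_iff, ← hS.generates]
    refine iSup₂_le fun B hB => ?_
    rw [(all B hB).2]; exact le_sup_left
  rw [eq_top_iff, ← hp, commutator_def, Subgroup.commutator_le]
  have hAA := rs_comm hS hA
  intro x _ y _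
  have hx : x ∈ A ⊔ N := by rw [htop]; exact Subgroup.mem_top _
  have hy : y ∈ A ⊔ N := by rw [htop]; exact Subgroup.mem_top _
  obtain ⟨a₁, ha₁, n₁, hn₁, rfl⟩ := Subgroup.mem_sup_of_normal_right.1 hx
  obtain ⟨a₂, ha₂, n₂, hn₂, rfl⟩ := Subgroup.mem_sup_of_normal_right.1 hy
  rw [← QuotientGroup.eq_one_iff, commutatorElement_def]
  have q1 : ((n₁ : G) : G ⧸ N) = 1 := (QuotientGroup.eq_one_iff n₁).mpr hn₁
  have q2 : ((n₂ : G) : G ⧸ N) = 1 := (QuotientGroup.eq_one_iff n₂).mpr hn₂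
  have q3 : ((a₁ : G) : G ⧸ N) * a₂ = a₂ * a₁ := by
    rw [← QuotientGroup.mk_mul, hAA a₁ ha₁ a₂ ha₂, QuotientGroup.mk_mul]
  simp only [QuotientGroup.mk_mul, QuotientGroup.mk_inv, q1, q2, mul_one]
  rw [q3]; group

theorem comm_le_normal {X Y N : Subgroup G} (hN : N.Normal) (hX : Com X X) (hY : Com Y Y) (h : ⁅X, Y⁆ ≤ N) :
    ⁅X ⊔ Y, X ⊔ Y⁆ ≤ N := by
  have hπ : ∀ {P Q : Subgroup G}, ⁅P, Q⁆ ≤ N ↔ Com (P.map (QuotientGroup.mk' N)) (Q.map (QuotientGroup.mk' N)) := by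
    intro P Q
    rw [← com_iff, ← Subgroup.map_commutator, Subgroup.map_eq_bot_iff, QuotientGroup.ker_mk']
  have hXX : Com (X.map (QuotientGroup.mk' N)) (X.map (QuotientGroup.mk' N)) := by
    rw [← hπ, com_iff.mpr hX]; exact bot_le
  have hYY : Com (Y.map (QuotientGroup.mk' N)) (Y.map (QuotientGroup.mk' N)) := by
    rw [← hπ, com_iff.mpr hY]; exact bot_le
  have hXY := hπ.mp h
  rw [hπ, Subgroup.map_sup]
  exact (hXX.sup_left hXY.symm).sup_right (hXY.sup_left hYY)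

/-- data extracted from the hypotheses of S5033 -/
theorem nd_of_not_degenerate (hS : IsRootSubgroupSet S) (hc : IsConnectedFamily (FAdj S) S)
    (h2 : ∃ A ∈ S, ∃ B ∈ S, A ≠ B) (hd : ¬ IsDegenerateRootSet S) :
    IsRootSubgroupClass S ∧ IsNondegenerateRootSet S := by
  obtain ⟨A, hA, B, hB, hAB⟩ := h2
  have hcl : IsRootSubgroupClass S := ⟨hS, ⟨A, hA⟩, fun X hX Y hY => F_connected_conj hc hX hY⟩
  have hR := F_connected_R hc ⟨A, hA, B, hB, hAB⟩
  refine ⟨hcl, ?_⟩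
  have hex : ∃ A ∈ S, ∃ B ∈ S, RootCommutatorCase S A B := by
    by_contra hcon
    apply hd
    intro X hX Y hY h
    exact hcon ⟨X, hX, Y, hY, h⟩
  obtain ⟨X, hX, Y, hY, h⟩ := hex
  refine ⟨⟨X, hX, ⁅X, Y⁆, h.1, (cc_ne_left hS h).symm, com_iff.mpr (cc_comA h).symm⟩, ?_, ⟨X, hX, Y, hY, h⟩⟩
  obtain ⟨D, hD, hXD⟩ := hR X hX
  exact ⟨X, hX, D, hD, hXD⟩

theorem perfect_of (hS : IsRootSubgroupSet S) (h2 : ∃ A ∈ S, ∃ B ∈ S, A ≠ B) (hc : IsConnectedFamily (FAdj S) S)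
    (h3 : IsDegenerateRootSet S → ∀ A ∈ S, 3 < ENat.card A)
    (h4 : ∀ A ∈ S, ∀ B ∈ rankOnePartners S A, IsSpecialRankOnePair A B) : commutator G = ⊤ := by
  have hR := F_connected_R hc h2
  rw [eq_top_iff, ← hS.generates]
  refine iSup₂_le fun A hA => ?_
  by_cases hd : IsDegenerateRootSet S
  · obtain ⟨B, hB, hAB⟩ := hR A hA
    refine (special_le_commutator' (h4 A hA B ⟨hB, hAB⟩) (rs_comm hS hA) (rs_comm hS hB) (h3 hd A hA)).trans ?_
    exact Subgroup.commutator_mono le_top le_top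
  · have hex : ∃ A ∈ S, ∃ B ∈ S, RootCommutatorCase S A B := by
      by_contra hcon
      apply hd
      intro X hX Y hY h
      exact hcon ⟨X, hX, Y, hY, h⟩
    obtain ⟨X, hX, Y, hY, h⟩ := hex
    obtain ⟨g, rfl⟩ := F_connected_conj hc h.1 hA
    rw [conjBy_commutator]
    exact Subgroup.commutator_mono le_top le_top

theorem quasi_aux (hS : IsRootSubgroupSet S) (h2 : ∃ A ∈ S, ∃ B ∈ S, A ≠ B) (hc : IsConnectedFamily (FAdj S) S)
    (h3 : IsDegenerateRootSet S → ∀ A ∈ S, 3 < ENat.card A)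
    (h4 : ∀ A ∈ S, ∀ B ∈ rankOnePartners S A, IsSpecialRankOnePair A B) {N : Subgroup G} (hN : N.Normal)
    (hint : ∀ A ∈ S, ∀ a ∈ A, a ∈ N → a = 1) {n : G} (hn : n ∈ N) (hA : A ∈ S) (hC : C ∈ S) (hCA : Com C A) :
    Com C (conjBy A n) := by
  by_contra hno
  have hA₁ := hS.conj_mem _ hA n
  have hle : ⁅C, conjBy A n⁆ ≤ N := by
    rw [Subgroup.commutator_le]
    rintro c hc' _ ⟨a, ha, rfl⟩
    show ⁅c, n * a * n⁻¹⁆ ∈ N
    rw [← QuotientGroup.eq_one_iff, commutatorElement_def]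
    have q1 : ((n : G) : G ⧸ N) = 1 := (QuotientGroup.eq_one_iff n).mpr hn
    have q3 : ((c : G) : G ⧸ N) * a = a * c := by
      rw [← QuotientGroup.mk_mul, hCA c hc' a ha, QuotientGroup.mk_mul]
    simp only [QuotientGroup.mk_mul, QuotientGroup.mk_inv, q1, mul_one, one_mul, inv_one]
    rw [q3]; group
  rcases rs_pair hS hC hA₁ with h | h | h
  · exact hno h
  · by_cases hd : IsDegenerateRootSet S
    · have h5 := special_le_commutator' (h4 C hC _ ⟨hA₁, h⟩) (rs_comm hS hC) (rs_comm hS hA₁) (h3 hd C hC)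
      have h6 := h5.trans (comm_le_normal hN (rs_comm hS hC) (rs_comm hS hA₁) hle)
      obtain ⟨c, hc', hc1⟩ := le_iff_of_bot (hS.ne_bot _ hC)
      exact hc1 (hint C hC c hc' (h6 hc'))
    · obtain ⟨hcl, hnd⟩ := nd_of_not_degenerate hS hc h2 hd
      obtain ⟨E, hE, hconf⟩ := nd_conf hcl hnd hC hA₁ h
      have hπ : ∀ {P Q : Subgroup G}, ⁅P, Q⁆ ≤ N ↔ Com (P.map (QuotientGroup.mk' N)) (Q.map (QuotientGroup.mk' N)) := by
        intro P Q
        rw [← com_iff, ← Subgroup.map_commutator, Subgroup.map_eq_bot_iff, QuotientGroup.ker_mk']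
      have k1 := hπ.mp hle
      have k2 : Com (C.map (QuotientGroup.mk' N)) (E.map (QuotientGroup.mk' N)) := by
        rw [← hπ, com_iff.mpr hconf.comBC]; exact bot_le
      have k3 : Com (C.map (QuotientGroup.mk' N)) ((⁅E, conjBy A n⁆).map (QuotientGroup.mk' N)) := by
        refine (k2.sup_right k1).mono le_rfl ?_
        rw [← Subgroup.map_sup]
        exact Subgroup.map_mono (Subgroup.commutator_le_sup _ _)
      have k4 : E ≤ N := by
        have := hπ.mpr k3.symm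
        rwa [hconf.eC] at this
      obtain ⟨e, he, he1⟩ := le_iff_of_bot hconf.nebot
      exact he1 (hint E hE.1.1 e he (k4 he))
  · obtain ⟨e, he, he1⟩ := le_iff_of_bot (cc_ne_bot hS h)
    exact he1 (hint _ h.1 e he (hle he))

theorem quasi_main (hS : IsRootSubgroupSet S) (h2 : ∃ A ∈ S, ∃ B ∈ S, A ≠ B) (hc : IsConnectedFamily (FAdj S) S)
    (h2' : ∀ A ∈ S, ∀ C ∈ S, A ≠ C → centralizingMembers S A ≠ centralizingMembers S C)
    (h3 : IsDegenerateRootSet S → ∀ A ∈ S, 3 < ENat.card A)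
    (h4 : ∀ A ∈ S, ∀ B ∈ rankOnePartners S A, IsSpecialRankOnePair A B) {N : Subgroup G} (hN : N.Normal) :
    N = ⊤ ∨ N ≤ Subgroup.center G := by
  have hp := perfect_of hS h2 hc h3 h4
  by_cases hint : ∀ A ∈ S, ∀ a ∈ A, a ∈ N → a = 1
  · right
    intro n hn
    have hfix : ∀ A ∈ S, conjBy A n = A := by
      intro A hA
      by_contra hne
      apply h2' _ (hS.conj_mem _ hA n) A hA hne
      ext C
      rw [mem_cm, mem_cm]
      constructor
      · rintro ⟨hC, h⟩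
        have := quasi_aux hS h2 hc h3 h4 hN hint (inv_mem hn) (hS.conj_mem _ hA n) hC h
        rw [conjBy_conjBy, inv_mul_cancel, conjBy_one] at this
        exact ⟨hC, this⟩
      · rintro ⟨hC, h⟩
        exact ⟨hC, quasi_aux hS h2 hc h3 h4 hN hint hn hA hC h⟩
    have hcomm : ∀ A ∈ S, ∀ a ∈ A, n * a = a * n := by
      intro A hA a ha
      have h5 : n * a * n⁻¹ * a⁻¹ ∈ A := by
        refine mul_mem ?_ (inv_mem ha)
        have := conj_mem_conjBy (g := n) ha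
        rwa [hfix A hA] at this
      have h6 : n * a * n⁻¹ * a⁻¹ ∈ N := by
        have : n * a * n⁻¹ * a⁻¹ = n * (a * n⁻¹ * a⁻¹) := by group
        rw [this]; exact mul_mem hn (hN.conj_mem _ (inv_mem hn) a)
      have h7 := hint A hA _ h5 h6
      rw [mul_inv_eq_one, mul_inv_eq_iff_eq_mul] at h7
      exact h7
    have hle : (⨆ A ∈ S, A) ≤ Subgroup.centralizer {n} := by
      refine iSup₂_le fun A hA a ha => ?_
      rw [Subgroup.mem_centralizer_iff]
      rintro _ rfl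
      exact hcomm A hA a ha
    rw [hS.generates] at hle
    rw [Subgroup.mem_center_iff]
    intro g
    exact (Subgroup.mem_centralizer_iff.mp (hle (Subgroup.mem_top g)) n rfl).symm
  · left
    push Not at hint
    obtain ⟨A, hA, a, ha, haN, ha1⟩ := hint
    exact normal_top hS hc hp hN hA ha ha1 haN

theorem center_ne_top (h2 : ∃ A ∈ S, ∃ B ∈ S, A ≠ B) (hc : IsConnectedFamily (FAdj S) S) : Subgroup.center G ≠ ⊤ := by
  obtain ⟨A, hA, -, -, -⟩ := id h2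
  obtain ⟨B, hB, hAB⟩ := F_connected_R hc h2 A hA
  intro h
  refine r1_not_com hAB fun a _ b _ => ?_
  have : a ∈ Subgroup.center G := by rw [h]; exact Subgroup.mem_top a
  exact (Subgroup.mem_center_iff.mp this b).symm

end quasi

end Cfsg.Agent.H84
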