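import Mathlib
import Cfsg.Agent.H84.QP9
import Cfsg.Agent.H84.QP10
import Cfsg.Agent.H84.Root6
set_option autoImplicit false
universe u

/-! Quadratic pairs: the components generate quasisimple groups. -/

namespace Cfsg.Agent.H84.QP

open Cfsg
open scoped commutatorElement

theorem three_lt_field {k : Type*} [Field k] (hk2 : ringChar k ≠ 2) (hk3 : Nat.card k ≠ 3) : 3 < ENat.card k := by
  obtain ⟨s, hs0, hs⟩ := exists_elt hk2 hk3
  have h2 := two_ne_zero_of hk2
  have n1 : (0 : k) ≠ 1 := zero_ne_one
  have n2 : (0 : k) ≠ -1 := by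
    intro h5
    have : (1 : k) = 0 := by linear_combination h5
    exact one_ne_zero this
  have n3 : (1 : k) ≠ -1 := by
    intro h5
    apply h2
    linear_combination h5
  have n4 : s ≠ 1 := by rintro rfl; exact hs (by ring)
  have n5 : s ≠ -1 := by rintro rfl; exact hs (by ring)
  let f : Fin 4 → k := ![0, 1, -1, s]
  have hf : Function.Injective f := by
    intro i j hij
    fin_cases i <;> fin_cases j <;>
      first
        | rfl
        | exact absurd hij n1
        | exact absurd hij n2
        | exact absurd hij n3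
        | exact absurd hij n4
        | exact absurd hij n5
        | exact absurd hij hs0
        | exact absurd hij n1.symm
        | exact absurd hij n2.symm
        | exact absurd hij n3.symm
        | exact absurd hij n4.symm
        | exact absurd hij n5.symm
        | exact absurd hij hs0.symm
  have := ENat.card_le_card_of_injective hf
  rw [ENat.card_eq_coe_fintype_card, Fintype.card_fin] at this
  refine lt_of_lt_of_le ?_ this
  norm_num

/-- the closure of a commuting set of unipotents is commutative and unipotent -/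
theorem closure_unip {k : Type*} [Field k] {M : Type*} [AddCommGroup M] [Module k M]
    {X : Set (LinearMap.GeneralLinearGroup k M)} (hc : ∀ x ∈ X, ∀ y ∈ X, x * y = y * x)
    (hn : ∀ x ∈ X, IsNilpotent ((x : M →ₗ[k] M) - 1)) :
    (∀ x ∈ Subgroup.closure X, ∀ y ∈ Subgroup.closure X, x * y = y * x) ∧
      ∀ x ∈ Subgroup.closure X, IsNilpotent ((x : M →ₗ[k] M) - 1) := by
  have h1 : Subgroup.closure X ≤ Subgroup.centralizer X := by
    rw [Subgroup.closure_le]
    intro x hx
    rw [SetLike.mem_coe, Subgroup.mem_centralizer_iff]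
    intro y hy; exact hc y hy x hx
  have h2 : Subgroup.closure X ≤ Subgroup.centralizer (Subgroup.closure X : Set _) := by
    rw [Subgroup.closure_le]
    intro x hx
    rw [SetLike.mem_coe, Subgroup.mem_centralizer_iff]
    intro y hy
    exact (Subgroup.mem_centralizer_iff.1 (h1 hy) x hx).symm
  have h3 : ∀ x ∈ Subgroup.closure X, ∀ y ∈ Subgroup.closure X, x * y = y * x := fun x hx y hy =>
    Subgroup.mem_centralizer_iff.1 (h2 hy) x hx
  refine ⟨h3, fun x hx => ?_⟩
  induction hx using Subgroup.closure_induction with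
  | mem x hx => exact hn x hx
  | one => rw [Units.val_one, sub_self]; exact IsNilpotent.zero
  | mul x y hx hy ihx ihy =>
    have hxy : Commute (x : M →ₗ[k] M) (y : M →ₗ[k] M) := by
      have := congrArg (fun g : LinearMap.GeneralLinearGroup k M => (g : M →ₗ[k] M)) (h3 x hx y hy)
      exact this
    have c1 : Commute ((x : M →ₗ[k] M) - 1) ((y : M →ₗ[k] M) - 1) :=
      (hxy.sub_left (Commute.one_left _)).sub_right (Commute.one_right _)
    have c2 : ((x * y : LinearMap.GeneralLinearGroup k M) : M →ₗ[k] M) - 1 =
        (((x : M →ₗ[k] M) - 1) * ((y : M →ₗ[k] M) - 1) + ((x : M →ₗ[k] M) - 1)) + ((y : M →ₗ[k] M) - 1) := by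
      rw [Units.val_mul]; noncomm_ring
    rw [c2]
    have c3 : Commute (((x : M →ₗ[k] M) - 1) * ((y : M →ₗ[k] M) - 1)) ((x : M →ₗ[k] M) - 1) :=
      (Commute.refl _).mul_left c1.symm
    refine Commute.isNilpotent_add ?_ (Commute.isNilpotent_add c3 (Commute.isNilpotent_mul_right c1 ihx) ihx) ihy
    exact (c1.mul_left (Commute.refl _)).add_left c1
  | inv x hx ih =>
    have hc : Commute ((x : M →ₗ[k] M) - 1) (((x⁻¹ : LinearMap.GeneralLinearGroup k M)) : M →ₗ[k] M) := by
      have h5 : (x : M →ₗ[k] M) * ((x⁻¹ : LinearMap.GeneralLinearGroup k M) : M →ₗ[k] M) = 1 := by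
        rw [← Units.val_mul, mul_inv_cancel, Units.val_one]
      have h6 : ((x⁻¹ : LinearMap.GeneralLinearGroup k M) : M →ₗ[k] M) * (x : M →ₗ[k] M) = 1 := by
        rw [← Units.val_mul, inv_mul_cancel, Units.val_one]
      unfold Commute SemiconjBy
      rw [sub_mul, mul_sub, h5, h6, one_mul, mul_one]
    have e : ((x⁻¹ : LinearMap.GeneralLinearGroup k M) : M →ₗ[k] M) - 1 =
        -(((x : M →ₗ[k] M) - 1) * ((x⁻¹ : LinearMap.GeneralLinearGroup k M) : M →ₗ[k] M)) := by
      rw [sub_mul, ← Units.val_mul, mul_inv_cancel, Units.val_one, one_mul]; abel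
    rw [e]
    exact (Commute.isNilpotent_mul_right hc ih).neg

section
variable {k : Type u} [Field k] (hk2 : ringChar k ≠ 2) (hk3 : Nat.card k ≠ 3)
    {M : Type u} [AddCommGroup M] [Module k M] [FiniteDimensional k M]
    {G : Subgroup (LinearMap.GeneralLinearGroup k M)} (hG : IsQuadraticPair G)
include hk2 hk3

theorem three_lt_card {A : Subgroup (LinearMap.GeneralLinearGroup k M)} (hA : A ∈ quadraticRootSubgroups G) :
    3 < ENat.card A := by
  obtain ⟨a, ha, rfl⟩ := exists_root hA
  have hmem : ∀ c : k, unip (c • a) (smul_sq_zero ha.1.1 c) ∈ Es ha := by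
    intro c
    by_cases hc : c = 0
    · have : unip (c • a) (smul_sq_zero ha.1.1 c) = 1 := Units.ext (by rw [unip_val, hc, zero_smul, add_zero]; rfl)
      rw [this]; exact one_mem _
    · have hcr : LinearMap.range (c • a) = LinearMap.range a := LinearMap.range_smul a c hc
      have hck : LinearMap.ker (c • a) = LinearMap.ker a := LinearMap.ker_smul a c hc
      have h1 : Root G (c • a) := ha.of_rk_le (ha.1.smul c) (smul_ne_zero hc ha.2.1) (by unfold rk; rw [hcr])
      exact unip_mem_same ha h1 hck hcr
  have hinj : Function.Injective (fun c : k => (⟨_, hmem c⟩ : Es ha)) := by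
    intro c d h
    have h1 := congrArg (fun x : Es ha => ((x : LinearMap.GeneralLinearGroup k M) : M →ₗ[k] M)) h
    simp only [unip_val, add_right_inj] at h1
    exact smul_left_injective k ha.2.1 h1
  have hk : 3 < ENat.card k := three_lt_field hk2 hk3
  exact lt_of_lt_of_le hk (ENat.card_le_card_of_injective hinj)

end

end Cfsg.Agent.H84.QP
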