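import Mathlib
import Cfsg.Agent.H84.QP11
set_option autoImplicit false
universe u

/-! Quadratic pairs: the components generate quasisimple groups. -/

namespace Cfsg.Agent.H84.QP

open Cfsg
open scoped commutatorElement

section
variable {k : Type u} [Field k] (hk2 : ringChar k ≠ 2) (hk3 : Nat.card k ≠ 3)
    {M : Type u} [AddCommGroup M] [Module k M] [FiniteDimensional k M]
    {G : Subgroup (LinearMap.GeneralLinearGroup k M)} (hG : IsQuadraticPair G)

/-- the group generated by a component -/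
abbrev Kc (G : Subgroup (LinearMap.GeneralLinearGroup k M)) (X : Subgroup (LinearMap.GeneralLinearGroup k M)) :
    Subgroup (LinearMap.GeneralLinearGroup k M) := ⨆ B ∈ Co G X, B

include hG in
theorem ss_G0 : SS (G0 G) := by
  refine (SS.of_irreducible hG.1).normal G0_le ?_
  intro g hg x hx
  have h1 : conjBy (G0 G) g ≤ G0 G := by
    unfold G0
    rw [conjBy, Subgroup.map_le_iff_le_comap]
    refine iSup₂_le fun A hA a ha => ?_
    rw [Subgroup.mem_comap]
    have h2 : conjBy A g ∈ quadraticRootSubgroups G := conj_mem_roots hA hg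
    exact (le_iSup₂_of_le (f := fun B (_ : B ∈ quadraticRootSubgroups G) => B) _ h2 le_rfl) (conj_mem_conjBy ha)
  exact h1 (conj_mem_conjBy hx)

include hk2 hk3 hG in
theorem conj_Kc {X : Subgroup (LinearMap.GeneralLinearGroup k M)} :
    ∀ g ∈ G0 G, ∀ x ∈ Kc G X, g * x * g⁻¹ ∈ Kc G X := by
  have h1 : G0 G ≤ stabSet (Co G X) := by
    unfold G0
    refine iSup₂_le fun B hB g hg => ?_
    by_cases h : Co G B = Co G X
    · have h2 : B ∈ Co G X := by rw [← h]; exact mem_comp_self hB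
      exact comp_stab (S := quadraticRootSubgroups G) (K := G) (fun A hA g hg => conj_mem_roots hA hg)
        (fun A hA => root_le_G hA) (comp_sub_le B h2 hg)
    · have key : ∀ g ∈ B, ∀ C ∈ Co G X, conjBy C g = C := by
        intro g hg C hC
        have h3 := comp_comm hk2 hk3 hG (mem_comp_self hB) hC h
        have h4 : Com B C := com_iff.mp h3
        apply le_antisymm
        · rintro _ ⟨c, hc, rfl⟩
          change g * c * g⁻¹ ∈ C
          rw [h4 g hg c hc, mul_inv_cancel_right]; exact hc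
        · intro c hc
          refine ⟨c, hc, ?_⟩
          change g * c * g⁻¹ = c
          rw [h4 g hg c hc, mul_inv_cancel_right]
      intro C
      constructor
      · intro hC; rw [key g hg C hC]; exact hC
      · intro hC
        have := key g⁻¹ (inv_mem hg) _ hC
        rw [conjBy_conjBy, inv_mul_cancel, conjBy_one] at this
        rw [this]; exact hC
  intro g hg x hx
  have h2 : conjBy (Kc G X) g ≤ Kc G X := by
    rw [conjBy, Subgroup.map_le_iff_le_comap]
    refine iSup₂_le fun A hA a ha => ?_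
    rw [Subgroup.mem_comap]
    exact comp_sub_le _ ((h1 hg A).1 hA) (conj_mem_conjBy ha)
  exact h2 (conj_mem_conjBy hx)

theorem Kc_le_G0 {X : Subgroup (LinearMap.GeneralLinearGroup k M)} : Kc G X ≤ G0 G := by
  unfold G0
  exact iSup₂_le fun B hB => le_iSup₂_of_le (f := fun B (_ : B ∈ quadraticRootSubgroups G) => B) B hB.1 le_rfl

include hk2 hk3 hG in
theorem ss_Kc {X : Subgroup (LinearMap.GeneralLinearGroup k M)} : SS (Kc G X) :=
  (ss_G0 hG).normal Kc_le_G0 (conj_Kc hk2 hk3 hG)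

include hk2 hk3 hG in
theorem comp_perfect {X : Subgroup (LinearMap.GeneralLinearGroup k M)} (hX : X ∈ quadraticRootSubgroups G) :
    commutator ↥(Kc G X) = ⊤ := by
  refine perfect_of (comp_root_set hk2 hk3 hG X) (comp_two hk2 hk3 hG hX) (comp_connected' X) ?_ (comp_special hk2 hk3 hG)
  rintro - _ ⟨A, hA, rfl⟩
  have h1 := three_lt_card hk2 hk3 hA.1
  refine lt_of_lt_of_le h1 ?_
  exact ENat.card_le_card_of_injective (f := (Subgroup.subgroupOfEquivOfLe (comp_sub_le A hA)).symm)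
    (Subgroup.subgroupOfEquivOfLe (comp_sub_le A hA)).symm.injective

include hk2 hk3 hG in
theorem comp_normal {X : Subgroup (LinearMap.GeneralLinearGroup k M)} (hX : X ∈ quadraticRootSubgroups G)
    {N : Subgroup ↥(Kc G X)} (hN : N.Normal) : N = ⊤ ∨ N ≤ Subgroup.center ↥(Kc G X) := by
  have hS := comp_root_set hk2 hk3 hG X
  have h2 := comp_two hk2 hk3 hG hX
  have hc := comp_connected' (G := G) X
  have hp := comp_perfect hk2 hk3 hG hX
  have h4 := comp_special (X := X) hk2 hk3 hG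
  have h3 : ∀ A ∈ subSet (Co G X) (⨆ B ∈ Co G X, B), 3 < ENat.card A := by
    rintro _ ⟨A, hA, rfl⟩
    have h1 := three_lt_card hk2 hk3 hA.1
    refine lt_of_lt_of_le h1 ?_
    exact ENat.card_le_card_of_injective (f := (Subgroup.subgroupOfEquivOfLe (comp_sub_le A hA)).symm)
      (Subgroup.subgroupOfEquivOfLe (comp_sub_le A hA)).symm.injective
  by_cases hint : ∀ A ∈ subSet (Co G X) (⨆ B ∈ Co G X, B), ∀ a ∈ A, a ∈ N → a = 1
  · right
    -- the image of `N`
    have hssN : SS (N.map (Kc G X).subtype) := by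
      refine (ss_Kc hk2 hk3 hG (X := X)).normal (Subgroup.map_subtype_le N) ?_
      rintro g hg _ ⟨n, hn, rfl⟩
      exact ⟨(⟨g, hg⟩ : ↥(Kc G X)) * n * (⟨g, hg⟩ : ↥(Kc G X))⁻¹, hN.conj_mem n hn _, rfl⟩
    have key : ∀ A ∈ Co G X, ∀ a ∈ A, ∀ n ∈ N.map (Kc G X).subtype, n * a = a * n := by
      intro A hA a ha n hn
      set Y : Set (LinearMap.GeneralLinearGroup k M) := {y | ∃ n ∈ N.map (Kc G X).subtype, ∃ a ∈ A, y = n * a * n⁻¹} with hY
      have hcom : ∀ n ∈ N.map (Kc G X).subtype, Com A (conjBy A n) := by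
        rintro _ ⟨n, hn, rfl⟩
        have h5 := quasi_aux hS h2 hc (fun _ => h3) h4 hN hint hn (A := A.subgroupOf (Kc G X)) ⟨A, hA, rfl⟩
          (C := A.subgroupOf (Kc G X)) ⟨A, hA, rfl⟩ (rs_comm hS ⟨A, hA, rfl⟩)
        rw [conjBy_subgroupOf (comp_sub_le A hA)] at h5
        intro x hx y hy
        have hyK : y ∈ Kc G X := conjBy_le_of_mem (comp_sub_le A hA) n.2 hy
        exact congrArg Subtype.val (h5 ⟨x, comp_sub_le A hA hx⟩ hx ⟨y, hyK⟩ hy)
      have hYc : ∀ x ∈ Y, ∀ y ∈ Y, x * y = y * x := by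
        rintro _ ⟨n₁, hn₁, a₁, ha₁, rfl⟩ _ ⟨n₂, hn₂, a₂, ha₂, rfl⟩
        have h6 := hcom (n₁⁻¹ * n₂) (mul_mem (inv_mem hn₁) hn₂) a₁ ha₁ _ (conj_mem_conjBy ha₂)
        have h7 := congrArg (fun x => n₁ * x * n₁⁻¹) h6
        have e1 : n₁ * (a₁ * (n₁⁻¹ * n₂ * a₂ * (n₁⁻¹ * n₂)⁻¹)) * n₁⁻¹ = n₁ * a₁ * n₁⁻¹ * (n₂ * a₂ * n₂⁻¹) := by group
        have e2 : n₁ * ((n₁⁻¹ * n₂ * a₂ * (n₁⁻¹ * n₂)⁻¹) * a₁) * n₁⁻¹ = (n₂ * a₂ * n₂⁻¹) * (n₁ * a₁ * n₁⁻¹) := by group
        rw [← e1, ← e2]; exact h7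
      have hYn : ∀ x ∈ Y, IsNilpotent ((x : M →ₗ[k] M) - 1) := by
        rintro _ ⟨n₁, hn₁, a₁, ha₁, rfl⟩
        obtain ⟨a₀, ha₀, hAa⟩ := exists_root hA.1
        refine ⟨2, ?_⟩
        have e3 : ((a₁ : M →ₗ[k] M) - 1) * ((a₁ : M →ₗ[k] M) - 1) = 0 := by
          by_cases h1 : a₁ = 1
          · rw [h1]; simp
          · subst hAa
            obtain ⟨b, hb, rfl, -, -, -⟩ := mem_Es ha₀ ha₁ h1
            rw [unip_val, add_sub_cancel_left]; exact hb.1.1
        have e4 : ((n₁ * a₁ * n₁⁻¹ : LinearMap.GeneralLinearGroup k M) : M →ₗ[k] M) - 1 =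
            (n₁ : M →ₗ[k] M) * ((a₁ : M →ₗ[k] M) - 1) * ((n₁⁻¹ : LinearMap.GeneralLinearGroup k M) : M →ₗ[k] M) := by
          rw [Units.val_mul, Units.val_mul, mul_sub, sub_mul, mul_one, ← Units.val_mul n₁ n₁⁻¹, mul_inv_cancel, Units.val_one]
        rw [pow_two, e4]
        have e5 : ((n₁⁻¹ : LinearMap.GeneralLinearGroup k M) : M →ₗ[k] M) * (n₁ : M →ₗ[k] M) = 1 := by
          rw [← Units.val_mul, inv_mul_cancel, Units.val_one]
        calc _ = (n₁ : M →ₗ[k] M) * ((a₁ : M →ₗ[k] M) - 1) * (((n₁⁻¹ : LinearMap.GeneralLinearGroup k M) : M →ₗ[k] M) * (n₁ : M →ₗ[k] M)) *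
              ((a₁ : M →ₗ[k] M) - 1) * ((n₁⁻¹ : LinearMap.GeneralLinearGroup k M) : M →ₗ[k] M) := by noncomm_ring
          _ = (n₁ : M →ₗ[k] M) * (((a₁ : M →ₗ[k] M) - 1) * ((a₁ : M →ₗ[k] M) - 1)) * ((n₁⁻¹ : LinearMap.GeneralLinearGroup k M) : M →ₗ[k] M) := by
              rw [e5]; noncomm_ring
          _ = 0 := by rw [e3]; simp
      obtain ⟨hTc, hTn⟩ := closure_unip hYc hYn
      have hYN : ∀ g ∈ N.map (Kc G X).subtype, ∀ x ∈ Subgroup.closure Y, g * x * g⁻¹ ∈ Subgroup.closure Y := by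
        intro g hg x hx
        induction hx using Subgroup.closure_induction with
        | mem x hx =>
          obtain ⟨n₁, hn₁, a₁, ha₁, rfl⟩ := hx
          apply Subgroup.subset_closure
          exact ⟨g * n₁, mul_mem hg hn₁, a₁, ha₁, by group⟩
        | one => simp
        | mul x y _ _ ihx ihy =>
          have : g * (x * y) * g⁻¹ = (g * x * g⁻¹) * (g * y * g⁻¹) := by group
          rw [this]; exact mul_mem ihx ihy
        | inv x _ ih =>
          have : g * x⁻¹ * g⁻¹ = (g * x * g⁻¹)⁻¹ := by group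
          rw [this]; exact inv_mem ih
      have hbot : Subgroup.closure Y ⊓ N.map (Kc G X).subtype = ⊥ := by
        refine hssN.unipotent inf_le_right ?_ (fun x hx y hy => hTc x hx.1 y hy.1) (fun x hx => hTn x hx.1)
        intro g hg x hx
        exact Subgroup.mem_inf.mpr ⟨hYN g hg x hx.1, mul_mem (mul_mem hg hx.2) (inv_mem hg)⟩
      have h8 : n * a * n⁻¹ * a⁻¹ ∈ Subgroup.closure Y ⊓ N.map (Kc G X).subtype := by
        refine Subgroup.mem_inf.mpr ⟨?_, ?_⟩
        · refine mul_mem (Subgroup.subset_closure ⟨n, hn, a, ha, rfl⟩) (inv_mem (Subgroup.subset_closure ⟨1, one_mem _, a, ha, ?_⟩))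
          group
        · obtain ⟨n, hn, rfl⟩ := hn
          have haK := comp_sub_le A hA ha
          refine ⟨n * ((⟨a, haK⟩ : ↥(Kc G X)) * n⁻¹ * (⟨a, haK⟩ : ↥(Kc G X))⁻¹), mul_mem hn (hN.conj_mem _ (inv_mem hn) _), ?_⟩
          simp [mul_assoc]
      rw [hbot, Subgroup.mem_bot, mul_inv_eq_one, mul_inv_eq_iff_eq_mul] at h8
      exact h8
    intro n hn
    rw [Subgroup.mem_center_iff]
    have hle : Kc G X ≤ Subgroup.centralizer {(n : LinearMap.GeneralLinearGroup k M)} := by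
      refine iSup₂_le fun A hA a ha => ?_
      rw [Subgroup.mem_centralizer_iff]
      intro y hy
      rw [Set.mem_singleton_iff.1 hy]
      exact key A hA a ha _ ⟨n, hn, rfl⟩
    intro g
    apply Subtype.ext
    exact (Subgroup.mem_centralizer_iff.1 (hle g.2) _ rfl).symm
  · left
    push Not at hint
    obtain ⟨A, hA, a, ha, haN, ha1⟩ := hint
    exact normal_top hS hc hp hN hA ha ha1 haN

include hk2 hk3 hG in
theorem comp_quasi {X : Subgroup (LinearMap.GeneralLinearGroup k M)} (hX : X ∈ quadraticRootSubgroups G) :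
    IsQuasisimple ↥(Kc G X) :=
  ⟨Group.isPerfect_def.mpr (comp_perfect hk2 hk3 hG hX),
    isSimple_quot (center_ne_top (comp_two hk2 hk3 hG hX) (comp_connected' X)) (fun _ hN => comp_normal hk2 hk3 hG hX hN)⟩

include hk2 hk3 hG in
theorem comp_class {X : Subgroup (LinearMap.GeneralLinearGroup k M)} (hX : X ∈ quadraticRootSubgroups G) :
    IsRootSubgroupClass (subSet (Co G X) (Kc G X)) :=
  ⟨comp_root_set hk2 hk3 hG X, ⟨_, ⟨X, mem_comp_self hX, rfl⟩⟩, fun _ hA _ hB => F_connected_conj (comp_connected' X) hA hB⟩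

end

end Cfsg.Agent.H84.QP
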