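import Mathlib
import Cfsg.Agent.H84.QP12
set_option autoImplicit false
universe u

/-! Quadratic pairs: `SL₂(k)` subgroups. -/

namespace Cfsg.Agent.H84.QP

open Cfsg
open scoped commutatorElement

section sl2
variable {k : Type*} [Field k]

/-- upper unitriangular -/
def uU (x : k) : Matrix.SpecialLinearGroup (Fin 2) k := ⟨!![1, x; 0, 1], by simp [Matrix.det_fin_two_of]⟩

/-- lower unitriangular -/
def lL (x : k) : Matrix.SpecialLinearGroup (Fin 2) k := ⟨!![1, 0; x, 1], by simp [Matrix.det_fin_two_of]⟩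

theorem sl2_gen : upperUnipotentSL2 k ⊔ lowerUnipotentSL2 k = ⊤ := by
  have hu : ∀ x : k, uU x ∈ upperUnipotentSL2 k ⊔ lowerUnipotentSL2 k := by
    intro x
    apply Subgroup.mem_sup_left
    apply Subgroup.subset_closure
    refine ⟨?_, ?_, ?_⟩ <;> simp [uU]
  have hl : ∀ x : k, lL x ∈ upperUnipotentSL2 k ⊔ lowerUnipotentSL2 k := by
    intro x
    apply Subgroup.mem_sup_right
    apply Subgroup.subset_closure
    refine ⟨?_, ?_, ?_⟩ <;> simp [lL]
  have key : ∀ g : Matrix.SpecialLinearGroup (Fin 2) k, (g : Matrix (Fin 2) (Fin 2) k) 1 0 ≠ 0 →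
      g ∈ upperUnipotentSL2 k ⊔ lowerUnipotentSL2 k := by
    intro g hc
    have hdet := g.2
    rw [Matrix.det_fin_two] at hdet
    have e : g = uU (((g : Matrix (Fin 2) (Fin 2) k) 0 0 - 1) / (g : Matrix (Fin 2) (Fin 2) k) 1 0) *
        lL ((g : Matrix (Fin 2) (Fin 2) k) 1 0) *
        uU (((g : Matrix (Fin 2) (Fin 2) k) 1 1 - 1) / (g : Matrix (Fin 2) (Fin 2) k) 1 0) := by
      apply Subtype.ext
      rw [Matrix.SpecialLinearGroup.coe_mul, Matrix.SpecialLinearGroup.coe_mul]
      ext i j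
      fin_cases i <;> fin_cases j
      · simp [Matrix.mul_apply, Fin.sum_univ_two, uU, lL]
        field_simp
        ring
      · simp [Matrix.mul_apply, Fin.sum_univ_two, uU, lL]
        field_simp
        linear_combination -hdet
      · simp [Matrix.mul_apply, Fin.sum_univ_two, uU, lL]
      · simp [Matrix.mul_apply, Fin.sum_univ_two, uU, lL]
        field_simp
        ring
    rw [e]
    exact mul_mem (mul_mem (hu _) (hl _)) (hu _)
  rw [eq_top_iff]
  intro g _
  by_cases hc : (g : Matrix (Fin 2) (Fin 2) k) 1 0 = 0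
  · have h1 := key (lL 1 * g) ?_
    · have h2 := mul_mem (inv_mem (hl 1)) h1
      rwa [inv_mul_cancel_left] at h2
    · have hdet := g.2
      rw [Matrix.det_fin_two, hc] at hdet
      rw [Matrix.SpecialLinearGroup.coe_mul]
      simp [Matrix.mul_apply, Fin.sum_univ_two, hc, lL]
      intro h0
      rw [h0] at hdet
      simp at hdet
  · exact key g hc

end sl2

section phi
variable {k : Type*} [Field k] {M : Type*} [AddCommGroup M] [Module k M]
  {a e : M →ₗ[k] M}

/-- the homomorphism from `SL₂(k)` attached to a dual pair -/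
def phi0 (ha : a * a = 0) (he : e * e = 0) (hae : a * e * a = a) (hea : e * a * e = e) :
    Matrix.SpecialLinearGroup (Fin 2) k →* (M →ₗ[k] M) where
  toFun g := 1 + ((g : Matrix (Fin 2) (Fin 2) k) 0 0 - 1) • (a * e) + ((g : Matrix (Fin 2) (Fin 2) k) 1 1 - 1) • (e * a) +
    (g : Matrix (Fin 2) (Fin 2) k) 0 1 • a + (g : Matrix (Fin 2) (Fin 2) k) 1 0 • e
  map_one' := by simp
  map_mul' := by
    intro g h
    have t1 : a * e * (a * e) = a * e := by rw [← mul_assoc, hae]
    have t2 : a * e * (e * a) = 0 := by rw [mul_assoc, ← mul_assoc e e a, he]; simp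
    have t3 : a * e * e = 0 := by rw [mul_assoc, he, mul_zero]
    have t4 : e * a * (e * a) = e * a := by rw [← mul_assoc, hea]
    have t5 : e * a * (a * e) = 0 := by rw [mul_assoc, ← mul_assoc a a e, ha]; simp
    have t6 : e * a * a = 0 := by rw [mul_assoc, ha, mul_zero]
    have t7 : a * (a * e) = 0 := by rw [← mul_assoc, ha, zero_mul]
    have t8 : e * (e * a) = 0 := by rw [← mul_assoc, he, zero_mul]
    have t9 : a * (e * a) = a := by rw [← mul_assoc, hae]
    have t10 : e * (a * e) = e := by rw [← mul_assoc, hea]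
    simp only [add_mul, mul_add, one_mul, mul_one, mul_smul_comm, smul_mul_assoc, t1, t2, t3, t4, t5, t6, t7, t8, t9, t10, ha, he, hae, hea,
      smul_zero, add_zero, Matrix.SpecialLinearGroup.coe_mul, Matrix.mul_apply, Fin.sum_univ_two]
    module

theorem phi0_apply (ha : a * a = 0) (he : e * e = 0) (hae : a * e * a = a) (hea : e * a * e = e)
    (g : Matrix.SpecialLinearGroup (Fin 2) k) : phi0 ha he hae hea g =
    1 + ((g : Matrix (Fin 2) (Fin 2) k) 0 0 - 1) • (a * e) + ((g : Matrix (Fin 2) (Fin 2) k) 1 1 - 1) • (e * a) +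
    (g : Matrix (Fin 2) (Fin 2) k) 0 1 • a + (g : Matrix (Fin 2) (Fin 2) k) 1 0 • e := rfl

/-- the homomorphism to the linear group -/
def phi (ha : a * a = 0) (he : e * e = 0) (hae : a * e * a = a) (hea : e * a * e = e) :
    Matrix.SpecialLinearGroup (Fin 2) k →* LinearMap.GeneralLinearGroup k M := (phi0 ha he hae hea).toHomUnits

theorem phi_val (ha : a * a = 0) (he : e * e = 0) (hae : a * e * a = a) (hea : e * a * e = e)
    (g : Matrix.SpecialLinearGroup (Fin 2) k) : (phi ha he hae hea g : M →ₗ[k] M) =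
    1 + ((g : Matrix (Fin 2) (Fin 2) k) 0 0 - 1) • (a * e) + ((g : Matrix (Fin 2) (Fin 2) k) 1 1 - 1) • (e * a) +
    (g : Matrix (Fin 2) (Fin 2) k) 0 1 • a + (g : Matrix (Fin 2) (Fin 2) k) 1 0 • e := rfl

theorem phi_ker (ha : a * a = 0) (he : e * e = 0) (hae : a * e * a = a) (hea : e * a * e = e) (ha0 : a ≠ 0) (he0 : e ≠ 0) :
    (phi ha he hae hea).ker = ⊥ := by
  rw [eq_bot_iff]
  intro g hg
  rw [MonoidHom.mem_ker] at hg
  have h1 := congrArg (fun g : LinearMap.GeneralLinearGroup k M => (g : M →ₗ[k] M)) hg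
  simp only [phi_val, Units.val_one] at h1
  have h2 : ((g : Matrix (Fin 2) (Fin 2) k) 0 0 - 1) • (a * e) + ((g : Matrix (Fin 2) (Fin 2) k) 1 1 - 1) • (e * a) +
    (g : Matrix (Fin 2) (Fin 2) k) 0 1 • a + (g : Matrix (Fin 2) (Fin 2) k) 1 0 • e = 0 := by
    have h3 := sub_eq_zero.2 h1
    rw [← h3]; abel
  have t2 : e * a * (a * e) = 0 := by rw [← mul_assoc, mul_assoc e a a, ha]; simp
  have t6 : e * a * a = 0 := by rw [mul_assoc, ha, mul_zero]
  have t3 : a * e * e = 0 := by rw [mul_assoc, he, mul_zero]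
  have k1 := congrArg (fun z => z * a) h2
  have k2 := congrArg (fun z => z * e) h2
  have k3 := congrArg (fun z => a * z * a) h2
  have k4 := congrArg (fun z => e * z * e) h2
  have t7 : a * (a * e) = 0 := by rw [← mul_assoc, ha, zero_mul]
  have t8 : e * (e * a) = 0 := by rw [← mul_assoc, he, zero_mul]
  simp only [add_mul, mul_add, smul_mul_assoc, mul_smul_comm, hae, hea, t6, t3, ha, he, t7, t8, zero_mul, mul_zero, smul_zero, add_zero, zero_add, ← mul_assoc] at k1 k2 k3 k4
  have g10 : (g : Matrix (Fin 2) (Fin 2) k) 1 0 = 0 := by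
    simpa [ha0] using k3
  have g01 : (g : Matrix (Fin 2) (Fin 2) k) 0 1 = 0 := by
    simpa [he0] using k4
  rw [g10, zero_smul, add_zero] at k1
  rw [g01, zero_smul, add_zero] at k2
  have g00 : (g : Matrix (Fin 2) (Fin 2) k) 0 0 = 1 := by
    rcases smul_eq_zero.1 k1 with h | h
    · exact sub_eq_zero.1 h
    · exact absurd h ha0
  have g11 : (g : Matrix (Fin 2) (Fin 2) k) 1 1 = 1 := by
    rcases smul_eq_zero.1 k2 with h | h
    · exact sub_eq_zero.1 h
    · exact absurd h he0
  rw [Subgroup.mem_bot]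
  apply Subtype.ext
  ext i j
  fin_cases i <;> fin_cases j <;> simp [g10, g01, g00, g11]

end phi

section
variable {k : Type u} [Field k] (hk2 : ringChar k ≠ 2) (hk3 : Nat.card k ≠ 3)
    {M : Type u} [AddCommGroup M] [Module k M] [FiniteDimensional k M]
    {G : Subgroup (LinearMap.GeneralLinearGroup k M)} (hG : IsQuadraticPair G)
include hk2 hk3

omit hk2 hk3 in
theorem unip_smul_mem {a : M →ₗ[k] M} (ha : Root G a) (c : k) : unip (c • a) (smul_sq_zero ha.1.1 c) ∈ Es ha := by
  by_cases hc : c = 0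
  · have : unip (c • a) (smul_sq_zero ha.1.1 c) = 1 := Units.ext (by rw [unip_val, hc, zero_smul, add_zero]; rfl)
    rw [this]; exact one_mem _
  · have hcr : LinearMap.range (c • a) = LinearMap.range a := LinearMap.range_smul a c hc
    have hck : LinearMap.ker (c • a) = LinearMap.ker a := LinearMap.ker_smul a c hc
    have h1 : Root G (c • a) := ha.of_rk_le (ha.1.smul c) (smul_ne_zero hc ha.2.1) (by unfold rk; rw [hcr])
    exact unip_mem_same ha h1 hck hcr

include hG in
theorem exists_psl2 {A B : Subgroup (LinearMap.GeneralLinearGroup k M)} (hA : A ∈ quadraticRootSubgroups G)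
    (hB : B ∈ quadraticRootSubgroups G) (h : IsRankOnePair A B) :
    ∃ A₀ B₀ : Subgroup (LinearMap.GeneralLinearGroup k M), A₀ ≤ A ∧ B₀ ≤ B ∧ IsPSL2PairOver k A₀ B₀ := by
  obtain ⟨a, ha, rfl⟩ := exists_root hA
  obtain ⟨b, hb, rfl⟩ := exists_root hB
  have h1 := (r1_iff hk2 hk3 hG ha hb).1 h
  obtain ⟨e, he, ho⟩ := (good hk2 hk3 hG).exists_opp ha hb h1
  have hE : Es he ≤ Es hb := by
    have := same_eq hb he ho.ker_eq ho.range_eq
    exact this.le
  refine ⟨(upperUnipotentSL2 k).map (phi ha.1.1 he.1.1 ho.aba ho.bab), (lowerUnipotentSL2 k).map (phi ha.1.1 he.1.1 ho.aba ho.bab), ?_, ?_,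
    phi ha.1.1 he.1.1 ho.aba ho.bab, ?_, ?_, rfl, rfl⟩
  · rw [Subgroup.map_le_iff_le_comap]
    unfold upperUnipotentSL2
    rw [Subgroup.closure_le]
    rintro g ⟨h1, h2, h3⟩
    have h5 : phi ha.1.1 he.1.1 ho.aba ho.bab g = unip ((g : Matrix (Fin 2) (Fin 2) k) 0 1 • a) (smul_sq_zero ha.1.1 _) := by
      apply Units.ext
      rw [phi_val, unip_val, h1, h2, h3]; simp
    rw [SetLike.mem_coe, Subgroup.mem_comap, h5]
    exact unip_smul_mem ha _
  · rw [Subgroup.map_le_iff_le_comap]
    unfold lowerUnipotentSL2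
    rw [Subgroup.closure_le]
    rintro g ⟨h1, h2, h3⟩
    have h5 : phi ha.1.1 he.1.1 ho.aba ho.bab g = unip ((g : Matrix (Fin 2) (Fin 2) k) 1 0 • e) (smul_sq_zero he.1.1 _) := by
      apply Units.ext
      rw [phi_val, unip_val, h1, h2, h3]; simp
    rw [SetLike.mem_coe, Subgroup.mem_comap, h5]
    exact hE (unip_smul_mem he _)
  · rw [← Subgroup.map_sup, sl2_gen, MonoidHom.range_eq_map]
  · rw [phi_ker _ _ _ _ ha.2.1 he.2.1]; exact bot_le

end

end Cfsg.Agent.H84.QP
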