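import Mathlib
import Cfsg.Agent.H84.QP13
set_option autoImplicit false
universe u

/-! Quadratic pairs: the decomposition of the set of root subgroups. -/

namespace Cfsg.Agent.H84.QP

open Cfsg
open scoped commutatorElement

section
variable {k : Type u} [Field k] (hk2 : ringChar k ≠ 2) (hk3 : Nat.card k ≠ 3)
    {M : Type u} [AddCommGroup M] [Module k M] [FiniteDimensional k M]
    {G : Subgroup (LinearMap.GeneralLinearGroup k M)} (hG : IsQuadraticPair G)
include hk2 hk3 hG

theorem root_comm_of_comp {a b : M →ₗ[k] M} (ha : Root G a) (hb : Root G b) {X Y : Subgroup (LinearMap.GeneralLinearGroup k M)}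
    (h1 : Es ha ∈ Co G X) (h2 : Es hb ∈ Co G Y) (h : Co G X ≠ Co G Y) : a * b = b * a := by
  have h3 : Com (Es ha) (Es hb) := com_iff.mp (comp_comm hk2 hk3 hG h1 h2 h)
  have h4 := h3 _ (self_mem_same ha) _ (self_mem_same hb)
  exact (Root.comm_iff_unip hb.1.1 ha.1.1).1 h4

/-- the set of components is finite -/
theorem comps_finite : Finite {P : Set (Subgroup (LinearMap.GeneralLinearGroup k M)) // ∃ A ∈ quadraticRootSubgroups G, P = Co G A} := by
  have h1 : ∀ P : {P : Set (Subgroup (LinearMap.GeneralLinearGroup k M)) // ∃ A ∈ quadraticRootSubgroups G, P = Co G A},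
      ∃ (a e : M →ₗ[k] M) (ha : Root G a) (he : Root G e), P.1 = Co G (Es ha) ∧ Es ha ∈ P.1 ∧ Es he ∈ P.1 ∧ a * e * a = a := by
    rintro ⟨P, A, hA, rfl⟩
    obtain ⟨a, ha, rfl⟩ := exists_root hA
    obtain ⟨e, he, h1, h2⟩ := (good hk2 hk3 hG).exists_dual ha
    refine ⟨a, e, ha, he, rfl, mem_comp_self hA, ?_, h1⟩
    have h3 : IsRankOnePair (Es ha) (Es he) := (r1_iff hk2 hk3 hG ha he).2 (by rw [h1]; exact ha.2.1)
    exact ⟨same_mem_root he, .single ⟨hA, same_mem_root he, h3⟩⟩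
  choose a e ha he hP haP heP hae using h1
  have hli : LinearIndependent k a := by
    rw [linearIndependent_iff']
    intro s g hs i hi
    have h2 : ∀ j, j ≠ i → a j * e i = e i * a j := by
      intro j hj
      apply root_comm_of_comp hk2 hk3 hG (ha j) (he i) (X := Es (ha j)) (Y := Es (ha i))
      · rw [← hP j]; exact haP j
      · rw [← hP i]; exact heP i
      · rw [← hP j, ← hP i]; exact fun h => hj (Subtype.ext h)
    have h3 := congrArg (fun z => z * e i - e i * z) hs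
    simp only [Finset.sum_mul, Finset.mul_sum, zero_mul, mul_zero, sub_zero, ← Finset.sum_sub_distrib,
      smul_mul_assoc, mul_smul_comm, ← smul_sub] at h3
    rw [Finset.sum_eq_single i (fun j _ hj => by rw [h2 j hj, sub_self, smul_zero]) (fun h => absurd hi h)] at h3
    rcases smul_eq_zero.1 h3 with h | h
    · exact h
    · exfalso
      rw [sub_eq_zero] at h
      apply (ha i).2.1
      rw [← hae i, h, mul_assoc, (ha i).1.1, mul_zero]
  exact hli.finite

theorem S5069_main :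
    ∃ (r : ℕ) (part : Fin r → Set (Subgroup (LinearMap.GeneralLinearGroup k M))),
      (⋃ i, part i) = Cfsg.quadraticRootSubgroups G ∧ (∀ i j, i ≠ j → Disjoint (part i) (part j)) ∧ (∀ i, (part i).Nonempty) ∧
      (∀ i j, i ≠ j → ⁅(⨆ A ∈ part i, A), (⨆ A ∈ part j, A)⁆ = ⊥) ∧
      (∀ i, Cfsg.IsQuasisimple ↥(⨆ A ∈ part i, A) ∧
        Cfsg.IsRootSubgroupClass ((fun A : Subgroup (LinearMap.GeneralLinearGroup k M) => A.subgroupOf (⨆ B ∈ part i, B)) '' (part i)) ∧
        ∀ A ∈ part i, ∀ B ∈ Cfsg.rankOnePartners (part i) A, ∃ A₀ B₀ : Subgroup (LinearMap.GeneralLinearGroup k M), A₀ ≤ A ∧ B₀ ≤ B ∧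
          ∃ (k₁ : Type u) (_ : Field k₁), 3 < ENat.card k₁ ∧ Cfsg.IsPSL2PairOver k₁ A₀ B₀) := by
  have hfin := comps_finite hk2 hk3 hG
  obtain ⟨r, ⟨f⟩⟩ := Finite.exists_equiv_fin {P : Set (Subgroup (LinearMap.GeneralLinearGroup k M)) // ∃ A ∈ quadraticRootSubgroups G, P = Co G A}
  refine ⟨r, fun i => (f.symm i).1, ?_, ?_, ?_, ?_, ?_⟩
  · ext A
    simp only [Set.mem_iUnion]
    constructor
    · rintro ⟨i, hi⟩
      obtain ⟨B, hB, h⟩ := (f.symm i).2
      rw [h] at hi
      exact hi.1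
    · intro hA
      refine ⟨f ⟨Co G A, A, hA, rfl⟩, ?_⟩
      rw [Equiv.symm_apply_apply]
      exact mem_comp_self hA
  · intro i j hij
    rw [Set.disjoint_left]
    intro A h1 h2
    apply hij
    apply f.symm.injective
    apply Subtype.ext
    obtain ⟨B, hB, h3⟩ := (f.symm i).2
    obtain ⟨C, hC, h4⟩ := (f.symm j).2
    beta_reduce at h1 h2
    rw [h3] at h1 ⊢
    rw [h4] at h2 ⊢
    exact (comp_eq h1).symm.trans (comp_eq h2)
  · intro i
    obtain ⟨B, hB, h3⟩ := (f.symm i).2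
    beta_reduce
    rw [h3]
    exact ⟨B, mem_comp_self hB⟩
  · intro i j hij
    obtain ⟨B, hB, h3⟩ := (f.symm i).2
    obtain ⟨C, hC, h4⟩ := (f.symm j).2
    have hne : Co G B ≠ Co G C := by
      rw [← h3, ← h4]
      exact fun h => hij (f.symm.injective (Subtype.ext h))
    beta_reduce
    rw [h3, h4]
    rw [Subgroup.commutator_eq_bot_iff_le_centralizer]
    refine iSup₂_le fun A hA => ?_
    have h5 : (⨆ A ∈ Co G C, A) ≤ Subgroup.centralizer (A : Set _) := by
      refine iSup₂_le fun D hD => ?_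
      have := com_iff.mp (comp_comm hk2 hk3 hG hA hD hne)
      intro d hd
      rw [Subgroup.mem_centralizer_iff]
      intro a ha
      exact this a ha d hd
    intro a ha
    rw [Subgroup.mem_centralizer_iff]
    intro d hd
    exact (Subgroup.mem_centralizer_iff.1 (h5 hd) a ha).symm
  · intro i
    obtain ⟨B, hB, h3⟩ := (f.symm i).2
    beta_reduce
    rw [h3]
    refine ⟨comp_quasi hk2 hk3 hG hB, comp_class hk2 hk3 hG hB, ?_⟩
    rintro A hA D ⟨hD, hr⟩
    obtain ⟨A₀, B₀, h5, h6, h7⟩ := exists_psl2 hk2 hk3 hG hA.1 hD.1 hr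
    exact ⟨A₀, B₀, h5, h6, k, inferInstance, three_lt_field hk2 hk3, h7⟩

end

end Cfsg.Agent.H84.QP
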