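import Mathlib
import Cfsg.Agent.H84.QP14
set_option autoImplicit false
universe u

/-! Quadratic pairs: each quadratic element is in a component or centralizes all root subgroups. -/

namespace Cfsg.Agent.H84.QP

open Cfsg
open scoped commutatorElement

section
variable {k : Type*} [Field k] {M : Type*} [AddCommGroup M] [Module k M]
    {G : Subgroup (LinearMap.GeneralLinearGroup k M)}

/-- zero products of endomorphisms attached to commuting factors -/
theorem zero_prod (hirr : IsIrreducibleFor G) {K R : Subgroup (LinearMap.GeneralLinearGroup k M)} (hKR : G ≤ K ⊔ R)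
    {x y : M →ₗ[k] M} (hx0 : x ≠ 0) (hcomm : ∀ g ∈ K, ∀ r ∈ R, g * r = r * g)
    (hx : ∀ r ∈ R, x * (r : M →ₗ[k] M) = (r : M →ₗ[k] M) * x) (hy : ∀ g ∈ K, y * (g : M →ₗ[k] M) = (g : M →ₗ[k] M) * y)
    (hxy : x * y = 0) : y = 0 := by
  let W : Submodule k M :=
    { carrier := {m | ∀ g ∈ K, x ((g : M →ₗ[k] M) m) = 0}
      add_mem' := by
        intro a b ha hb g hg
        rw [map_add, map_add, ha g hg, hb g hg, add_zero]
      zero_mem' := by intro g hg; simp
      smul_mem' := by
        intro c a ha g hg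
        rw [map_smul, map_smul, ha g hg, smul_zero] }
  have hKW : ∀ g ∈ K, ∀ w ∈ W, (g : M →ₗ[k] M) w ∈ W := by
    intro g hg w hw h hh
    have := hw (h * g) (mul_mem hh hg)
    exact this
  have hRW : ∀ r ∈ R, ∀ w ∈ W, (r : M →ₗ[k] M) w ∈ W := by
    intro r hr w hw g hg
    have e1 : (g : M →ₗ[k] M) ((r : M →ₗ[k] M) w) = (r : M →ₗ[k] M) ((g : M →ₗ[k] M) w) := by
      have := congrArg (fun z : LinearMap.GeneralLinearGroup k M => (z : M →ₗ[k] M) w) (hcomm g hg r hr)
      exact this
    have e2 : x ((r : M →ₗ[k] M) ((g : M →ₗ[k] M) w)) = (r : M →ₗ[k] M) (x ((g : M →ₗ[k] M) w)) := by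
      have := congrArg (fun z : M →ₗ[k] M => z ((g : M →ₗ[k] M) w)) (hx r hr)
      exact this
    rw [e1, e2, hw g hg, map_zero]
  have hGW : ∀ g ∈ G, ∀ w ∈ W, (g : M →ₗ[k] M) w ∈ W := by
    intro g hg
    have hg' := hKR hg
    let St : Subgroup (LinearMap.GeneralLinearGroup k M) :=
      { carrier := {g | (∀ w ∈ W, (g : M →ₗ[k] M) w ∈ W) ∧ (∀ w ∈ W, ((g⁻¹ : LinearMap.GeneralLinearGroup k M) : M →ₗ[k] M) w ∈ W)}
        mul_mem' := by
          rintro a b ⟨ha, ha'⟩ ⟨hb, hb'⟩
          refine ⟨fun w hw => ha _ (hb w hw), fun w hw => ?_⟩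
          rw [mul_inv_rev]
          exact hb' _ (ha' w hw)
        one_mem' := by
          refine ⟨fun w hw => hw, fun w hw => ?_⟩
          rw [inv_one]; exact hw
        inv_mem' := by
          rintro a ⟨ha, ha'⟩
          refine ⟨ha', ?_⟩
          rw [inv_inv]; exact ha }
    have h1 : K ⊔ R ≤ St := sup_le (fun g hg => ⟨hKW g hg, hKW _ (inv_mem hg)⟩) (fun g hg => ⟨hRW g hg, hRW _ (inv_mem hg)⟩)
    exact (h1 hg').1
  rcases hirr.2 W hGW with h | h
  · ext m
    have : y m ∈ W := by
      intro g hg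
      have e1 : (g : M →ₗ[k] M) (y m) = y ((g : M →ₗ[k] M) m) := by
        have := congrArg (fun z : M →ₗ[k] M => z m) (hy g hg)
        exact this.symm
      rw [e1]
      have := congrArg (fun z : M →ₗ[k] M => z ((g : M →ₗ[k] M) m)) hxy
      exact this
    rw [h, Submodule.mem_bot] at this
    rw [this]; rfl
  · exfalso
    apply hx0
    ext m
    have : m ∈ W := by rw [h]; exact Submodule.mem_top
    exact this 1 (one_mem _)

/-- the subgroup generated by the families commuting with all roots -/
def Cc (G : Subgroup (LinearMap.GeneralLinearGroup k M)) : Subgroup (LinearMap.GeneralLinearGroup k M) :=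
  Subgroup.closure {σ | σ ∈ quadraticElements G ∧ ∀ a, Root G a → ((σ : M →ₗ[k] M) - 1) * a = a * ((σ : M →ₗ[k] M) - 1)}

theorem Cc_le : Cc G ≤ G := by
  unfold Cc
  rw [Subgroup.closure_le]
  intro σ hσ
  exact hσ.1.1

theorem Cc_le_centralizer : Cc G ≤ Subgroup.centralizer (G0 G : Set _) := by
  unfold Cc
  rw [Subgroup.closure_le]
  rintro σ ⟨-, h⟩
  apply mem_centralizer_G0
  intro a ha
  have := h a ha
  rw [sub_mul, mul_sub, one_mul, mul_one] at this
  exact sub_left_inj.1 this

end

section
variable {k : Type u} [Field k] (hk2 : ringChar k ≠ 2) (hk3 : Nat.card k ≠ 3)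
    {M : Type u} [AddCommGroup M] [Module k M] [FiniteDimensional k M]
    {G : Subgroup (LinearMap.GeneralLinearGroup k M)} (hG : IsQuadraticPair G)
include hk2 hk3 hG

theorem G0_le_sup (X : Subgroup (LinearMap.GeneralLinearGroup k M)) :
    G0 G ≤ Kc G X ⊔ Subgroup.centralizer (Kc G X : Set _) := by
  unfold G0
  refine iSup₂_le fun A hA => ?_
  by_cases h : Co G A = Co G X
  · have h1 : A ∈ Co G X := by rw [← h]; exact mem_comp_self hA
    exact (comp_sub_le A h1).trans le_sup_left
  · refine le_trans ?_ le_sup_right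
    have h5 : Kc G X ≤ Subgroup.centralizer (A : Set _) := by
      refine iSup₂_le fun D hD => ?_
      have := com_iff.mp (comp_comm hk2 hk3 hG (mem_comp_self hA) hD h)
      intro d hd
      rw [Subgroup.mem_centralizer_iff]
      intro a ha
      exact this a ha d hd
    intro a ha
    rw [Subgroup.mem_centralizer_iff]
    intro d hd
    exact (Subgroup.mem_centralizer_iff.1 (h5 hd) a ha).symm

theorem G_le_sup (X : Subgroup (LinearMap.GeneralLinearGroup k M)) :
    G ≤ Kc G X ⊔ Subgroup.centralizer (Kc G X : Set _) := by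
  obtain ⟨s, hs0, hs⟩ := exists_elt hk2 hk3
  have h1 := G_eq_sup (good hk2 hk3 hG) (two_ne_zero_of hk2) hs0 hs hG.2
  conv_lhs => rw [← h1]
  refine sup_le (G0_le_sup hk2 hk3 hG X) ?_
  refine le_trans inf_le_right (le_trans ?_ le_sup_right)
  exact Subgroup.centralizer_le (fun x hx => Kc_le_G0 hx)

/-- an endomorphism killed by a root and commuting with the component of the root is zero -/
theorem zero_of_root {a y : M →ₗ[k] M} (ha : Root G a) (hy : ∀ g ∈ Kc G (Es ha), y * (g : M →ₗ[k] M) = (g : M →ₗ[k] M) * y)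
    (h : a * y = 0) : y = 0 := by
  refine zero_prod hG.1 (G_le_sup hk2 hk3 hG (Es ha)) ha.2.1 ?_ ?_ hy h
  · intro g hg r hr
    exact Subgroup.mem_centralizer_iff.1 hr g hg
  · intro r hr
    have h1 : unip a ha.1.1 ∈ Kc G (Es ha) := comp_sub_le _ (mem_comp_self (same_mem_root ha)) (self_mem_same ha)
    have h2 := Subgroup.mem_centralizer_iff.1 hr _ h1
    have h3 := congrArg (fun z : LinearMap.GeneralLinearGroup k M => (z : M →ₗ[k] M)) h2
    simp only [Units.val_mul, unip_val, add_mul, mul_add, one_mul, mul_one, add_right_inj] at h3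
    exact h3

/-- each family lies in a component or commutes with all roots -/
theorem fam_dich : ∀ (n : ℕ) (x : M →ₗ[k] M) (hx : Fam G x), rk x ≤ n →
    (∀ a, Root G a → x * a = a * x) ∨ ∃ X ∈ quadraticRootSubgroups G, unip x hx.1 ∈ Kc G X := by
  obtain ⟨s, hs0, hs⟩ := exists_elt hk2 hk3
  intro n
  induction n with
  | zero =>
    intro x hx hr
    have : x = 0 := by
      have h1 : LinearMap.range x = ⊥ := Submodule.finrank_eq_zero.1 (Nat.le_zero.1 hr)
      exact LinearMap.range_eq_bot.1 h1
    left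
    intro a ha
    rw [this, zero_mul, mul_zero]
  | succ n ih =>
    intro x hx hr
    rcases central_or_split (good hk2 hk3 hG) (two_ne_zero_of hk2) hs0 hs hx with h | ⟨x', hx', p1, p2, hf, hlt⟩
    · exact Or.inl h
    right
    have q1 : x' * (x - x') = 0 := by rw [mul_sub, p2, hx'.1.1, sub_zero]
    have key : (∀ g ∈ Kc G (Es hx'), (x - x') * (g : M →ₗ[k] M) = (g : M →ₗ[k] M) * (x - x')) →
        unip x hx.1 ∈ Kc G (Es hx') := by
      intro hy
      have h0 := zero_of_root hk2 hk3 hG hx' hy q1
      have h1 : unip x hx.1 = unip x' hx'.1.1 := by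
        apply Units.ext
        rw [unip_val, unip_val, sub_eq_zero.1 h0]
      rw [h1]
      exact comp_sub_le _ (mem_comp_self (same_mem_root hx')) (self_mem_same hx')
    have hcomm : ∀ {y : M →ₗ[k] M} (hy : y * y = 0) {K : Subgroup (LinearMap.GeneralLinearGroup k M)},
        unip y hy ∈ Subgroup.centralizer (K : Set _) → ∀ g ∈ K, y * (g : M →ₗ[k] M) = (g : M →ₗ[k] M) * y := by
      intro y hy K hK g hg
      have h2 := Subgroup.mem_centralizer_iff.1 hK _ hg
      have h3 := congrArg (fun z : LinearMap.GeneralLinearGroup k M => (z : M →ₗ[k] M)) h2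
      simp only [Units.val_mul, unip_val, add_mul, mul_add, one_mul, mul_one, add_right_inj] at h3
      exact h3.symm
    rcases ih (x - x') hf (by omega) with h | ⟨Y, hY, hYx⟩
    · refine ⟨_, same_mem_root hx', key (hcomm hf.1 ?_)⟩
      have h1 : unip (x - x') hf.1 ∈ Subgroup.centralizer (G0 G : Set _) := by
        apply mem_centralizer_G0
        intro a ha
        rw [unip_val, add_mul, mul_add, one_mul, mul_one, h a ha]
      exact Subgroup.centralizer_le (fun x hx => Kc_le_G0 hx) h1
    · by_cases hXY : Co G (Es hx') = Co G Y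
      · refine ⟨Y, hY, ?_⟩
        have h1 : unip x hx.1 = unip x' hx'.1.1 * unip (x - x') hf.1 := by
          apply Units.ext
          rw [Units.val_mul, unip_val, unip_val, unip_val]
          have : (1 + x') * (1 + (x - x')) = 1 + x + x' * (x - x') := by noncomm_ring
          rw [this, q1]; simp
        rw [h1]
        refine mul_mem ?_ hYx
        have h2 : Es hx' ∈ Co G Y := by rw [← hXY]; exact mem_comp_self (same_mem_root hx')
        exact comp_sub_le _ h2 (self_mem_same hx')
      · refine ⟨_, same_mem_root hx', key (hcomm hf.1 ?_)⟩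
        have h5 : Kc G Y ≤ Subgroup.centralizer (Kc G (Es hx') : Set _) := by
          refine iSup₂_le fun A hA => ?_
          have h6 : Kc G (Es hx') ≤ Subgroup.centralizer (A : Set _) := by
            refine iSup₂_le fun D hD => ?_
            have := com_iff.mp (comp_comm hk2 hk3 hG hA hD (Ne.symm hXY))
            intro d hd
            rw [Subgroup.mem_centralizer_iff]
            intro a ha
            exact this a ha d hd
          intro a ha
          rw [Subgroup.mem_centralizer_iff]
          intro d hd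
          exact (Subgroup.mem_centralizer_iff.1 (h6 hd) a ha).symm
        exact h5 hYx

theorem quad_dich {σ : LinearMap.GeneralLinearGroup k M} (hσ : σ ∈ quadraticElements G) :
    σ ∈ Cc G ∨ ∃ X ∈ quadraticRootSubgroups G, σ ∈ Kc G X := by
  obtain ⟨h1, h3⟩ := mem_quadraticElements_iff.1 hσ
  have h4 : σ = unip _ h1.1 := eq_unip _ rfl
  rcases fam_dich hk2 hk3 hG _ _ h1 le_rfl with h | ⟨X, hX, h⟩
  · left
    exact Subgroup.subset_closure ⟨hσ, h⟩
  · right
    exact ⟨X, hX, by rw [h4]; exact h⟩

theorem G_eq : G0 G ⊔ Cc G = G := by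
  apply le_antisymm (sup_le G0_le Cc_le)
  conv_lhs => rw [← hG.2]
  rw [Subgroup.closure_le]
  intro σ hσ
  rcases quad_dich hk2 hk3 hG hσ with h | ⟨X, hX, h⟩
  · exact Subgroup.mem_sup_right h
  · exact Subgroup.mem_sup_left (Kc_le_G0 h)

end

end Cfsg.Agent.H84.QP
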