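import Mathlib
import Cfsg.Agent.H84.QP15
set_option autoImplicit false
universe u

/-! Restriction of a linear group to an invariant subspace. -/

namespace Cfsg.Agent.H84.QP

open Cfsg
open scoped commutatorElement

section res
variable {k : Type*} [Field k] {M : Type*} [AddCommGroup M] [Module k M]
    {C : Subgroup (LinearMap.GeneralLinearGroup k M)} {W : Submodule k M}

/-- restriction of a group to an invariant subspace, as endomorphisms -/
def res0 (hW : Inv C W) : ↥C →* (↥W →ₗ[k] ↥W) where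
  toFun g := ((g : LinearMap.GeneralLinearGroup k M) : M →ₗ[k] M).restrict (fun w hw => hW g g.2 w hw)
  map_one' := by ext; rfl
  map_mul' _ _ := by ext; rfl

/-- restriction of a group to an invariant subspace -/
def res (hW : Inv C W) : ↥C →* LinearMap.GeneralLinearGroup k ↥W := (res0 hW).toHomUnits

theorem res_apply (hW : Inv C W) (g : ↥C) (w : ↥W) :
    (((res hW g : LinearMap.GeneralLinearGroup k ↥W) : ↥W →ₗ[k] ↥W) w : M) =
      ((g : LinearMap.GeneralLinearGroup k M) : M →ₗ[k] M) w := rfl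

theorem res_irr (hW : Irr C W) : IsIrreducibleFor (res hW.1).range := by
  constructor
  · obtain ⟨w, hw, hw0⟩ := (Submodule.ne_bot_iff _).1 hW.2.1
    exact ⟨⟨w, hw⟩, fun h => hw0 (congrArg Subtype.val h)⟩
  · intro V hV
    have h1 : Inv C (V.map W.subtype) := by
      rintro g hg _ ⟨v, hv, rfl⟩
      exact ⟨_, hV (res hW.1 ⟨g, hg⟩) ⟨_, rfl⟩ v hv, rfl⟩
    rcases hW.2.2 _ (Submodule.map_subtype_le W V) h1 with h | h
    · left
      rw [eq_bot_iff]
      intro v hv
      have h2 : (v : M) ∈ V.map W.subtype := ⟨v, hv, rfl⟩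
      rw [h, Submodule.mem_bot] at h2
      exact Subtype.ext h2
    · right
      rw [eq_top_iff]
      intro w _
      have : (w : M) ∈ V.map W.subtype := by rw [h]; exact w.2
      obtain ⟨v, hv, hvw⟩ := this
      have : v = w := Subtype.ext hvw
      rw [← this]; exact hv

end res

section
variable {k : Type*} [Field k] {M : Type*} [AddCommGroup M] [Module k M]
    {G A C : Subgroup (LinearMap.GeneralLinearGroup k M)} {W : Submodule k M}

/-- homogeneity: an endomorphism commuting with `A` and vanishing on a `C`-subspace is zero -/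
theorem hom_zero (hirr : IsIrreducibleFor G) (hG : G ≤ A ⊔ C) (hAC : ∀ g ∈ A, ∀ r ∈ C, g * r = r * g)
    (hW : Inv C W) (hW0 : W ≠ ⊥) {f : M →ₗ[k] M} (hf : ∀ g ∈ A, f * (g : M →ₗ[k] M) = (g : M →ₗ[k] M) * f)
    (h0 : ∀ w ∈ W, f w = 0) : f = 0 := by
  let V : Submodule k M := ⨆ g : A, W.map ((g : LinearMap.GeneralLinearGroup k M) : M →ₗ[k] M)
  have hAV : ∀ g ∈ A, V ≤ V.comap (g : M →ₗ[k] M) := by
    intro g hg
    refine iSup_le fun h => ?_
    rintro _ ⟨w, hw, rfl⟩
    exact Submodule.mem_iSup_of_mem (⟨g, hg⟩ * h) ⟨w, hw, rfl⟩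
  have hCV : ∀ g ∈ C, V ≤ V.comap (g : M →ₗ[k] M) := by
    intro g hg
    refine iSup_le fun h => ?_
    rintro _ ⟨w, hw, rfl⟩
    refine Submodule.mem_iSup_of_mem h ⟨(g : M →ₗ[k] M) w, hW g hg w hw, ?_⟩
    have := congrArg (fun z : LinearMap.GeneralLinearGroup k M => (z : M →ₗ[k] M) w) (hAC h h.2 g hg)
    exact this
  let St : Subgroup (LinearMap.GeneralLinearGroup k M) :=
    { carrier := {g | V ≤ V.comap (g : M →ₗ[k] M) ∧ V ≤ V.comap ((g⁻¹ : LinearMap.GeneralLinearGroup k M) : M →ₗ[k] M)}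
      mul_mem' := by
        rintro a b ⟨ha, ha'⟩ ⟨hb, hb'⟩
        refine ⟨fun w hw => ha (hb hw), fun w hw => ?_⟩
        rw [mul_inv_rev]
        exact hb' (ha' hw)
      one_mem' := by
        refine ⟨fun w hw => hw, fun w hw => ?_⟩
        rw [inv_one]; exact hw
      inv_mem' := by
        rintro a ⟨ha, ha'⟩
        refine ⟨ha', ?_⟩
        rw [inv_inv]; exact ha }
  have h1 : A ⊔ C ≤ St := sup_le (fun g hg => ⟨hAV g hg, hAV _ (inv_mem hg)⟩) (fun g hg => ⟨hCV g hg, hCV _ (inv_mem hg)⟩)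
  have hVtop : V = ⊤ := by
    rcases hirr.2 V (fun g hg w hw => (h1 (hG hg)).1 hw) with h | h
    · exfalso
      apply hW0
      rw [eq_bot_iff, ← h]
      intro w hw
      exact Submodule.mem_iSup_of_mem (1 : A) ⟨w, hw, rfl⟩
    · exact h
  have hker : V ≤ LinearMap.ker f := by
    refine iSup_le fun h => ?_
    rintro _ ⟨w, hw, rfl⟩
    rw [LinearMap.mem_ker]
    have := congrArg (fun z : M →ₗ[k] M => z w) (hf h h.2)
    change f (((h : LinearMap.GeneralLinearGroup k M) : M →ₗ[k] M) w) = ((h : LinearMap.GeneralLinearGroup k M) : M →ₗ[k] M) (f w) at this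
    rw [this, h0 w hw, map_zero]
  rw [hVtop, top_le_iff] at hker
  exact LinearMap.ker_eq_top.1 hker

theorem comm_end (hAC : ∀ g ∈ A, ∀ r ∈ C, g * r = r * g) {g : LinearMap.GeneralLinearGroup k M} (hg : g ∈ C) :
    ∀ h ∈ A, ((g : M →ₗ[k] M) - 1) * (h : M →ₗ[k] M) = (h : M →ₗ[k] M) * ((g : M →ₗ[k] M) - 1) := by
  intro h hh
  have := congrArg (fun z : LinearMap.GeneralLinearGroup k M => (z : M →ₗ[k] M)) (hAC h hh g hg)
  simp only [Units.val_mul] at this
  rw [sub_mul, mul_sub, this, one_mul, mul_one]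

section
variable (hirr : IsIrreducibleFor G) (hG : G ≤ A ⊔ C) (hAC : ∀ g ∈ A, ∀ r ∈ C, g * r = r * g)
    (hW : Inv C W) (hW0 : W ≠ ⊥)
include hirr hG hAC hW0

theorem res_inj : Function.Injective (res hW) := by
  rw [injective_iff_map_eq_one]
  rintro ⟨g, hg⟩ h
  have h1 : (g : M →ₗ[k] M) - 1 = 0 := by
    refine hom_zero hirr hG hAC hW hW0 (comm_end hAC hg) ?_
    intro w hw
    have h2 := congrArg (fun z : LinearMap.GeneralLinearGroup k ↥W => (((z : ↥W →ₗ[k] ↥W) ⟨w, hw⟩ : ↥W) : M)) h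
    rw [LinearMap.sub_apply, sub_eq_zero]
    exact h2
  apply Subtype.ext
  apply Units.ext
  exact sub_eq_zero.1 h1

/-- a quadratic element restricts to a quadratic element and conversely -/
theorem res_quad {g : ↥C} : res hW g ∈ quadraticElements (res hW).range ↔
    (g : LinearMap.GeneralLinearGroup k M) ∈ quadraticElements C := by
  rw [mem_quadraticElements_iff, mem_quadraticElements_iff]
  have hcomm := comm_end hAC g.2
  have hval : ∀ w : ↥W, ((((res hW g : LinearMap.GeneralLinearGroup k ↥W) : ↥W →ₗ[k] ↥W) - 1) w : M) =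
      (((g : LinearMap.GeneralLinearGroup k M) : M →ₗ[k] M) - 1) w := fun w => rfl
  constructor
  · rintro ⟨⟨h1, h2⟩, h3⟩
    refine ⟨⟨?_, fun c => ?_⟩, fun h0 => h3 ?_⟩
    · refine hom_zero hirr hG hAC hW hW0 ?_ ?_
      · intro h hh
        rw [mul_assoc, hcomm h hh, ← mul_assoc, hcomm h hh, mul_assoc]
      · intro w hw
        have := congrArg (fun z : ↥W →ₗ[k] ↥W => ((z ⟨w, hw⟩ : ↥W) : M)) h1
        exact this
    · obtain ⟨_, ⟨t, rfl⟩, ht⟩ := h2 c
      refine ⟨t, t.2, ?_⟩
      have h5 : (((t : LinearMap.GeneralLinearGroup k M) : M →ₗ[k] M) - 1) - c • (((g : LinearMap.GeneralLinearGroup k M) : M →ₗ[k] M) - 1) = 0 := by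
        refine hom_zero hirr hG hAC hW hW0 ?_ ?_
        · intro h hh
          have h6 := comm_end hAC t.2 h hh
          rw [sub_mul _ (c • _), mul_sub _ _ (c • _), h6, smul_mul_assoc, mul_smul_comm, hcomm h hh]
        · intro w hw
          have h7 := congrArg (fun z : ↥W →ₗ[k] ↥W => ((z ⟨w, hw⟩ : ↥W) : M)) ht
          change ((t : LinearMap.GeneralLinearGroup k M) : M →ₗ[k] M) w = w + c • (((g : LinearMap.GeneralLinearGroup k M) : M →ₗ[k] M) w - w) at h7
          change (((t : LinearMap.GeneralLinearGroup k M) : M →ₗ[k] M) w - w) - c • (((g : LinearMap.GeneralLinearGroup k M) : M →ₗ[k] M) w - w) = 0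
          rw [h7]; abel
      have h8 := sub_eq_zero.1 h5
      rw [sub_eq_iff_eq_add] at h8
      rw [h8]; abel
    · ext w
      rw [hval, h0]; rfl
  · rintro ⟨⟨h1, h2⟩, h3⟩
    refine ⟨⟨?_, fun c => ?_⟩, fun h0 => h3 ?_⟩
    · ext w
      have := congrArg (fun z : M →ₗ[k] M => z w) h1
      exact this
    · obtain ⟨t, ht, ht'⟩ := h2 c
      refine ⟨res hW ⟨t, ht⟩, ⟨_, rfl⟩, ?_⟩
      ext w
      have := congrArg (fun z : M →ₗ[k] M => z w) ht'
      exact this
    · refine hom_zero hirr hG hAC hW hW0 hcomm ?_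
      intro w hw
      have := congrArg (fun z : ↥W →ₗ[k] ↥W => ((z ⟨w, hw⟩ : ↥W) : M)) h0
      exact this

theorem res_pair (hWi : Irr C W) (hgen : Subgroup.closure (quadraticElements C) = C) :
    IsQuadraticPair (res hWi.1).range := by
  refine ⟨res_irr hWi, le_antisymm ?_ ?_⟩
  · rw [Subgroup.closure_le]
    intro σ hσ
    exact hσ.1
  · rintro _ ⟨⟨g, hg⟩, rfl⟩
    have key : ∀ g (hg : g ∈ Subgroup.closure (quadraticElements C)), ∀ h : g ∈ C,
        res hWi.1 ⟨g, h⟩ ∈ Subgroup.closure (quadraticElements (res hWi.1).range) := by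
      intro g hg
      induction hg using Subgroup.closure_induction with
      | mem x hx =>
        intro h
        apply Subgroup.subset_closure
        rw [res_quad hirr hG hAC hWi.1 hW0]
        exact hx
      | one =>
        intro h
        have : res hWi.1 ⟨1, h⟩ = 1 := map_one (res hWi.1)
        rw [this]; exact one_mem _
      | mul x y hx hy ihx ihy =>
        intro h
        have hx' : x ∈ C := by rw [← hgen]; exact hx
        have hy' : y ∈ C := by rw [← hgen]; exact hy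
        have : res hWi.1 ⟨x * y, h⟩ = res hWi.1 ⟨x, hx'⟩ * res hWi.1 ⟨y, hy'⟩ := map_mul (res hWi.1) ⟨x, hx'⟩ ⟨y, hy'⟩
        rw [this]; exact mul_mem (ihx _) (ihy _)
      | inv x hx ih =>
        intro h
        have hx' : x ∈ C := by rw [← hgen]; exact hx
        have : res hWi.1 ⟨x⁻¹, h⟩ = (res hWi.1 ⟨x, hx'⟩)⁻¹ := map_inv (res hWi.1) ⟨x, hx'⟩
        rw [this]; exact inv_mem (ih _)
    exact key g (by rw [hgen]; exact hg) hg

end

end

end Cfsg.Agent.H84.QP
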