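import Mathlib
import Cfsg.Agent.H84.QP16
set_option autoImplicit false
universe u

/-! Quadratic pairs: central product decomposition. -/

namespace Cfsg.Agent.H84.QP

open Cfsg
open scoped commutatorElement

theorem qs_of_equiv {A B : Type*} [Group A] [Group B] (e : A ≃* B) (h : Cfsg.IsQuasisimple A) :
    Cfsg.IsQuasisimple B := by
  obtain ⟨h1, h2⟩ := h
  refine ⟨?_, ?_⟩
  · haveI := h1
    exact Group.IsPerfect.ofSurjective (f := e.toMonoidHom) e.surjective
  · have e' : A ⧸ Subgroup.center A ≃* B ⧸ Subgroup.center B := by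
      refine QuotientGroup.congr _ _ e ?_
      ext x
      rw [Subgroup.mem_map, Subgroup.mem_center_iff]
      constructor
      · rintro ⟨y, hy, rfl⟩ g
        rw [Subgroup.mem_center_iff] at hy
        obtain ⟨g, rfl⟩ := e.surjective g
        have := congrArg e (hy g)
        simpa using this
      · intro hx
        refine ⟨e.symm x, ?_, by simp⟩
        rw [Subgroup.mem_center_iff]
        intro g
        apply e.injective
        have := hx (e g)
        simpa using this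
    exact e'.isSimpleGroup_congr.1 h2

/-- the conclusion of the decomposition theorem, with a set of subgroups -/
def CP {k : Type*} [Field k] {M : Type*} [AddCommGroup M] [Module k M]
    (G : Subgroup (LinearMap.GeneralLinearGroup k M)) : Prop :=
  ∃ 𝒟 : Set (Subgroup (LinearMap.GeneralLinearGroup k M)), 𝒟.Finite ∧
    (∀ D ∈ 𝒟, D ≤ G ∧ ∀ g ∈ G, conjBy D g = D) ∧ (∀ D ∈ 𝒟, ∀ E ∈ 𝒟, D ≠ E → Com D E) ∧ (⨆ D ∈ 𝒟, D) = G ∧
    (∀ D ∈ 𝒟, IsQuasisimple ↥D ∧ Subgroup.closure (quadraticElements G ∩ (D : Set (LinearMap.GeneralLinearGroup k M))) = D) ∧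
    ∀ σ ∈ quadraticElements G, ∃ D ∈ 𝒟, σ ∈ D

theorem conjBy_eq_of_le_normalizer {Γ : Type*} [Group Γ] {D G : Subgroup Γ} (h : ∀ g ∈ G, ∀ d ∈ D, g * d * g⁻¹ ∈ D) :
    ∀ g ∈ G, conjBy D g = D := by
  have key : ∀ g ∈ G, conjBy D g ≤ D := by
    rintro g hg _ ⟨d, hd, rfl⟩
    exact h g hg d hd
  intro g hg
  apply le_antisymm (key g hg)
  have := conjBy_mono (key g⁻¹ (inv_mem hg)) g
  rwa [conjBy_conjBy, mul_inv_cancel, conjBy_one] at this

section
variable {k : Type*} [Field k] {M : Type*} [AddCommGroup M] [Module k M]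
    {G C : Subgroup (LinearMap.GeneralLinearGroup k M)} {W : Submodule k M}

/-- pull back of a subgroup of the restricted group -/
def pull (hW : Inv C W) (D : Subgroup (LinearMap.GeneralLinearGroup k ↥W)) : Subgroup (LinearMap.GeneralLinearGroup k M) :=
  (D.comap (res hW)).map C.subtype

theorem mem_pull {hW : Inv C W} {D : Subgroup (LinearMap.GeneralLinearGroup k ↥W)} {x : LinearMap.GeneralLinearGroup k M} :
    x ∈ pull hW D ↔ ∃ h : x ∈ C, res hW ⟨x, h⟩ ∈ D := by
  constructor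
  · rintro ⟨y, hy, rfl⟩
    exact ⟨y.2, hy⟩
  · rintro ⟨h, h1⟩
    exact ⟨⟨x, h⟩, h1, rfl⟩

theorem pull_le {hW : Inv C W} {D : Subgroup (LinearMap.GeneralLinearGroup k ↥W)} : pull hW D ≤ C :=
  Subgroup.map_subtype_le _

/-- the pull back is isomorphic to the group -/
theorem pull_equiv {hW : Inv C W} (hinj : Function.Injective (res hW)) {D : Subgroup (LinearMap.GeneralLinearGroup k ↥W)}
    (hD : D ≤ (res hW).range) : Nonempty (↥D ≃* ↥(pull hW D)) := by
  have e1 : ↥(D.comap (res hW)) ≃* ↥(pull hW D) := Subgroup.equivMapOfInjective _ _ C.subtype_injective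
  have e2 : ↥(D.comap (res hW)) ≃* ↥D := MulEquiv.ofBijective ((res hW).subgroupComap D) <| by
    constructor
    · intro x y h
      apply Subtype.ext
      apply hinj
      exact congrArg Subtype.val h
    · rintro ⟨y, hy⟩
      obtain ⟨x, hx⟩ := hD hy
      exact ⟨⟨x, by rw [Subgroup.mem_comap, hx]; exact hy⟩, Subtype.ext hx⟩
  exact ⟨e2.symm.trans e1⟩

end

theorem exists_root_of_fam {k : Type*} [Field k] {M : Type*} [AddCommGroup M] [Module k M]
    {G : Subgroup (LinearMap.GeneralLinearGroup k M)} {x : M →ₗ[k] M} (hx : Fam G x) (hx0 : x ≠ 0) : ∃ a, Root G a := by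
  classical
  have hex : ∃ n, ∃ y, Fam G y ∧ y ≠ 0 ∧ rk y = n := ⟨_, x, hx, hx0, rfl⟩
  obtain ⟨y, hy, hy0, hyr⟩ := Nat.find_spec hex
  refine ⟨y, hy, hy0, fun z hz hz0 => ?_⟩
  rw [hyr]
  exact Nat.find_min' hex ⟨z, hz, hz0, rfl⟩

theorem main_step {k : Type u} [Field k] (hk2 : ringChar k ≠ 2) (hk3 : Nat.card k ≠ 3)
    {M : Type u} [AddCommGroup M] [Module k M] [FiniteDimensional k M]
    {G : Subgroup (LinearMap.GeneralLinearGroup k M)} (hG : IsQuadraticPair G)
    (ih : ∀ W : Submodule k M, W ≠ ⊤ → ∀ H : Subgroup (LinearMap.GeneralLinearGroup k ↥W), IsQuadraticPair H → CP H) :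
    CP G := by
  by_cases hQ : quadraticElements G = ∅
  · have hGb : G = ⊥ := by
      have := hG.2
      rw [hQ, Subgroup.closure_empty] at this
      exact this.symm
    refine ⟨∅, Set.finite_empty, by simp, by simp, by simp [hGb], by simp, ?_⟩
    intro σ hσ
    rw [hQ] at hσ
    exact absurd hσ (Set.notMem_empty _)
  obtain ⟨σ₀, hσ₀⟩ := Set.nonempty_iff_ne_empty.2 hQ
  obtain ⟨a, ha⟩ : ∃ a, Root G a := exists_root_of_fam (mem_quadraticElements_iff.1 hσ₀).1 (mem_quadraticElements_iff.1 hσ₀).2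
  have hCG := Cc_le (G := G)
  have hAC : ∀ g ∈ G0 G, ∀ r ∈ Cc G, g * r = r * g := fun g hg r hr =>
    Subgroup.mem_centralizer_iff.1 (Cc_le_centralizer hr) g hg
  have hGsup : G ≤ G0 G ⊔ Cc G := (G_eq hk2 hk3 hG).ge
  have hroot : ∀ r ∈ Cc G, ∀ b, Root G b → b * (r : M →ₗ[k] M) = (r : M →ₗ[k] M) * b := by
    intro r hr b hb
    have h2 := hAC _ (unip_mem_G0 hb) r hr
    have h3 := congrArg (fun z : LinearMap.GeneralLinearGroup k M => (z : M →ₗ[k] M)) h2
    simp only [Units.val_mul, unip_val, add_mul, mul_add, one_mul, mul_one, add_right_inj] at h3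
    exact h3
  -- quadratic elements of `Cc`
  have hQC : quadraticElements (Cc G) ⊆ quadraticElements G := by
    rintro σ ⟨h1, h2, h3⟩
    exact ⟨hCG h1, h2, fun τ hτ => hCG (h3 hτ)⟩
  have hQC' : ∀ σ ∈ quadraticElements G, σ ∈ Cc G → σ ∈ quadraticElements (Cc G) := by
    rintro σ ⟨h1, h2, h3⟩ hσ
    refine ⟨hσ, h2, ?_⟩
    rintro τ ⟨c, hc⟩
    by_cases hc0 : c = 0
    · have : τ = 1 := Units.ext (by rw [hc, hc0, zero_smul, add_zero]; rfl)
      rw [this]; exact one_mem _
    · apply Subgroup.subset_closure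
      have h4 : τ ∈ G := h3 ⟨c, hc⟩
      have h5 : (τ : M →ₗ[k] M) - 1 = c • ((σ : M →ₗ[k] M) - 1) := by rw [hc]; abel
      have hF : Fam G ((σ : M →ₗ[k] M) - 1) := (mem_quadraticElements_iff.1 ⟨h1, h2, h3⟩).1
      refine ⟨mem_quadraticElements_iff.2 ⟨?_, ?_⟩, ?_⟩
      · rw [h5]; exact hF.smul c
      · rw [h5]; exact smul_ne_zero hc0 h2.2
      · intro b hb
        have h6 := hroot σ hσ b hb
        rw [h5, smul_mul_assoc, mul_smul_comm, sub_mul, mul_sub, h6, one_mul, mul_one]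
  have hgenC : Subgroup.closure (quadraticElements (Cc G)) = Cc G := by
    apply le_antisymm
    · rw [Subgroup.closure_le]
      intro σ hσ; exact hσ.1
    · unfold Cc
      rw [Subgroup.closure_le]
      intro σ hσ
      exact Subgroup.subset_closure (hQC' σ hσ.1 (Subgroup.subset_closure hσ))
  -- an irreducible subspace
  obtain ⟨W, -, hW⟩ := exists_irr (K := Cc G) (W := ⊤) (fun _ _ _ _ => Submodule.mem_top) (by
    obtain ⟨m, hm⟩ := hG.1.1
    intro h0
    apply hm
    have : m ∈ (⊤ : Submodule k M) := Submodule.mem_top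
    rw [h0] at this
    exact (Submodule.mem_bot k).1 this)
  have hWtop : W ≠ ⊤ := by
    intro h
    have h1 : Inv (Cc G) (LinearMap.ker a) := by
      intro g hg w hw
      rw [LinearMap.mem_ker] at hw ⊢
      have := congrArg (fun z : M →ₗ[k] M => z w) (hroot g hg a ha)
      change a ((g : M →ₗ[k] M) w) = (g : M →ₗ[k] M) (a w) at this
      rw [this, hw, map_zero]
    rcases hW.2.2 _ (by rw [h]; exact le_top) h1 with h2 | h2
    · apply ha.2.1
      ext m
      have : a m ∈ LinearMap.ker a := by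
        rw [LinearMap.mem_ker]
        exact congrArg (fun z : M →ₗ[k] M => z m) ha.1.1
      rw [h2, Submodule.mem_bot] at this
      rw [this]; rfl
    · exact ha.2.1 (LinearMap.ker_eq_top.1 (h2.trans h))
  have hinj := res_inj hG.1 hGsup hAC hW.1 hW.2.1
  have hrq : ∀ g : ↥(Cc G), res hW.1 g ∈ quadraticElements (res hW.1).range ↔
    (g : LinearMap.GeneralLinearGroup k M) ∈ quadraticElements (Cc G) := fun g => res_quad hG.1 hGsup hAC hW.1 hW.2.1
  obtain ⟨𝒟, hfin, hnorm, hcomm, hsup, hqs, hmem⟩ := ih W hWtop _ (res_pair hG.1 hGsup hAC hW.2.1 hW hgenC)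
  -- subgroups of `Cc G` normalized by it are normalized by `G`
  have hnormG : ∀ D : Subgroup (LinearMap.GeneralLinearGroup k M), D ≤ Cc G → (∀ g ∈ Cc G, ∀ d ∈ D, g * d * g⁻¹ ∈ D) →
      ∀ g ∈ G, conjBy D g = D := by
    intro D hD h g hg
    have h1 : G0 G ⊔ Cc G ≤ Subgroup.normalizer (D : Set (LinearMap.GeneralLinearGroup k M)) := by
      refine sup_le ?_ ?_
      · intro g hg
        rw [Subgroup.mem_normalizer_iff]
        intro d
        constructor
        · intro hd
          rw [hAC g hg d (hD hd), mul_inv_cancel_right]; exact hd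
        · intro hd
          have h2 := hAC _ (inv_mem hg) _ (hD hd)
          have h3 : d = g⁻¹ * (g * d * g⁻¹) * g := by group
          rw [h3, h2, inv_mul_cancel_right]; exact hd
      · intro g hg
        rw [Subgroup.mem_normalizer_iff]
        intro d
        refine ⟨h g hg d, fun hd => ?_⟩
        have h2 := h g⁻¹ (inv_mem hg) _ hd
        have h3 : g⁻¹ * (g * d * g⁻¹) * g⁻¹⁻¹ = d := by group
        rwa [h3] at h2
    refine conjBy_eq_of_le_normalizer (G := G) ?_ g hg
    intro g hg d hd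
    exact (Subgroup.mem_normalizer_iff.1 (h1 (hGsup hg)) d).1 hd
  have hnormG' : ∀ X : Subgroup (LinearMap.GeneralLinearGroup k M), ∀ g ∈ G, conjBy (Kc G X) g = Kc G X := by
    intro X g hg
    have h1 : G0 G ⊔ Cc G ≤ Subgroup.normalizer (Kc G X : Set (LinearMap.GeneralLinearGroup k M)) := by
      refine sup_le ?_ ?_
      · intro g hg
        rw [Subgroup.mem_normalizer_iff]
        intro d
        refine ⟨conj_Kc hk2 hk3 hG g hg d, fun hd => ?_⟩
        have h2 := conj_Kc hk2 hk3 hG (X := X) g⁻¹ (inv_mem hg) _ hd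
        have h3 : g⁻¹ * (g * d * g⁻¹) * g⁻¹⁻¹ = d := by group
        rwa [h3] at h2
      · intro g hg
        rw [Subgroup.mem_normalizer_iff]
        intro d
        constructor
        · intro hd
          rw [← hAC d (Kc_le_G0 hd) g hg, mul_inv_cancel_right]; exact hd
        · intro hd
          have h2 := hAC _ (Kc_le_G0 hd) _ (inv_mem hg)
          have h3 : d = g⁻¹ * (g * d * g⁻¹) * g := by group
          rw [h3, ← h2, inv_mul_cancel_right]; exact hd
    refine conjBy_eq_of_le_normalizer (G := G) ?_ g hg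
    intro g hg d hd
    exact (Subgroup.mem_normalizer_iff.1 (h1 (hGsup hg)) d).1 hd
  refine ⟨{K | ∃ X ∈ quadraticRootSubgroups G, K = Kc G X} ∪ (pull hW.1) '' 𝒟, ?_, ?_, ?_, ?_, ?_, ?_⟩
  · refine Set.Finite.union ?_ (hfin.image _)
    have h1 : {K | ∃ X ∈ quadraticRootSubgroups G, K = Kc G X} ⊆
        (fun P : Set (Subgroup (LinearMap.GeneralLinearGroup k M)) => ⨆ B ∈ P, B) '' {P | ∃ A ∈ quadraticRootSubgroups G, P = Co G A} := by
      rintro _ ⟨X, hX, rfl⟩
      exact ⟨_, ⟨X, hX, rfl⟩, rfl⟩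
    have h2 : {P : Set (Subgroup (LinearMap.GeneralLinearGroup k M)) | ∃ A ∈ quadraticRootSubgroups G, P = Co G A}.Finite :=
      comps_finite hk2 hk3 hG
    exact (h2.image _).subset h1
  · rintro D (⟨X, hX, rfl⟩ | ⟨D, hD, rfl⟩)
    · exact ⟨Kc_le_G0.trans G0_le, hnormG' X⟩
    · refine ⟨pull_le.trans hCG, hnormG _ pull_le ?_⟩
      intro g hg d hd
      obtain ⟨h1, h2⟩ := mem_pull.1 hd
      refine mem_pull.2 ⟨mul_mem (mul_mem hg h1) (inv_mem hg), ?_⟩
      have h3 : res hW.1 ⟨g * d * g⁻¹, mul_mem (mul_mem hg h1) (inv_mem hg)⟩ =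
        res hW.1 ⟨g, hg⟩ * res hW.1 ⟨d, h1⟩ * (res hW.1 ⟨g, hg⟩)⁻¹ := by
        rw [← map_inv, ← map_mul, ← map_mul]; rfl
      rw [h3]
      have h4 := (hnorm D hD).2 (res hW.1 ⟨g, hg⟩) ⟨_, rfl⟩
      have h5 := conj_mem_conjBy (g := res hW.1 ⟨g, hg⟩) h2
      rwa [h4] at h5
  · have cross : ∀ X, ∀ D : Subgroup (LinearMap.GeneralLinearGroup k ↥W), Com (Kc G X) (pull hW.1 D) := fun X D x hx y hy =>
      hAC x (Kc_le_G0 hx) y (pull_le hy)
    rintro D (⟨X, hX, rfl⟩ | ⟨D, hD, rfl⟩) E (⟨Y, hY, rfl⟩ | ⟨E, hE, rfl⟩) hne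
    · have hXY : Co G X ≠ Co G Y := by
        intro h; apply hne; unfold Kc; rw [h]
      have h5 : Kc G X ≤ Subgroup.centralizer (Kc G Y : Set _) := by
        refine iSup₂_le fun A hA => ?_
        have h6 : Kc G Y ≤ Subgroup.centralizer (A : Set _) := by
          refine iSup₂_le fun D hD => ?_
          have := com_iff.mp (comp_comm hk2 hk3 hG hA hD hXY)
          intro d hd
          rw [Subgroup.mem_centralizer_iff]
          intro a ha
          exact this a ha d hd
        intro a ha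
        rw [Subgroup.mem_centralizer_iff]
        intro d hd
        exact (Subgroup.mem_centralizer_iff.1 (h6 hd) a ha).symm
      intro x hx y hy
      exact (Subgroup.mem_centralizer_iff.1 (h5 hx) y hy).symm
    · exact cross X E
    · exact (cross Y D).symm
    · have h1 := hcomm D hD E hE (fun h => hne (by rw [h]))
      intro x hx y hy
      obtain ⟨hx1, hx2⟩ := mem_pull.1 hx
      obtain ⟨hy1, hy2⟩ := mem_pull.1 hy
      have h2 := h1 _ hx2 _ hy2
      rw [← map_mul, ← map_mul] at h2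
      exact congrArg Subtype.val (hinj h2)
  · apply le_antisymm
    · refine iSup₂_le ?_
      rintro D (⟨X, hX, rfl⟩ | ⟨D, hD, rfl⟩)
      · exact Kc_le_G0.trans G0_le
      · exact pull_le.trans hCG
    · conv_lhs => rw [← hG.2]
      rw [Subgroup.closure_le]
      intro σ hσ
      rcases quad_dich hk2 hk3 hG hσ with h | ⟨X, hX, h⟩
      · have h1 := (hrq ⟨σ, h⟩).2 (hQC' σ hσ h)
        obtain ⟨D, hD, h2⟩ := hmem _ h1
        exact (le_iSup₂_of_le (f := fun (D : Subgroup (LinearMap.GeneralLinearGroup k M)) (_ : D ∈ {K | ∃ X ∈ quadraticRootSubgroups G, K = Kc G X} ∪ (pull hW.1) '' 𝒟) => D) (pull hW.1 D) (Or.inr ⟨D, hD, rfl⟩) le_rfl) (mem_pull.2 ⟨h, h2⟩)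
      · exact (le_iSup₂_of_le (f := fun (D : Subgroup (LinearMap.GeneralLinearGroup k M)) (_ : D ∈ {K | ∃ X ∈ quadraticRootSubgroups G, K = Kc G X} ∪ (pull hW.1) '' 𝒟) => D) (Kc G X) (Or.inl ⟨X, hX, rfl⟩) le_rfl) h
  · rintro D (⟨X, hX, rfl⟩ | ⟨D, hD, rfl⟩)
    · refine ⟨comp_quasi hk2 hk3 hG hX, le_antisymm ?_ ?_⟩
      · rw [Subgroup.closure_le]
        exact Set.inter_subset_right
      · refine iSup₂_le fun A hA => ?_
        obtain ⟨σ, hσ, hAσ⟩ := hA.1
        have h1 := comp_sub_le A hA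
        rw [hAσ] at h1 ⊢
        unfold sameActionSubgroup at h1 ⊢
        rw [Subgroup.closure_le]
        intro τ hτ
        exact Subgroup.subset_closure ⟨hτ.1.1, h1 (Subgroup.subset_closure hτ)⟩
    · obtain ⟨e⟩ := pull_equiv hinj (hnorm D hD).1
      refine ⟨qs_of_equiv e (hqs D hD).1, le_antisymm ?_ ?_⟩
      · rw [Subgroup.closure_le]
        exact Set.inter_subset_right
      · -- the closure of the quadratic elements
        have key : ∀ y ∈ Subgroup.closure (quadraticElements (res hW.1).range ∩ (D : Set (LinearMap.GeneralLinearGroup k ↥W))),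
            ∃ x : ↥(Cc G), (x : LinearMap.GeneralLinearGroup k M) ∈ Subgroup.closure (quadraticElements G ∩ (pull hW.1 D : Set (LinearMap.GeneralLinearGroup k M))) ∧
              res hW.1 x = y := by
          intro y hy
          induction hy using Subgroup.closure_induction with
          | mem y hy =>
            obtain ⟨x, hx⟩ := hy.1.1
            refine ⟨x, Subgroup.subset_closure ⟨hQC ?_, mem_pull.2 ⟨x.2, ?_⟩⟩, hx⟩
            · rw [← hrq, hx]; exact hy.1
            · change res hW.1 x ∈ D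
              rw [hx]; exact hy.2
          | one => exact ⟨1, one_mem _, map_one _⟩
          | mul x y _ _ ihx ihy =>
            obtain ⟨x, hx, rfl⟩ := ihx
            obtain ⟨y, hy, rfl⟩ := ihy
            exact ⟨x * y, mul_mem hx hy, map_mul _ _ _⟩
          | inv x _ ih =>
            obtain ⟨x, hx, rfl⟩ := ih
            exact ⟨x⁻¹, inv_mem hx, map_inv _ _⟩
        intro x hx
        obtain ⟨h1, h2⟩ := mem_pull.1 hx
        rw [← (hqs D hD).2] at h2
        obtain ⟨y, hy, hyx⟩ := key _ h2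
        have := hinj hyx
        rw [this] at hy
        exact hy
  · intro σ hσ
    rcases quad_dich hk2 hk3 hG hσ with h | ⟨X, hX, h⟩
    · have h1 := (hrq ⟨σ, h⟩).2 (hQC' σ hσ h)
      obtain ⟨D, hD, h2⟩ := hmem _ h1
      exact ⟨pull hW.1 D, Or.inr ⟨D, hD, rfl⟩, mem_pull.2 ⟨h, h2⟩⟩
    · exact ⟨Kc G X, Or.inl ⟨X, hX, rfl⟩, h⟩

theorem main_cp {k : Type u} [Field k] (hk2 : ringChar k ≠ 2) (hk3 : Nat.card k ≠ 3) : ∀ (n : ℕ)
    {M : Type u} [AddCommGroup M] [Module k M] [FiniteDimensional k M], Module.finrank k M ≤ n →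
    ∀ {G : Subgroup (LinearMap.GeneralLinearGroup k M)}, IsQuadraticPair G → CP G := by
  intro n
  induction n with
  | zero =>
    intro M _ _ _ h G hG
    exfalso
    obtain ⟨m, hm⟩ := hG.1.1
    have := Module.finrank_zero_iff.1 (Nat.le_zero.1 h)
    exact hm (Subsingleton.elim _ _)
  | succ n ih =>
    intro M _ _ _ h G hG
    apply main_step hk2 hk3 hG
    intro W hW H hH
    apply ih _ hH
    have := Submodule.finrank_lt hW
    omega

theorem S5063_main {k : Type u} [Field k] (hk2 : ringChar k ≠ 2) (hk3 : Nat.card k ≠ 3)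
    {M : Type u} [AddCommGroup M] [Module k M] [FiniteDimensional k M]
    {G : Subgroup (LinearMap.GeneralLinearGroup k M)} (hG : Cfsg.IsQuadraticPair G) :
    ∃ (s : ℕ) (Gi : Fin s → Subgroup (LinearMap.GeneralLinearGroup k M)),
      (∀ i, Gi i ≤ G ∧ ∀ g ∈ G, Cfsg.conjBy (Gi i) g = Gi i) ∧ (∀ i j, i ≠ j → ⁅Gi i, Gi j⁆ = ⊥) ∧ (⨆ i, Gi i) = G ∧
      (∀ i, Cfsg.IsQuasisimple ↥(Gi i) ∧ Subgroup.closure (Cfsg.quadraticElements G ∩ (Gi i : Set (LinearMap.GeneralLinearGroup k M))) = Gi i) ∧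
      Cfsg.quadraticElements G ⊆ ⋃ i, (Gi i : Set (LinearMap.GeneralLinearGroup k M)) := by
  obtain ⟨𝒟, hfin, hnorm, hcomm, hsup, hqs, hmem⟩ := main_cp hk2 hk3 _ le_rfl hG
  have := hfin.to_subtype
  obtain ⟨s, ⟨f⟩⟩ := Finite.exists_equiv_fin ↥𝒟
  refine ⟨s, fun i => (f.symm i).1, ?_, ?_, ?_, ?_, ?_⟩
  · intro i
    exact hnorm _ (f.symm i).2
  · intro i j hij
    exact com_iff.mpr (hcomm _ (f.symm i).2 _ (f.symm j).2 (fun h => hij (f.symm.injective (Subtype.ext h))))
  · rw [← hsup, iSup_subtype', ← Equiv.iSup_comp f.symm]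
  · intro i
    exact hqs _ (f.symm i).2
  · intro σ hσ
    obtain ⟨D, hD, h⟩ := hmem σ hσ
    rw [Set.mem_iUnion]
    refine ⟨f ⟨D, hD⟩, ?_⟩
    beta_reduce
    rw [Equiv.symm_apply_apply]; exact h

end Cfsg.Agent.H84.QP
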