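import Mathlib
import Cfsg.Agent.H84.Root1
import Cfsg.Agent.H84.RootMap
set_option autoImplicit false

/-! Explicit `k`-root subgroups attached to a family of square-zero elements of a `k`-algebra. -/

namespace Cfsg.Agent.H84.RD

open Cfsg
open scoped commutatorElement

section sl2
variable {k : Type*} [Field k]

/-- upper unitriangular -/
def uU (x : k) : Matrix.SpecialLinearGroup (Fin 2) k := ⟨!![1, x; 0, 1], by simp [Matrix.det_fin_two_of]⟩

/-- lower unitriangular -/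
def lL (x : k) : Matrix.SpecialLinearGroup (Fin 2) k := ⟨!![1, 0; x, 1], by simp [Matrix.det_fin_two_of]⟩

theorem uU_mul (x y : k) : uU x * uU y = uU (x + y) := by
  apply Subtype.ext
  rw [Matrix.SpecialLinearGroup.coe_mul]
  ext i j
  fin_cases i <;> fin_cases j <;> simp [Matrix.mul_apply, Fin.sum_univ_two, uU, add_comm]

theorem lL_mul (x y : k) : lL x * lL y = lL (x + y) := by
  apply Subtype.ext
  rw [Matrix.SpecialLinearGroup.coe_mul]
  ext i j
  fin_cases i <;> fin_cases j <;> simp [Matrix.mul_apply, Fin.sum_univ_two, lL, add_comm]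

theorem uU_zero : uU (0 : k) = 1 := by
  apply Subtype.ext
  ext i j
  fin_cases i <;> fin_cases j <;> simp [uU]

theorem lL_zero : lL (0 : k) = 1 := by
  apply Subtype.ext
  ext i j
  fin_cases i <;> fin_cases j <;> simp [lL]

theorem uU_inv (x : k) : (uU x)⁻¹ = uU (-x) := by
  rw [inv_eq_iff_mul_eq_one, uU_mul, add_neg_cancel, uU_zero]

theorem lL_inv (x : k) : (lL x)⁻¹ = lL (-x) := by
  rw [inv_eq_iff_mul_eq_one, lL_mul, add_neg_cancel, lL_zero]

theorem mem_upper {g : Matrix.SpecialLinearGroup (Fin 2) k} : g ∈ upperUnipotentSL2 k ↔ ∃ x, g = uU x := by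
  constructor
  · intro h
    unfold upperUnipotentSL2 at h
    induction h using Subgroup.closure_induction with
    | mem g h =>
      obtain ⟨h1, h2, h3⟩ := h
      refine ⟨(g : Matrix (Fin 2) (Fin 2) k) 0 1, Subtype.ext ?_⟩
      ext i j
      fin_cases i <;> fin_cases j <;> simp [uU, h1, h2, h3]
    | one => exact ⟨0, uU_zero.symm⟩
    | mul g h _ _ hg hh =>
      obtain ⟨x, rfl⟩ := hg
      obtain ⟨y, rfl⟩ := hh
      exact ⟨_, uU_mul x y⟩
    | inv g _ hg =>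
      obtain ⟨x, rfl⟩ := hg
      exact ⟨_, uU_inv x⟩
  · rintro ⟨x, rfl⟩
    apply Subgroup.subset_closure
    refine ⟨?_, ?_, ?_⟩ <;> simp [uU]

theorem mem_lower {g : Matrix.SpecialLinearGroup (Fin 2) k} : g ∈ lowerUnipotentSL2 k ↔ ∃ x, g = lL x := by
  constructor
  · intro h
    unfold lowerUnipotentSL2 at h
    induction h using Subgroup.closure_induction with
    | mem g h =>
      obtain ⟨h1, h2, h3⟩ := h
      refine ⟨(g : Matrix (Fin 2) (Fin 2) k) 1 0, Subtype.ext ?_⟩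
      ext i j
      fin_cases i <;> fin_cases j <;> simp [lL, h1, h2, h3]
    | one => exact ⟨0, lL_zero.symm⟩
    | mul g h _ _ hg hh =>
      obtain ⟨x, rfl⟩ := hg
      obtain ⟨y, rfl⟩ := hh
      exact ⟨_, lL_mul x y⟩
    | inv g _ hg =>
      obtain ⟨x, rfl⟩ := hg
      exact ⟨_, lL_inv x⟩
  · rintro ⟨x, rfl⟩
    apply Subgroup.subset_closure
    refine ⟨?_, ?_, ?_⟩ <;> simp [lL]

theorem sl2_gen : upperUnipotentSL2 k ⊔ lowerUnipotentSL2 k = ⊤ := by
  have hu : ∀ x : k, uU x ∈ upperUnipotentSL2 k ⊔ lowerUnipotentSL2 k :=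
    fun x => Subgroup.mem_sup_left (mem_upper.2 ⟨x, rfl⟩)
  have hl : ∀ x : k, lL x ∈ upperUnipotentSL2 k ⊔ lowerUnipotentSL2 k :=
    fun x => Subgroup.mem_sup_right (mem_lower.2 ⟨x, rfl⟩)
  have key : ∀ g : Matrix.SpecialLinearGroup (Fin 2) k, (g : Matrix (Fin 2) (Fin 2) k) 1 0 ≠ 0 →
      g ∈ upperUnipotentSL2 k ⊔ lowerUnipotentSL2 k := by
    intro g hc
    have hdet := g.2
    rw [Matrix.det_fin_two] at hdet
    have e : g = uU (((g : Matrix (Fin 2) (Fin 2) k) 0 0 - 1) / (g : Matrix (Fin 2) (Fin 2) k) 1 0) *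
        lL ((g : Matrix (Fin 2) (Fin 2) k) 1 0) *
        uU (((g : Matrix (Fin 2) (Fin 2) k) 1 1 - 1) / (g : Matrix (Fin 2) (Fin 2) k) 1 0) := by
      apply Subtype.ext
      rw [Matrix.SpecialLinearGroup.coe_mul, Matrix.SpecialLinearGroup.coe_mul]
      ext i j
      fin_cases i <;> fin_cases j
      · simp [Matrix.mul_apply, Fin.sum_univ_two, uU, lL]
        field_simp
        ring
      · simp [Matrix.mul_apply, Fin.sum_univ_two, uU, lL]
        field_simp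
        linear_combination -hdet
      · simp [Matrix.mul_apply, Fin.sum_univ_two, uU, lL]
      · simp [Matrix.mul_apply, Fin.sum_univ_two, uU, lL]
        field_simp
        ring
    rw [e]
    exact mul_mem (mul_mem (hu _) (hl _)) (hu _)
  rw [eq_top_iff]
  intro g _
  by_cases hc : (g : Matrix (Fin 2) (Fin 2) k) 1 0 = 0
  · have h1 := key (lL 1 * g) ?_
    · have h2 := mul_mem (inv_mem (hl 1)) h1
      rwa [inv_mul_cancel_left] at h2
    · have hdet := g.2
      rw [Matrix.det_fin_two, hc] at hdet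
      rw [Matrix.SpecialLinearGroup.coe_mul]
      simp [Matrix.mul_apply, Fin.sum_univ_two, hc, lL]
      intro h0
      rw [h0] at hdet
      simp at hdet
  · exact key g hc

theorem sl2_weyl {x : k} (hx : x ≠ 0) (s : k) :
    (uU x * lL (-x⁻¹) * uU x) * uU s = lL (-(s * (x⁻¹) ^ 2)) * (uU x * lL (-x⁻¹) * uU x) := by
  apply Subtype.ext
  simp only [Matrix.SpecialLinearGroup.coe_mul]
  ext i j
  fin_cases i <;> fin_cases j <;> simp [Matrix.mul_apply, Fin.sum_univ_two, uU, lL] <;> field_simp <;>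
    first | ring1 | (ring_nf; simp)

theorem sl2_weyl' {x : k} (hx : x ≠ 0) (s : k) :
    (lL x * uU (-x⁻¹) * lL x) * lL s = uU (-(s * (x⁻¹) ^ 2)) * (lL x * uU (-x⁻¹) * lL x) := by
  apply Subtype.ext
  simp only [Matrix.SpecialLinearGroup.coe_mul]
  ext i j
  fin_cases i <;> fin_cases j <;> simp [Matrix.mul_apply, Fin.sum_univ_two, uU, lL] <;> field_simp <;>
    first | ring1 | (ring_nf; simp)

theorem sl2_conj_upper {x : k} (hx : x ≠ 0) :
    conjBy (upperUnipotentSL2 k) (uU x * lL (-x⁻¹) * uU x) = lowerUnipotentSL2 k := by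
  ext g
  rw [mem_conjBy, mem_upper, mem_lower]
  constructor
  · rintro ⟨s, hs⟩
    refine ⟨-(s * (x⁻¹) ^ 2), ?_⟩
    have h1 := sl2_weyl hx s
    rw [← hs] at h1
    have h2 : g * (uU x * lL (-x⁻¹) * uU x) = lL (-(s * (x⁻¹) ^ 2)) * (uU x * lL (-x⁻¹) * uU x) := by
      rw [← h1]; group
    exact mul_right_cancel h2
  · rintro ⟨t, rfl⟩
    refine ⟨-(t * x ^ 2), ?_⟩
    have h1 := sl2_weyl hx (-(t * x ^ 2))
    have h2 : -(-(t * x ^ 2) * (x⁻¹) ^ 2) = t := by field_simp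
    rw [h2] at h1
    rw [mul_assoc, ← h1]; group

theorem sl2_conj_lower {x : k} (hx : x ≠ 0) :
    conjBy (lowerUnipotentSL2 k) (lL x * uU (-x⁻¹) * lL x) = upperUnipotentSL2 k := by
  ext g
  rw [mem_conjBy, mem_upper, mem_lower]
  constructor
  · rintro ⟨s, hs⟩
    refine ⟨-(s * (x⁻¹) ^ 2), ?_⟩
    have h1 := sl2_weyl' hx s
    rw [← hs] at h1
    have h2 : g * (lL x * uU (-x⁻¹) * lL x) = uU (-(s * (x⁻¹) ^ 2)) * (lL x * uU (-x⁻¹) * lL x) := by
      rw [← h1]; group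
    exact mul_right_cancel h2
  · rintro ⟨t, rfl⟩
    refine ⟨-(t * x ^ 2), ?_⟩
    have h1 := sl2_weyl' hx (-(t * x ^ 2))
    have h2 : -(-(t * x ^ 2) * (x⁻¹) ^ 2) = t := by field_simp
    rw [h2] at h1
    rw [mul_assoc, ← h1]; group

theorem uU_inj {x y : k} (h : uU x = uU y) : x = y := by
  have := congrArg (fun g : Matrix.SpecialLinearGroup (Fin 2) k => (g : Matrix (Fin 2) (Fin 2) k) 0 1) h
  simpa [uU] using this

theorem lL_inj {x y : k} (h : lL x = lL y) : x = y := by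
  have := congrArg (fun g : Matrix.SpecialLinearGroup (Fin 2) k => (g : Matrix (Fin 2) (Fin 2) k) 1 0) h
  simpa [lL] using this

theorem upper_comm : ∀ x ∈ upperUnipotentSL2 k, ∀ y ∈ upperUnipotentSL2 k, x * y = y * x := by
  intro x hx y hy
  obtain ⟨s, rfl⟩ := mem_upper.1 hx
  obtain ⟨t, rfl⟩ := mem_upper.1 hy
  rw [uU_mul, uU_mul, add_comm]

theorem lower_comm : ∀ x ∈ lowerUnipotentSL2 k, ∀ y ∈ lowerUnipotentSL2 k, x * y = y * x := by
  intro x hx y hy
  obtain ⟨s, rfl⟩ := mem_lower.1 hx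
  obtain ⟨t, rfl⟩ := mem_lower.1 hy
  rw [lL_mul, lL_mul, add_comm]

theorem nilp_of_comm {G : Type*} [Group G] {A : Subgroup G} (h : ∀ x ∈ A, ∀ y ∈ A, x * y = y * x) :
    Group.IsNilpotent A := by
  let _ : CommGroup A := { (inferInstance : Group A) with mul_comm := fun x y => Subtype.ext (h _ x.2 _ y.2) }
  infer_instance

theorem sl2_r1 : IsRankOnePair (upperUnipotentSL2 k) (lowerUnipotentSL2 k) := by
  refine ⟨?_, nilp_of_comm upper_comm, nilp_of_comm lower_comm, ?_, ?_⟩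
  · intro h
    have h1 : uU (1 : k) ∈ lowerUnipotentSL2 k := by rw [← h]; exact mem_upper.2 ⟨1, rfl⟩
    obtain ⟨x, hx⟩ := mem_lower.1 h1
    have := congrArg (fun g : Matrix.SpecialLinearGroup (Fin 2) k => (g : Matrix (Fin 2) (Fin 2) k) 0 1) hx
    simp [uU, lL] at this
  · intro a ha ha1
    obtain ⟨x, rfl⟩ := mem_upper.1 ha
    have hx : x ≠ 0 := by rintro rfl; exact ha1 uU_zero
    refine ⟨lL x⁻¹, mem_lower.2 ⟨_, rfl⟩, ?_, ?_⟩
    · intro h
      rw [← lL_zero] at h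
      exact hx (inv_eq_zero.1 (lL_inj h))
    · rw [← sl2_conj_upper hx, conjBy_conjBy, ← lL_inv]
      have e : (uU x)⁻¹ * (uU x * (lL x⁻¹)⁻¹ * uU x) = (lL x⁻¹)⁻¹ * uU x := by group
      rw [e, ← conjBy_conjBy, conjBy_self (mem_upper.2 ⟨x, rfl⟩)]
  · intro a ha ha1
    obtain ⟨x, rfl⟩ := mem_lower.1 ha
    have hx : x ≠ 0 := by rintro rfl; exact ha1 lL_zero
    refine ⟨uU x⁻¹, mem_upper.2 ⟨_, rfl⟩, ?_, ?_⟩
    · intro h
      rw [← uU_zero] at h
      exact hx (inv_eq_zero.1 (uU_inj h))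
    · rw [← sl2_conj_lower hx, conjBy_conjBy, ← uU_inv]
      have e : (lL x)⁻¹ * (lL x * (uU x⁻¹)⁻¹ * lL x) = (uU x⁻¹)⁻¹ * lL x := by group
      rw [e, ← conjBy_conjBy, conjBy_self (mem_lower.2 ⟨x, rfl⟩)]

end sl2

section phi
variable {k : Type*} [Field k] {R : Type*} [Ring R] [Algebra k R] {a e : R}

/-- the homomorphism from `SL₂(k)` attached to a dual pair -/
def phi0 (ha : a * a = 0) (he : e * e = 0) (hae : a * e * a = a) (hea : e * a * e = e) :
    Matrix.SpecialLinearGroup (Fin 2) k →* R where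
  toFun g := 1 + ((g : Matrix (Fin 2) (Fin 2) k) 0 0 - 1) • (a * e) + ((g : Matrix (Fin 2) (Fin 2) k) 1 1 - 1) • (e * a) +
    (g : Matrix (Fin 2) (Fin 2) k) 0 1 • a + (g : Matrix (Fin 2) (Fin 2) k) 1 0 • e
  map_one' := by simp
  map_mul' := by
    intro g h
    have t1 : a * e * (a * e) = a * e := by rw [← mul_assoc, hae]
    have t2 : a * e * (e * a) = 0 := by rw [mul_assoc, ← mul_assoc e e a, he]; simp
    have t3 : a * e * e = 0 := by rw [mul_assoc, he, mul_zero]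
    have t4 : e * a * (e * a) = e * a := by rw [← mul_assoc, hea]
    have t5 : e * a * (a * e) = 0 := by rw [mul_assoc, ← mul_assoc a a e, ha]; simp
    have t6 : e * a * a = 0 := by rw [mul_assoc, ha, mul_zero]
    have t7 : a * (a * e) = 0 := by rw [← mul_assoc, ha, zero_mul]
    have t8 : e * (e * a) = 0 := by rw [← mul_assoc, he, zero_mul]
    have t9 : a * (e * a) = a := by rw [← mul_assoc, hae]
    have t10 : e * (a * e) = e := by rw [← mul_assoc, hea]
    simp only [add_mul, mul_add, one_mul, mul_one, mul_smul_comm, smul_mul_assoc, t1, t2, t3, t4, t5, t6, t7, t8, t9, t10, ha, he, hae, hea,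
      smul_zero, add_zero, Matrix.SpecialLinearGroup.coe_mul, Matrix.mul_apply, Fin.sum_univ_two]
    module

variable (ha : a * a = 0) (he : e * e = 0) (hae : a * e * a = a) (hea : e * a * e = e)

theorem phi0_apply (g : Matrix.SpecialLinearGroup (Fin 2) k) : phi0 ha he hae hea g =
    1 + ((g : Matrix (Fin 2) (Fin 2) k) 0 0 - 1) • (a * e) + ((g : Matrix (Fin 2) (Fin 2) k) 1 1 - 1) • (e * a) +
    (g : Matrix (Fin 2) (Fin 2) k) 0 1 • a + (g : Matrix (Fin 2) (Fin 2) k) 1 0 • e := rfl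

theorem phi0_uU (x : k) : phi0 ha he hae hea (uU x) = 1 + x • a := by
  rw [phi0_apply]; simp [uU]

theorem phi0_lL (x : k) : phi0 ha he hae hea (lL x) = 1 + x • e := by
  rw [phi0_apply]; simp [lL]

include ha he hae hea in
theorem phi0_inj (ha0 : a ≠ 0) (he0 : e ≠ 0) {g : Matrix.SpecialLinearGroup (Fin 2) k}
    (h1 : phi0 ha he hae hea g = 1) : g = 1 := by
  rw [phi0_apply] at h1
  have h2 : ((g : Matrix (Fin 2) (Fin 2) k) 0 0 - 1) • (a * e) + ((g : Matrix (Fin 2) (Fin 2) k) 1 1 - 1) • (e * a) +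
    (g : Matrix (Fin 2) (Fin 2) k) 0 1 • a + (g : Matrix (Fin 2) (Fin 2) k) 1 0 • e = 0 := by
    have h3 := sub_eq_zero.2 h1
    rw [← h3]; abel
  have t2 : e * a * (a * e) = 0 := by rw [← mul_assoc, mul_assoc e a a, ha]; simp
  have t6 : e * a * a = 0 := by rw [mul_assoc, ha, mul_zero]
  have t3 : a * e * e = 0 := by rw [mul_assoc, he, mul_zero]
  have k1 := congrArg (fun z => z * a) h2
  have k2 := congrArg (fun z => z * e) h2
  have k3 := congrArg (fun z => a * z * a) h2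
  have k4 := congrArg (fun z => e * z * e) h2
  have t7 : a * (a * e) = 0 := by rw [← mul_assoc, ha, zero_mul]
  have t8 : e * (e * a) = 0 := by rw [← mul_assoc, he, zero_mul]
  simp only [add_mul, mul_add, smul_mul_assoc, mul_smul_comm, hae, hea, t6, t3, ha, he, t7, t8, zero_mul, mul_zero, smul_zero, add_zero, zero_add, ← mul_assoc] at k1 k2 k3 k4
  have g10 : (g : Matrix (Fin 2) (Fin 2) k) 1 0 = 0 := by
    simpa [ha0] using k3
  have g01 : (g : Matrix (Fin 2) (Fin 2) k) 0 1 = 0 := by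
    simpa [he0] using k4
  rw [g10, zero_smul, add_zero] at k1
  rw [g01, zero_smul, add_zero] at k2
  have g00 : (g : Matrix (Fin 2) (Fin 2) k) 0 0 = 1 := by
    rcases smul_eq_zero.1 k1 with h | h
    · exact sub_eq_zero.1 h
    · exact absurd h ha0
  have g11 : (g : Matrix (Fin 2) (Fin 2) k) 1 1 = 1 := by
    rcases smul_eq_zero.1 k2 with h | h
    · exact sub_eq_zero.1 h
    · exact absurd h he0
  apply Subtype.ext
  ext i j
  fin_cases i <;> fin_cases j <;> simp [g10, g01, g00, g11]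

end phi

variable {k : Type*} [Field k] {R : Type*} [Ring R] [Algebra k R] {G : Type*} [Group G]

/-- the root subgroup attached to `a` -/
def X (k : Type*) [Field k] {R : Type*} [Ring R] [Algebra k R] {G : Type*} [Group G] (ι : G →* R) (a : R) : Subgroup G :=
  Subgroup.closure {g | ∃ c : k, ι g = 1 + c • a}

theorem one_add_mul {a : R} (ha : a * a = 0) (c d : k) : (1 + c • a) * (1 + d • a) = 1 + (c + d) • a := by
  simp only [add_mul, mul_add, one_mul, mul_one, smul_mul_smul_comm, ha, smul_zero, add_zero]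
  module

theorem map_inv_of {ι : G →* R} {a : R} (ha : a * a = 0) {g : G} {c : k} (h : ι g = 1 + c • a) :
    ι g⁻¹ = 1 + (-c) • a := by
  calc ι g⁻¹ = ι g⁻¹ * ((1 + c • a) * (1 + (-c) • a)) := by
        rw [one_add_mul ha, add_neg_cancel, zero_smul, add_zero, mul_one]
    _ = ι (g⁻¹ * g) * (1 + (-c) • a) := by rw [map_mul, h, mul_assoc]
    _ = _ := by rw [inv_mul_cancel, map_one, one_mul]

theorem mem_X {ι : G →* R} {a : R} (ha : a * a = 0) {g : G} : g ∈ X k ι a ↔ ∃ c : k, ι g = 1 + c • a := by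
  constructor
  · intro h
    unfold X at h
    induction h using Subgroup.closure_induction with
    | mem g h => exact h
    | one => exact ⟨0, by rw [map_one, zero_smul, add_zero]⟩
    | mul g h _ _ hg hh =>
      obtain ⟨c, hc⟩ := hg
      obtain ⟨d, hd⟩ := hh
      exact ⟨c + d, by rw [map_mul, hc, hd, one_add_mul ha]⟩
    | inv g _ hg =>
      obtain ⟨c, hc⟩ := hg
      exact ⟨-c, map_inv_of ha hc⟩
  · intro h
    exact Subgroup.subset_closure h

theorem X_smul {ι : G →* R} {a : R} {u : k} (hu : u ≠ 0) : X k ι (u • a) = X k ι a := by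
  unfold X
  congr 1
  ext g
  constructor
  · rintro ⟨c, hc⟩
    exact ⟨c * u, by rw [hc, smul_smul]⟩
  · rintro ⟨c, hc⟩
    exact ⟨c * u⁻¹, by rw [hc, smul_smul, mul_assoc, inv_mul_cancel₀ hu, mul_one]⟩

theorem expand1 {a b : R} (ha : a * a = 0) (h1 : a * b * a = 0) {s : k} :
    (1 + (-1 : k) • a) * (1 + s • b) * (1 + (1 : k) • a) = 1 + s • (b + b * a - a * b) := by
  have e : (1 + (-1 : k) • a) * (1 + s • b) * (1 + (1 : k) • a) =
      1 - a * a + s • (b + b * a - a * b - a * b * a) := by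
    rw [neg_one_smul, one_smul]
    simp only [add_mul, mul_add, one_mul, mul_one, smul_mul_assoc, mul_smul_comm, neg_mul, mul_assoc]
    module
  rw [e, ha, h1, sub_zero, sub_zero]

theorem expand2 {a b : R} (hb : b * b = 0) (h2 : b * a * b = 0) {t : k} :
    (1 + (-t) • b) * (1 + (1 : k) • a) * (1 + t • b) = 1 + (a + t • (a * b) - t • (b * a)) := by
  have e : (1 + (-t) • b) * (1 + (1 : k) • a) * (1 + t • b) =
      1 + (a + t • (a * b) - t • (b * a)) - (t * t) • (b * b) - (t * t) • (b * a * b) := by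
    rw [one_smul]
    simp only [add_mul, mul_add, one_mul, mul_one, smul_mul_assoc, mul_smul_comm, neg_mul, mul_assoc, neg_smul]
    module
  rw [e, hb, h2, smul_zero, sub_zero, sub_zero]

theorem expand3 {a b : R} (ha : a * a = 0) (hb : b * b = 0) (h1 : a * b * a = 0) (h2 : b * a * b = 0) {s t : k} :
    (1 + s • a) * (1 + t • b) * (1 + (-s) • a) * (1 + (-t) • b) = 1 + (s * t) • (a * b - b * a) := by
  have e : (1 + s • a) * (1 + t • b) * (1 + (-s) • a) * (1 + (-t) • b) = 1 + (s * t) • (a * b - b * a)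
      - (s * s) • (a * a) - (t * t) • (b * b) - (s * s * t) • (a * b * a) + (s * t * t) • (b * a * b) +
      (s * s * t) • (a * a * b) - (s * t * t) • (a * b * b) + (s * s * t * t) • (a * b * a * b) := by
    simp only [add_mul, mul_add, one_mul, mul_one, smul_mul_assoc, mul_smul_comm, mul_assoc]
    module
  rw [e, ha, hb, h1, h2, mul_assoc a b b, hb]
  simp

/-- data of a family of root elements -/
structure Dat (k : Type*) [Field k] {R : Type*} [Ring R] [Algebra k R] {G : Type*} [Group G] (ι : G →* R)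
    (N : Set R) : Prop where
  inj : Function.Injective ι
  ne : ∀ a ∈ N, a ≠ 0
  sq : ∀ a ∈ N, a * a = 0
  lift : ∀ a ∈ N, ∀ c : k, ∃ g : G, ι g = 1 + c • a
  conj : ∀ a ∈ N, ∀ g : G, ∃ b ∈ N, ∃ u : k, u ≠ 0 ∧ ι g * a = (u • b) * ι g
  pair : ∀ a ∈ N, ∀ b ∈ N, (∃ l : k, l ≠ 0 ∧ a * b * a = l • a ∧ b * a * b = l • b) ∨
    (a * b * a = 0 ∧ b * a * b = 0 ∧ (a * b = b * a ∨ ∃ c ∈ N, ∃ u : k, u ≠ 0 ∧ a * b - b * a = u • c))

/-- opposite elements -/
def Opp (k : Type*) [Field k] {R : Type*} [Ring R] [Algebra k R] (a b : R) : Prop :=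
  ∃ l : k, l ≠ 0 ∧ a * b * a = l • a ∧ b * a * b = l • b

/-- the set of root subgroups -/
def SX (k : Type*) [Field k] {R : Type*} [Ring R] [Algebra k R] {G : Type*} [Group G] (ι : G →* R) (N : Set R) :
    Set (Subgroup G) := {A | ∃ a ∈ N, A = X k ι a}

section
variable {ι : G →* R} {N : Set R} (hD : Dat k ι N)
include hD

theorem X_ne_one {a : R} (ha : a ∈ N) {g : G} {c : k} (h : ι g = 1 + c • a) (hg : g ≠ 1) : c ≠ 0 := by
  rintro rfl
  rw [zero_smul, add_zero] at h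
  exact hg (hD.inj (by rw [h, map_one]))

theorem X_ne_bot {a : R} (ha : a ∈ N) : X k ι a ≠ ⊥ := by
  intro h
  obtain ⟨g, hg⟩ := hD.lift a ha 1
  have h1 : g ∈ X k ι a := (mem_X (hD.sq a ha)).2 ⟨1, hg⟩
  rw [h, Subgroup.mem_bot] at h1
  rw [h1, map_one, one_smul] at hg
  exact hD.ne a ha (by simpa using hg.symm)

theorem X_comm {a b : R} (ha : a ∈ N) (hb : b ∈ N) (hab : a * b = b * a) : Com (X k ι a) (X k ι b) := by
  intro g hg h hh
  obtain ⟨c, hc⟩ := (mem_X (hD.sq a ha)).1 hg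
  obtain ⟨d, hd⟩ := (mem_X (hD.sq b hb)).1 hh
  apply hD.inj
  rw [map_mul, map_mul, hc, hd]
  simp only [add_mul, mul_add, one_mul, mul_one, smul_mul_smul_comm, hab, mul_comm d c]
  abel

theorem X_conj {a b : R} (ha : a ∈ N) (hb : b ∈ N) {g : G} {u : k} (hu : u ≠ 0) (h : ι g * a = (u • b) * ι g) :
    conjBy (X k ι a) g = X k ι b := by
  have key : ∀ {a b : R} (ha : a ∈ N) (hb : b ∈ N) {g : G} {u : k} (hu : u ≠ 0) (h : ι g * a = (u • b) * ι g),
      conjBy (X k ι a) g ≤ X k ι b := by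
    rintro a b ha hb g u hu h _ ⟨x, hx, rfl⟩
    obtain ⟨c, hc⟩ := (mem_X (hD.sq a ha)).1 hx
    refine (mem_X (hD.sq b hb)).2 ⟨c * u, ?_⟩
    show ι (g * x * g⁻¹) = _
    rw [map_mul, map_mul, hc, mul_add, mul_one, mul_smul_comm, h, add_mul, ← map_mul, mul_inv_cancel, map_one,
      smul_mul_assoc, mul_assoc, ← map_mul, mul_inv_cancel, map_one, mul_one, smul_smul]
  refine le_antisymm (key ha hb hu h) ?_
  have h2 : conjBy (X k ι b) g⁻¹ ≤ X k ι a := by
    refine key hb ha (inv_ne_zero hu) ?_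
    have h3 : ι g⁻¹ * (ι g * a) * ι g⁻¹ = ι g⁻¹ * ((u • b) * ι g) * ι g⁻¹ := by rw [h]
    rw [← mul_assoc, ← map_mul, inv_mul_cancel, map_one, one_mul, mul_assoc, mul_assoc (u • b), ← map_mul,
      mul_inv_cancel, map_one, mul_one] at h3
    rw [smul_mul_assoc, h3, mul_smul_comm, smul_smul, inv_mul_cancel₀ hu, one_smul]
  intro x hx
  rw [mem_conjBy]
  have := h2 (conj_mem_conjBy hx (g := g⁻¹))
  rwa [inv_inv] at this

theorem opp_phi {a b : R} (ha : a ∈ N) (hb : b ∈ N) (hab : Opp k a b) :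
    ∃ φ : Matrix.SpecialLinearGroup (Fin 2) k →* G, Function.Injective φ ∧ (upperUnipotentSL2 k).map φ = X k ι a ∧
      (lowerUnipotentSL2 k).map φ = X k ι b := by
  obtain ⟨l, hl, h1, h2⟩ := hab
  set e : R := l⁻¹ • b with he
  have hb' : b = l • e := by rw [he, smul_smul, mul_inv_cancel₀ hl, one_smul]
  have e1 : e * e = 0 := by rw [he, smul_mul_smul_comm, hD.sq b hb, smul_zero]
  have e2 : a * e * a = a := by
    rw [he, mul_smul_comm, smul_mul_assoc, h1, smul_smul, inv_mul_cancel₀ hl, one_smul]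
  have e3 : e * a * e = e := by
    rw [he, smul_mul_assoc, smul_mul_assoc, mul_smul_comm, h2, smul_smul l⁻¹ l, inv_mul_cancel₀ hl, one_smul]
  have ha2 := hD.sq a ha
  have hx : ∀ g : Matrix.SpecialLinearGroup (Fin 2) k, ∃ x : G, ι x = phi0 ha2 e1 e2 e3 g := by
    intro g
    have hg : g ∈ upperUnipotentSL2 k ⊔ lowerUnipotentSL2 k := by rw [sl2_gen]; exact Subgroup.mem_top _
    rw [Subgroup.sup_eq_closure] at hg
    have hinv : ∀ (g : Matrix.SpecialLinearGroup (Fin 2) k) (x : G), ι x = phi0 ha2 e1 e2 e3 g →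
        ι x⁻¹ = phi0 ha2 e1 e2 e3 g⁻¹ := by
      intro g x hx
      calc ι x⁻¹ = ι x⁻¹ * (phi0 ha2 e1 e2 e3 g * phi0 ha2 e1 e2 e3 g⁻¹) := by
            rw [← map_mul, mul_inv_cancel, map_one, mul_one]
        _ = ι x⁻¹ * ι x * phi0 ha2 e1 e2 e3 g⁻¹ := by rw [hx, mul_assoc]
        _ = _ := by rw [← map_mul, inv_mul_cancel, map_one, one_mul]
    induction hg using Subgroup.closure_induction with
    | mem g h =>
      rcases h with h | h
      · obtain ⟨x, rfl⟩ := mem_upper.1 h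
        obtain ⟨y, hy⟩ := hD.lift a ha x
        exact ⟨y, by rw [hy, phi0_uU]⟩
      · obtain ⟨x, rfl⟩ := mem_lower.1 h
        obtain ⟨y, hy⟩ := hD.lift b hb (x * l⁻¹)
        exact ⟨y, by rw [hy, phi0_lL, he, smul_smul]⟩
    | one => exact ⟨1, by rw [map_one, map_one]⟩
    | mul g h _ _ hg hh =>
      obtain ⟨x, hx⟩ := hg
      obtain ⟨y, hy⟩ := hh
      exact ⟨x * y, by rw [map_mul, map_mul, hx, hy]⟩
    | inv g _ hg =>
      obtain ⟨x, hx⟩ := hg
      exact ⟨x⁻¹, hinv g x hx⟩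
  choose f hf using hx
  let φ : Matrix.SpecialLinearGroup (Fin 2) k →* G :=
    { toFun := f
      map_one' := hD.inj (by rw [hf, map_one, map_one])
      map_mul' := fun x y => hD.inj (by rw [hf, map_mul, map_mul, hf, hf]) }
  have hφ : ∀ g, ι (φ g) = phi0 ha2 e1 e2 e3 g := hf
  refine ⟨φ, ?_, ?_, ?_⟩
  · rw [injective_iff_map_eq_one]
    intro g hg
    have h3 := hφ g
    rw [hg, map_one] at h3
    refine phi0_inj ha2 e1 e2 e3 (hD.ne a ha) ?_ h3.symm
    intro h4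
    exact hD.ne b hb (by rw [hb', h4, smul_zero])
  · ext x
    rw [mem_X ha2]
    constructor
    · rintro ⟨g, hg, rfl⟩
      obtain ⟨s, rfl⟩ := mem_upper.1 hg
      exact ⟨s, by rw [hφ, phi0_uU]⟩
    · rintro ⟨c, hc⟩
      exact ⟨uU c, mem_upper.2 ⟨c, rfl⟩, hD.inj (by rw [hφ, phi0_uU, hc])⟩
  · ext x
    rw [mem_X (hD.sq b hb)]
    constructor
    · rintro ⟨g, hg, rfl⟩
      obtain ⟨s, rfl⟩ := mem_lower.1 hg
      exact ⟨s * l⁻¹, by rw [hφ, phi0_lL, he, smul_smul]⟩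
    · rintro ⟨c, hc⟩
      exact ⟨lL (c * l), mem_lower.2 ⟨_, rfl⟩, hD.inj (by
        rw [hφ, phi0_lL, hc, he, smul_smul, mul_assoc, mul_inv_cancel₀ hl, mul_one])⟩

theorem opp_r1 {a b : R} (ha : a ∈ N) (hb : b ∈ N) (hab : Opp k a b) : IsRankOnePair (X k ι a) (X k ι b) := by
  obtain ⟨φ, h1, h2, h3⟩ := opp_phi hD ha hb hab
  rw [← h2, ← h3]
  exact (isRankOnePair_map h1).2 sl2_r1

theorem opp_psl {a b : R} (ha : a ∈ N) (hb : b ∈ N) (hab : Opp k a b) : IsPSL2PairOver k (X k ι a) (X k ι b) := by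
  obtain ⟨φ, h1, h2, h3⟩ := opp_phi hD ha hb hab
  refine ⟨φ, ?_, ?_, h2, h3⟩
  · rw [← h2, ← h3, ← Subgroup.map_sup, sl2_gen, MonoidHom.range_eq_map]
  · rw [(MonoidHom.ker_eq_bot_iff φ).2 h1]; exact bot_le

theorem r1_opp {a b : R} (ha : a ∈ N) (hb : b ∈ N) (h : IsRankOnePair (X k ι a) (X k ι b)) : Opp k a b := by
  rcases hD.pair a ha b hb with h1 | ⟨h1, h2, -⟩
  · exact h1
  · exfalso
    obtain ⟨x, hx⟩ := hD.lift a ha 1
    have hxX : x ∈ X k ι a := (mem_X (hD.sq a ha)).2 ⟨1, hx⟩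
    have hx1 : x ≠ 1 := by
      rintro rfl
      rw [map_one, one_smul] at hx
      exact hD.ne a ha (by simpa using hx.symm)
    obtain ⟨y, hy, hy1, hxy⟩ := h.cond_left x hxX hx1
    obtain ⟨t, ht⟩ := (mem_X (hD.sq b hb)).1 hy
    have ht0 := X_ne_one hD hb ht hy1
    have hm : y⁻¹ * x * y ∈ conjBy (X k ι b) x⁻¹ := by
      rw [← hxy]
      have := conj_mem_conjBy hxX (g := y⁻¹)
      rwa [inv_inv] at this
    obtain ⟨z, hz, hz'⟩ := hm
    change x⁻¹ * z * x⁻¹⁻¹ = y⁻¹ * x * y at hz'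
    rw [inv_inv] at hz'
    obtain ⟨s, hs⟩ := (mem_X (hD.sq b hb)).1 hz
    have e1 := congrArg ι hz'
    rw [map_mul, map_mul, map_mul, map_mul, map_inv_of (hD.sq a ha) hx, map_inv_of (hD.sq b hb) ht, hx, hs, ht] at e1
    have hba2 : b * (b * a) = 0 := by rw [← mul_assoc, hD.sq b hb, zero_mul]
    have hab2 : a * (a * b) = 0 := by rw [← mul_assoc, hD.sq a ha, zero_mul]
    have haba : a * (b * a) = 0 := by rw [← mul_assoc, h1]
    have hbab : b * (a * b) = 0 := by rw [← mul_assoc, h2]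
    rw [expand1 (hD.sq a ha) h1, expand2 (hD.sq b hb) h2] at e1
    have e3 := add_left_cancel e1
    have k1 : b * a = 0 := by
      have e2 := congrArg (fun w => b * w) e3
      simp only [mul_smul_comm, mul_sub, mul_add, hD.sq b hb, hba2, hbab, smul_zero, add_zero, sub_zero] at e2
      exact e2.symm
    have k2 : a * b = 0 := by
      have e2 := congrArg (fun w => w * b) e3
      have g1 : a * b * b = 0 := by rw [mul_assoc, hD.sq b hb, mul_zero]
      simp only [smul_mul_assoc, sub_mul, add_mul, hD.sq b hb, g1, h2, smul_zero, add_zero, sub_zero] at e2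
      exact e2.symm
    exact r1_not_com h (X_comm hD ha hb (by rw [k1, k2]))

theorem X_cc {a b c : R} (ha : a ∈ N) (hb : b ∈ N) (hc : c ∈ N) {u : k} (hu : u ≠ 0) (h1 : a * b * a = 0)
    (h2 : b * a * b = 0) (h : a * b - b * a = u • c) :
    RootCommutatorCase (SX k ι N) (X k ι a) (X k ι b) ∧ ⁅X k ι a, X k ι b⁆ = X k ι c := by
  have hba2 : b * (b * a) = 0 := by rw [← mul_assoc, hD.sq b hb, zero_mul]
  have hab2 : a * (a * b) = 0 := by rw [← mul_assoc, hD.sq a ha, zero_mul]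
  have haba : a * (b * a) = 0 := by rw [← mul_assoc, h1]
  have hbab : b * (a * b) = 0 := by rw [← mul_assoc, h2]
  have habb : a * (b * b) = 0 := by rw [hD.sq b hb, mul_zero]
  have hbaa : b * (a * a) = 0 := by rw [hD.sq a ha, mul_zero]
  have hcv : c = u⁻¹ • (a * b - b * a) := by rw [h, smul_smul, inv_mul_cancel₀ hu, one_smul]
  have hcom : ∀ (x y : G) (s t : k), ι x = 1 + s • a → ι y = 1 + t • b →
      ι (x * y * x⁻¹ * y⁻¹) = 1 + (s * t * u) • c := by
    intro x y s t hx hy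
    rw [map_mul, map_mul, map_mul, map_inv_of (hD.sq a ha) hx, map_inv_of (hD.sq b hb) hy, hx, hy,
      expand3 (hD.sq a ha) (hD.sq b hb) h1 h2, h, smul_smul]
  -- centrality
  have hca : a * c = 0 := by
    rw [hcv, mul_smul_comm, mul_sub, ← mul_assoc, hD.sq a ha, zero_mul, haba, sub_zero, smul_zero]
  have hac : c * a = 0 := by
    rw [hcv, smul_mul_assoc, sub_mul, h1, mul_assoc, hD.sq a ha, mul_zero, sub_zero, smul_zero]
  have hcb : b * c = 0 := by
    rw [hcv, mul_smul_comm, mul_sub, ← mul_assoc, h2, hba2, sub_zero, smul_zero]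
  have hbc : c * b = 0 := by
    rw [hcv, smul_mul_assoc, sub_mul, mul_assoc, hD.sq b hb, mul_zero, h2, sub_zero, smul_zero]
  have hgen : ∀ (a' : G) (s : k), ι a' = 1 + s • a → s ≠ 0 →
      Subgroup.closure ((fun y : G => a' * y * a'⁻¹ * y⁻¹) '' (X k ι b : Set G)) = X k ι c := by
    intro x s hx hs
    apply le_antisymm
    · rw [Subgroup.closure_le]
      rintro _ ⟨y, hy, rfl⟩
      obtain ⟨t, ht⟩ := (mem_X (hD.sq b hb)).1 hy
      exact (mem_X (hD.sq c hc)).2 ⟨_, hcom x y s t hx ht⟩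
    · intro z hz
      obtain ⟨r, hr⟩ := (mem_X (hD.sq c hc)).1 hz
      obtain ⟨y, hy⟩ := hD.lift b hb (r * s⁻¹ * u⁻¹)
      apply Subgroup.subset_closure
      refine ⟨y, (mem_X (hD.sq b hb)).2 ⟨_, hy⟩, ?_⟩
      apply hD.inj
      show ι (x * y * x⁻¹ * y⁻¹) = ι z
      rw [hcom x y s _ hx hy, hr]
      congr 2
      field_simp
  have hgen' : ∀ (b' : G) (s : k), ι b' = 1 + s • b → s ≠ 0 →
      Subgroup.closure ((fun x : G => x * b' * x⁻¹ * b'⁻¹) '' (X k ι a : Set G)) = X k ι c := by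
    intro y s hy hs
    apply le_antisymm
    · rw [Subgroup.closure_le]
      rintro _ ⟨x, hx, rfl⟩
      obtain ⟨t, ht⟩ := (mem_X (hD.sq a ha)).1 hx
      exact (mem_X (hD.sq c hc)).2 ⟨_, hcom x y t s ht hy⟩
    · intro z hz
      obtain ⟨r, hr⟩ := (mem_X (hD.sq c hc)).1 hz
      obtain ⟨x, hx⟩ := hD.lift a ha (r * s⁻¹ * u⁻¹)
      apply Subgroup.subset_closure
      refine ⟨x, (mem_X (hD.sq a ha)).2 ⟨_, hx⟩, ?_⟩
      apply hD.inj
      show ι (x * y * x⁻¹ * y⁻¹) = ι z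
      rw [hcom x y _ s hx hy, hr]
      congr 2
      field_simp
  have hE : ⁅X k ι a, X k ι b⁆ = X k ι c := by
    apply le_antisymm
    · rw [Subgroup.commutator_le]
      intro x hx y hy
      obtain ⟨s, hs⟩ := (mem_X (hD.sq a ha)).1 hx
      obtain ⟨t, ht⟩ := (mem_X (hD.sq b hb)).1 hy
      rw [commutatorElement_def]
      exact (mem_X (hD.sq c hc)).2 ⟨_, hcom x y s t hs ht⟩
    · obtain ⟨x, hx⟩ := hD.lift a ha 1
      rw [← hgen x 1 hx one_ne_zero, Subgroup.closure_le]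
      rintro _ ⟨y, hy, rfl⟩
      exact Subgroup.commutator_mem_commutator ((mem_X (hD.sq a ha)).2 ⟨1, hx⟩) hy
  refine ⟨⟨?_, ?_, ?_, ?_⟩, hE⟩
  · rw [hE]; exact ⟨c, hc, rfl⟩
  · rw [hE]
    exact ((X_comm hD hc ha (by rw [hac, hca])).sup_right (X_comm hD hc hb (by rw [hbc, hcb])))
  · intro x hx hx1
    obtain ⟨s, hs⟩ := (mem_X (hD.sq a ha)).1 hx
    rw [hE]
    exact hgen x s hs (X_ne_one hD ha hs hx1)
  · intro x hx hx1
    obtain ⟨s, hs⟩ := (mem_X (hD.sq b hb)).1 hx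
    rw [hE]
    exact hgen' x s hs (X_ne_one hD hb hs hx1)

theorem rootSet (hgen : (⨆ A ∈ SX k ι N, A) = ⊤) : IsRootSubgroupSet (SX k ι N) := by
  refine ⟨?_, ?_, hgen, ?_, ?_⟩
  · rintro _ ⟨a, ha, rfl⟩
    exact ⟨⟨fun x y => Subtype.ext (X_comm hD ha ha rfl _ x.2 _ y.2)⟩⟩
  · rintro _ ⟨a, ha, rfl⟩
    exact X_ne_bot hD ha
  · rintro _ ⟨a, ha, rfl⟩ g
    obtain ⟨b, hb, u, hu, h⟩ := hD.conj a ha g
    exact ⟨b, hb, X_conj hD ha hb hu h⟩
  · rintro _ ⟨a, ha, rfl⟩ _ ⟨b, hb, rfl⟩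
    rcases hD.pair a ha b hb with h1 | ⟨h1, h2, h3 | ⟨c, hc, u, hu, h4⟩⟩
    · exact Or.inr (Or.inl (opp_r1 hD ha hb h1))
    · exact Or.inl (com_iff.2 (X_comm hD ha hb h3))
    · exact Or.inr (Or.inr (X_cc hD ha hb hc hu h1 h2 h4).1)

theorem kRootSet (hgen : (⨆ A ∈ SX k ι N, A) = ⊤) : IsKRootSubgroupSet k (SX k ι N) := by
  refine ⟨rootSet hD hgen, ?_⟩
  rintro _ ⟨a, ha, rfl⟩ _ ⟨b, hb, rfl⟩ h
  exact opp_psl hD ha hb (r1_opp hD ha hb h)

theorem connected (hc : ∀ a ∈ N, ∀ b ∈ N, Relation.ReflTransGen (fun x y => x ∈ N ∧ y ∈ N ∧ Opp k x y) a b) :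
    IsConnectedFamily (FAdj (SX k ι N)) (SX k ι N) := by
  rintro _ ⟨a, ha, rfl⟩ _ ⟨b, hb, rfl⟩
  have h := hc a ha b hb
  induction h with
  | refl => exact Relation.ReflTransGen.refl
  | @tail c d _ hcd ih =>
    exact (ih hcd.1).tail ⟨⟨c, hcd.1, rfl⟩, ⟨d, hcd.2.1, rfl⟩, opp_r1 hD hcd.1 hcd.2.1 hcd.2.2⟩

theorem isClass (hne : N.Nonempty)
    (hc : ∀ a ∈ N, ∀ b ∈ N, Relation.ReflTransGen (fun x y => x ∈ N ∧ y ∈ N ∧ Opp k x y) a b) :
    IsConjClassOfSubgroups (SX k ι N) := by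
  refine ⟨?_, ?_⟩
  · obtain ⟨a, ha⟩ := hne
    exact ⟨_, a, ha, rfl⟩
  · intro A hA B hB
    have h := connected hD hc A hA B hB
    induction h with
    | refl => exact ⟨1, (conjBy_one A).symm⟩
    | @tail C D hAC hCD ih =>
      obtain ⟨g, hg⟩ := ih hCD.1
      obtain ⟨x, hx, hx1⟩ := le_iff_of_bot (r1_ne_bot hCD.2.2)
      obtain ⟨y, hy, hy1, h1⟩ := hCD.2.2.cond_left x hx hx1
      refine ⟨x * y⁻¹ * g, ?_⟩
      rw [← conjBy_conjBy, ← hg, ← conjBy_conjBy, h1, conjBy_conjBy, mul_inv_cancel, conjBy_one]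

theorem degenerate (hdeg : ∀ a ∈ N, ∀ b ∈ N, a * b = b * a ∨ Opp k a b) : IsDegenerateRootSet (SX k ι N) := by
  rintro _ ⟨a, ha, rfl⟩ _ ⟨b, hb, rfl⟩ h
  rcases hdeg a ha b hb with h1 | h1
  · obtain ⟨c, hc, h2⟩ := h.1
    rw [com_iff.2 (X_comm hD ha hb h1)] at h2
    exact X_ne_bot hD hc h2.symm
  · have hr := opp_r1 hD ha hb h1
    -- in the commutator case `⁅A, B⁆` centralizes `A`
    obtain ⟨x, hx, hx1⟩ := le_iff_of_bot (r1_ne_bot hr)
    obtain ⟨y, hy, hy1, h2⟩ := hr.cond_left x hx hx1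
    -- `y⁻¹ A y = x⁻¹ B x`; commutators are central
    have hcom : Com (X k ι a) (conjBy (X k ι a) y⁻¹) := by
      rintro p hp _ ⟨q, hq, rfl⟩
      change p * (y⁻¹ * q * y⁻¹⁻¹) = (y⁻¹ * q * y⁻¹⁻¹) * p
      rw [inv_inv]
      have hc : q * y⁻¹ * q⁻¹ * y⁻¹⁻¹ ∈ ⁅X k ι a, X k ι b⁆ := by
        rw [← commutatorElement_def]
        exact Subgroup.commutator_mem_commutator hq (inv_mem hy)
      rw [inv_inv] at hc
      have h3 := h.2.1 _ hc p (Subgroup.mem_sup_left hp)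
      have e : y⁻¹ * q * y = (q * y⁻¹ * q⁻¹ * y)⁻¹ * q := by group
      have h4 : p * (q * y⁻¹ * q⁻¹ * y)⁻¹ = (q * y⁻¹ * q⁻¹ * y)⁻¹ * p := by
        rw [eq_inv_mul_iff_mul_eq, ← mul_assoc, h3, mul_assoc, mul_inv_cancel, mul_one]
      calc p * (y⁻¹ * q * y) = p * (q * y⁻¹ * q⁻¹ * y)⁻¹ * q := by rw [e, ← mul_assoc]
        _ = (q * y⁻¹ * q⁻¹ * y)⁻¹ * (p * q) := by rw [h4, mul_assoc]
        _ = (q * y⁻¹ * q⁻¹ * y)⁻¹ * q * p := by rw [X_comm hD ha ha rfl p hp q hq]; group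
        _ = _ := by rw [← e]
    exact r1_not_com_conj hr (inv_mem hy) (inv_ne_one.2 hy1) hcom

end

end Cfsg.Agent.H84.RD
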