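import Mathlib
import Cfsg.Agent.H84.RDat
set_option autoImplicit false

/-! Restriction of the data to the subgroup generated by the root subgroups. -/

namespace Cfsg.Agent.H84.RD

open Cfsg
open scoped commutatorElement

variable {k : Type*} [Field k] {R : Type*} [Ring R] [Algebra k R] {G : Type*} [Group G] {ι : G →* R} {N : Set R}

theorem X_subgroupOf {a : R} (ha : a * a = 0) (K : Subgroup G) :
    (X k ι a).subgroupOf K = X k (ι.comp K.subtype) a := by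
  ext g
  rw [Subgroup.mem_subgroupOf, mem_X ha, mem_X ha]
  rfl

theorem SX_sub (hD : Dat k ι N) (K : Subgroup G) :
    (fun A : Subgroup G => A.subgroupOf K) '' SX k ι N = SX k (ι.comp K.subtype) N := by
  ext A
  constructor
  · rintro ⟨_, ⟨a, ha, rfl⟩, rfl⟩
    exact ⟨a, ha, X_subgroupOf (hD.sq a ha) K⟩
  · rintro ⟨a, ha, rfl⟩
    exact ⟨_, ⟨a, ha, rfl⟩, X_subgroupOf (hD.sq a ha) K⟩

theorem dat_sub (hD : Dat k ι N) {K : Subgroup G} (hK : ∀ A ∈ SX k ι N, A ≤ K) : Dat k (ι.comp K.subtype) N where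
  inj := hD.inj.comp K.subtype_injective
  ne := hD.ne
  sq := hD.sq
  lift := by
    intro a ha c
    obtain ⟨g, hg⟩ := hD.lift a ha c
    exact ⟨⟨g, hK _ ⟨a, ha, rfl⟩ ((mem_X (hD.sq a ha)).2 ⟨c, hg⟩)⟩, hg⟩
  conj := fun a ha g => hD.conj a ha g
  pair := hD.pair

theorem gen_sub (hD : Dat k ι N) : (⨆ A ∈ SX k (ι.comp (⨆ A ∈ SX k ι N, A).subtype) N, A) = ⊤ := by
  set K : Subgroup G := ⨆ A ∈ SX k ι N, A with hKdef
  have hK : ∀ A ∈ SX k ι N, A ≤ K := fun A hA => le_iSup₂_of_le A hA le_rfl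
  rw [← SX_sub hD K, eq_top_iff]
  have h1 : (⊤ : Subgroup K).map K.subtype ≤ (⨆ A ∈ (fun A : Subgroup G => A.subgroupOf K) '' SX k ι N, A).map K.subtype := by
    rw [← MonoidHom.range_eq_map, Subgroup.range_subtype]
    conv_lhs => rw [hKdef]
    refine iSup₂_le fun A hA => ?_
    intro x hx
    refine ⟨⟨x, hK A hA hx⟩, ?_, rfl⟩
    exact Subgroup.mem_iSup_of_mem (A.subgroupOf K) (Subgroup.mem_iSup_of_mem ⟨A, hA, rfl⟩ (Subgroup.mem_subgroupOf.2 hx))
  intro x _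
  obtain ⟨y, hy, hxy⟩ := h1 ⟨x, Subgroup.mem_top _, rfl⟩
  rwa [K.subtype_injective hxy] at hy

end Cfsg.Agent.H84.RD
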