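import Mathlib
import Cfsg.Agent.H84.RDatSub
import Cfsg.Agent.Orth.Bridge
set_option autoImplicit false

/-! Siegel transvection subgroups of orthogonal groups. -/

namespace Cfsg.Agent.H84.RDO

open Cfsg QuadraticMap
open Cfsg.Agent.H84 Cfsg.Agent.H84.RD Cfsg.Agent.Orth

variable {F V : Type*} [Field F] [AddCommGroup V] [Module F V] (Q : QuadraticForm F V)

/-- inclusion of the orthogonal group in the endomorphism ring -/
def iO : ↥(OGrp Q) →* Module.End F V where
  toFun g := ((g : V ≃ₗ[F] V) : V →ₗ[F] V)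
  map_one' := rfl
  map_mul' _ _ := rfl

/-- the Siegel element of a pair of vectors -/
def sE (p r : V) : Module.End F V :=
  ((polarBilin Q).flip p).smulRight r - ((polarBilin Q).flip r).smulRight p

variable {Q} in
theorem sE_apply (p r v : V) : sE Q p r v = polar Q v p • r - polar Q v r • p := by
  simp [sE]

/-- a basis of a singular line -/
structure Ln (p r : V) : Prop where
  li : ∀ s t : F, s • p + t • r = 0 → s = 0 ∧ t = 0
  q1 : Q p = 0
  q2 : Q r = 0
  q3 : polar Q p r = 0

/-- the set of Siegel elements -/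
def NO : Set (Module.End F V) := {a | ∃ p r : V, Ln Q p r ∧ a = sE Q p r}

variable {Q}

theorem Ln.q4 {p r : V} (h : Ln Q p r) : polar Q r p = 0 := by rw [pc, h.q3]
theorem Ln.b1 {p r : V} (h : Ln Q p r) : polar Q p p = 0 := by rw [pself, h.q1, mul_zero]
theorem Ln.b2 {p r : V} (h : Ln Q p r) : polar Q r r = 0 := by rw [pself, h.q2, mul_zero]

theorem Ln.swap {p r : V} (h : Ln Q p r) : Ln Q r p :=
  ⟨fun s t hst => (h.li t s (by rw [add_comm]; exact hst)).symm, h.q2, h.q1, h.q4⟩

theorem Ln.ne1 {p r : V} (h : Ln Q p r) : p ≠ 0 := by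
  rintro rfl
  exact one_ne_zero (h.li 1 0 (by simp)).1

theorem Ln.ne2 {p r : V} (h : Ln Q p r) : r ≠ 0 := h.swap.ne1

theorem Ln.smul2 {p r : V} (h : Ln Q p r) {c : F} (hc : c ≠ 0) : Ln Q p (c • r) := by
  refine ⟨fun s t hst => ?_, h.q1, by rw [qsmul, h.q2, mul_zero], by rw [psr, h.q3, mul_zero]⟩
  rw [smul_smul] at hst
  obtain ⟨h1, h2⟩ := h.li s (t * c) hst
  exact ⟨h1, (mul_eq_zero.1 h2).resolve_right hc⟩

theorem sE_smul2 (p r : V) (c : F) : sE Q p (c • r) = c • sE Q p r := by
  ext v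
  rw [LinearMap.smul_apply, sE_apply, sE_apply, psr]
  module

theorem sE_smul1 (p r : V) (c : F) : sE Q (c • p) r = c • sE Q p r := by
  ext v
  rw [LinearMap.smul_apply, sE_apply, sE_apply, psr]
  module

theorem sE_swap (p r : V) : sE Q r p = - sE Q p r := by
  ext v
  rw [LinearMap.neg_apply, sE_apply, sE_apply]
  module

theorem NO_smul {a : Module.End F V} (ha : a ∈ NO Q) {c : F} (hc : c ≠ 0) : c • a ∈ NO Q := by
  obtain ⟨p, r, h, rfl⟩ := ha
  exact ⟨p, c • r, h.smul2 hc, (sE_smul2 p r c).symm⟩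

theorem sE_mul3 {p r : V} (h : Ln Q p r) (s t : V) : sE Q p r * sE Q s t * sE Q p r =
    (-(polar Q p s * polar Q r t - polar Q p t * polar Q r s)) • sE Q p r := by
  ext v
  rw [LinearMap.smul_apply, Module.End.mul_apply, Module.End.mul_apply, sE_apply p r v, map_sub, map_smul, map_smul,
    sE_apply s t r, sE_apply s t p]
  simp only [map_sub, map_smul]
  rw [sE_apply p r s, sE_apply p r t, pc Q s p, pc Q s r, pc Q t p, pc Q t r]
  module

theorem sq_zero {p r : V} (h : Ln Q p r) : sE Q p r * sE Q p r = 0 := by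
  ext v
  rw [Module.End.mul_apply, sE_apply p r v, map_sub, map_smul, map_smul, sE_apply p r r, sE_apply p r p, h.b1, h.b2, h.q3, h.q4]
  simp

/-- the non-opposite relation -/
def PP (a b : Module.End F V) : Prop := a * b = b * a ∨ ∃ c ∈ NO Q, ∃ u : F, u ≠ 0 ∧ a * b - b * a = u • c

theorem PP.neg1 {a b : Module.End F V} (h : PP (Q := Q) a b) : PP (Q := Q) (-a) b := by
  rcases h with h | ⟨c, hc, u, hu, h⟩
  · left; rw [neg_mul, mul_neg, h]
  · right; exact ⟨c, hc, -u, neg_ne_zero.2 hu, by rw [neg_mul, mul_neg, neg_smul, ← h]; abel⟩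

theorem PP.neg2 {a b : Module.End F V} (h : PP (Q := Q) a b) : PP (Q := Q) a (-b) := by
  rcases h with h | ⟨c, hc, u, hu, h⟩
  · left; rw [neg_mul, mul_neg, h]
  · right; exact ⟨c, hc, -u, neg_ne_zero.2 hu, by rw [neg_mul, mul_neg, neg_smul, ← h]; abel⟩

theorem core {p r s t : V} (h : Ln Q p r) (h' : Ln Q s t) (hps : polar Q p s ≠ 0)
    (hD : polar Q p s * polar Q r t - polar Q p t * polar Q r s = 0) : PP (Q := Q) (sE Q p r) (sE Q s t) := by
  set α := polar Q p s with hα
  set r' : V := r - (polar Q r s / α) • p with hr'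
  set t' : V := t - (polar Q p t / α) • s with ht'
  have e1 : sE Q p r = sE Q p r' := by
    ext v
    rw [sE_apply, sE_apply, hr', pdr, psr]
    module
  have e2 : sE Q s t = sE Q s t' := by
    ext v
    rw [sE_apply, sE_apply, ht', pdr, psr]
    module
  have f1 : polar Q r' s = 0 := by
    rw [hr', pdl, psl, ← hα, div_mul_cancel₀ _ hps, sub_self]
  have f2 : polar Q p t' = 0 := by
    rw [ht', pdr, psr, ← hα, div_mul_cancel₀ _ hps, sub_self]
  have f3 : polar Q r' t' = 0 := by
    have : polar Q r' t' = polar Q r' t := by rw [ht', pdr, psr, f1, mul_zero, sub_zero]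
    rw [this, hr', pdl, psl]
    field_simp
    linear_combination hD
  have f4 : polar Q r' p = 0 := by rw [hr', pdl, psl, h.b1, h.q4, mul_zero, sub_zero]
  have f5 : polar Q t' s = 0 := by rw [ht', pdl, psl, h'.b1, h'.q4, mul_zero, sub_zero]
  have g1 : Q r' = 0 := by rw [hr', qsub, qsmul, psr, h.q1, h.q2, h.q4]; simp
  have g2 : Q t' = 0 := by rw [ht', qsub, qsmul, psr, h'.q1, h'.q2, h'.q4]; simp
  have key : sE Q p r' * sE Q s t' - sE Q s t' * sE Q p r' = α • sE Q r' t' := by
    ext v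
    rw [LinearMap.sub_apply, Module.End.mul_apply, Module.End.mul_apply, LinearMap.smul_apply, sE_apply s t' v,
      sE_apply p r' v, map_sub, map_sub, map_smul, map_smul, map_smul, map_smul, sE_apply p r' s, sE_apply p r' t',
      sE_apply s t' r', sE_apply s t' p, sE_apply r' t' v, pc Q s p, pc Q s r', pc Q t' p, pc Q t' r', f1, f2, f3, ← hα]
    module
  rw [e1, e2]
  by_cases hli : ∀ a b : F, a • r' + b • t' = 0 → a = 0 ∧ b = 0
  · right
    exact ⟨sE Q r' t', ⟨r', t', ⟨hli, g1, g2, f3⟩, rfl⟩, α, hps, key⟩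
  · left
    push Not at hli
    obtain ⟨a, b, hab, hne⟩ := hli
    have h0 : sE Q r' t' = 0 := by
      by_cases ha : a = 0
      · have hb : b ≠ 0 := hne ha
        rw [ha, zero_smul, zero_add] at hab
        have : t' = 0 := (smul_eq_zero.1 hab).resolve_left hb
        ext v
        rw [sE_apply, this]; simp
      · have : r' = (-(b / a)) • t' := by
          have h1 : a • r' = -(b • t') := eq_neg_of_add_eq_zero_left hab
          calc r' = a⁻¹ • (a • r') := by rw [smul_smul, inv_mul_cancel₀ ha, one_smul]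
            _ = _ := by rw [h1]; module
        ext v
        rw [sE_apply, this, psr]
        simp only [LinearMap.zero_apply]
        module
    rw [h0, smul_zero] at key
    exact sub_eq_zero.1 key

theorem pair_pp {p r s t : V} (h : Ln Q p r) (h' : Ln Q s t)
    (hD : polar Q p s * polar Q r t - polar Q p t * polar Q r s = 0) : PP (Q := Q) (sE Q p r) (sE Q s t) := by
  by_cases h1 : polar Q p s = 0
  · by_cases h2 : polar Q p t = 0
    · by_cases h3 : polar Q r s = 0
      · by_cases h4 : polar Q r t = 0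
        · left
          have e : sE Q p r * sE Q s t = 0 := by
            ext v
            rw [Module.End.mul_apply, sE_apply s t v, map_sub, map_smul, map_smul, sE_apply, sE_apply, pc Q s p, pc Q s r,
              pc Q t p, pc Q t r, h1, h2, h3, h4]
            simp
          have e' : sE Q s t * sE Q p r = 0 := by
            ext v
            rw [Module.End.mul_apply, sE_apply p r v, map_sub, map_smul, map_smul, sE_apply, sE_apply, h1, h2, h3, h4]
            simp
          rw [e, e']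
        · have := core h.swap h'.swap h4 (by linear_combination hD)
          rw [sE_swap p r, sE_swap s t] at this
          have := this.neg1.neg2
          rwa [neg_neg, neg_neg] at this
      · have := core h.swap h' h3 (by linear_combination -hD)
        rw [sE_swap p r] at this
        have := this.neg1
        rwa [neg_neg] at this
    · have := core h h'.swap h2 (by linear_combination -hD)
      rw [sE_swap s t] at this
      have := this.neg2
      rwa [neg_neg] at this
  · exact core h h' h1 hD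

/-- nondegeneracy in elementary form -/
def ND (Q : QuadraticForm F V) : Prop := ∀ u : V, (∀ v, polar Q u v = 0) → u = 0

theorem exists_pne (hQ : ND Q) {p : V} (hp : p ≠ 0) : ∃ v, polar Q v p = 1 := by
  obtain ⟨v, hv⟩ : ∃ v, polar Q p v ≠ 0 := by
    by_contra hcon
    push Not at hcon
    exact hp (hQ p hcon)
  exact ⟨(polar Q p v)⁻¹ • v, by rw [psl, pc Q v p, inv_mul_cancel₀ hv]⟩

theorem exists_dual (hQ : ND Q) {p r : V} (h : ∀ s t : F, s • p + t • r = 0 → s = 0 ∧ t = 0) :
    ∃ v, polar Q v p = 0 ∧ polar Q v r = 1 := by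
  by_contra hcon
  push Not at hcon
  -- every `v ⊥ p` is `⊥ r`
  have h1 : ∀ v, polar Q v p = 0 → polar Q v r = 0 := by
    intro v hv
    by_contra h2
    exact hcon ((polar Q v r)⁻¹ • v) (by rw [psl, hv, mul_zero]) (by rw [psl, inv_mul_cancel₀ h2])
  have hp : p ≠ 0 := by
    rintro rfl
    exact one_ne_zero (h 1 0 (by simp)).1
  obtain ⟨w, hw⟩ := exists_pne hQ hp
  have h2 : r - polar Q w r • p = 0 := by
    apply hQ
    intro v
    have h3 := h1 (v - polar Q v p • w) (by rw [pdl, psl, hw, mul_one, sub_self])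
    rw [pdl, psl] at h3
    rw [pdl, psl, pc Q r v, pc Q p v]
    linear_combination h3
  have h3 := (h (-(polar Q w r)) 1 (by rw [← h2]; module)).2
  exact one_ne_zero h3

theorem N_ne (hQ : ND Q) {p r : V} (h : Ln Q p r) : sE Q p r ≠ 0 := by
  intro h0
  obtain ⟨v, hv1, hv2⟩ := exists_dual hQ h.li
  have := congrArg (fun f : Module.End F V => f v) h0
  simp only [sE_apply, hv1, hv2, LinearMap.zero_apply, zero_smul, zero_sub, one_smul, neg_eq_zero] at this
  exact h.ne1 this

section dat
variable {G : Type*} [Group G] (e : G ≃* ↥(OGrp Q))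

/-- the action homomorphism -/
def iG : G →* Module.End F V := (iO Q).comp e.toMonoidHom

theorem iG_apply (g : G) (v : V) : iG e g v = (e g : V ≃ₗ[F] V) v := rfl

theorem iG_polar (g : G) (v w : V) : polar Q (iG e g v) (iG e g w) = polar Q v w := OGrp_polar (e g) v w
theorem iG_q (g : G) (v : V) : Q (iG e g v) = Q v := OGrp_q (e g) v

theorem iG_inj (g : G) {v : V} (h : iG e g v = 0) : v = 0 := by
  rw [iG_apply] at h
  exact (LinearEquiv.map_eq_zero_iff _).1 h

theorem datO (hQ : ND Q) : Dat F (iG e) (NO Q) where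
  inj := by
    intro g h hgh
    apply e.injective
    apply OGrp_ext
    intro x
    have := congrArg (fun f : Module.End F V => f x) hgh
    exact this
  ne := by
    rintro _ ⟨p, r, h, rfl⟩
    exact N_ne hQ h
  sq := by
    rintro _ ⟨p, r, h, rfl⟩
    exact sq_zero h
  lift := by
    rintro _ ⟨p, r, h, rfl⟩ c
    refine ⟨e.symm (eich Q p (-(c • r)) h.q1 (by rw [polar_neg_right, psr, h.q3, mul_zero, neg_zero])), ?_⟩
    ext v
    rw [iG_apply, MulEquiv.apply_symm_apply, eich_apply, QuadraticMap.map_neg, qsmul, h.q2, polar_neg_right, psr,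
      LinearMap.add_apply, LinearMap.smul_apply, sE_apply, Module.End.one_apply]
    module
  conj := by
    rintro _ ⟨p, r, h, rfl⟩ g
    refine ⟨sE Q (iG e g p) (iG e g r), ⟨_, _, ⟨?_, ?_, ?_, ?_⟩, rfl⟩, 1, one_ne_zero, ?_⟩
    · intro s t hst
      rw [← map_smul, ← map_smul, ← map_add] at hst
      exact h.li s t (iG_inj e g hst)
    · rw [iG_q, h.q1]
    · rw [iG_q, h.q2]
    · rw [iG_polar, h.q3]
    · ext v
      rw [one_smul, Module.End.mul_apply, Module.End.mul_apply, sE_apply, sE_apply, iG_polar, iG_polar, map_sub, map_smul,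
        map_smul]
  pair := by
    rintro _ ⟨p, r, h, rfl⟩ _ ⟨s, t, h', rfl⟩
    by_cases hD : polar Q p s * polar Q r t - polar Q p t * polar Q r s = 0
    · right
      refine ⟨by rw [sE_mul3 h, hD, neg_zero, zero_smul], ?_, pair_pp h h' hD⟩
      rw [sE_mul3 h', pc Q s p, pc Q t r, pc Q s r, pc Q t p]
      have : polar Q p s * polar Q r t - polar Q r s * polar Q p t = 0 := by linear_combination hD
      rw [this, neg_zero, zero_smul]
    · left
      refine ⟨_, neg_ne_zero.2 hD, sE_mul3 h s t, ?_⟩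
      rw [sE_mul3 h', pc Q s p, pc Q t r, pc Q s r, pc Q t p]
      congr 2
      ring

end dat

theorem opp_of {p r s t : V} (h : Ln Q p r) (h' : Ln Q s t)
    (hD : polar Q p s * polar Q r t - polar Q p t * polar Q r s ≠ 0) : Opp F (sE Q p r) (sE Q s t) := by
  refine ⟨_, neg_ne_zero.2 hD, sE_mul3 h s t, ?_⟩
  rw [sE_mul3 h', pc Q s p, pc Q t r, pc Q s r, pc Q t p]
  congr 2
  ring

theorem base_change {s1 s2 t : V} (h : Ln Q s1 s2) {α β : F} (ht : t = α • s1 + β • s2) (h0 : t ≠ 0) :
    ∃ s' : V, Ln Q t s' ∧ sE Q t s' = sE Q s1 s2 := by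
  by_cases hα : α = 0
  · have hβ : β ≠ 0 := by
      rintro rfl
      exact h0 (by rw [ht, hα]; simp)
    have ht' : t = β • s2 := by rw [ht, hα, zero_smul, zero_add]
    refine ⟨(-β⁻¹) • s1, ?_, ?_⟩
    · have h1 := (h.smul2 hβ).swap.smul2 (neg_ne_zero.2 (inv_ne_zero hβ))
      rwa [← ht'] at h1
    · rw [ht', sE_smul1, sE_smul2, sE_swap s1 s2, smul_smul]
      simp [hβ]
  · refine ⟨α⁻¹ • s2, ⟨?_, ?_, ?_, ?_⟩, ?_⟩
    · intro a b hab
      rw [ht] at hab
      obtain ⟨h1, h2⟩ := h.li (a * α) (a * β + b * α⁻¹) (by rw [← hab]; module)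
      have ha : a = 0 := (mul_eq_zero.1 h1).resolve_right hα
      refine ⟨ha, ?_⟩
      rw [ha, zero_mul, zero_add] at h2
      exact (mul_eq_zero.1 h2).resolve_right (inv_ne_zero hα)
    · rw [ht, qadd, qsmul, qsmul, psl, psr, h.q1, h.q2, h.q3]; simp
    · rw [qsmul, h.q2, mul_zero]
    · rw [ht, psr, pal, psl, psl, h.q3, h.b2]; simp
    · ext v
      rw [sE_apply, sE_apply, ht, par, psr, psr, psr]
      have : α * α⁻¹ = 1 := mul_inv_cancel₀ hα
      have e : (α * polar Q v s1 + β * polar Q v s2) • α⁻¹ • s2 - (α⁻¹ * polar Q v s2) • (α • s1 + β • s2) =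
          ((α * α⁻¹) * polar Q v s1) • s2 - ((α * α⁻¹) * polar Q v s2) • s1 := by module
      rw [e, this, one_mul, one_mul]

/-- there are enough vectors -/
def Big (Q : QuadraticForm F V) : Prop := ∀ a b c d : V, ∃ z : V, z ≠ 0 ∧ polar Q z a = 0 ∧ polar Q z b = 0 ∧
  polar Q z c = 0 ∧ polar Q z d = 0

theorem exists_y (hQ : ND Q) (hB : Big Q) {p r r' : V} (h : Ln Q p r) (h' : Ln Q p r') :
    ∃ y : V, Q y = 0 ∧ polar Q y p = 0 ∧ polar Q y r ≠ 0 ∧ polar Q y r' ≠ 0 := by
  by_cases hrr : polar Q r r' = 0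
  · obtain ⟨v1, a1, a2⟩ := exists_dual hQ h.li
    obtain ⟨v2, b1, b2⟩ := exists_dual hQ h'.li
    obtain ⟨v, c1, c2, c3⟩ : ∃ v, polar Q v p = 0 ∧ polar Q v r ≠ 0 ∧ polar Q v r' ≠ 0 := by
      by_cases h3 : polar Q v1 r' = 0
      · by_cases h4 : polar Q v2 r = 0
        · refine ⟨v1 + v2, by rw [pal, a1, b1, add_zero], ?_, ?_⟩
          · rw [pal, h4, add_zero, a2]; exact one_ne_zero
          · rw [pal, h3, zero_add, b2]; exact one_ne_zero
        · exact ⟨v2, b1, h4, by rw [b2]; exact one_ne_zero⟩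
      · exact ⟨v1, a1, by rw [a2]; exact one_ne_zero, h3⟩
    refine ⟨v + (-(Q v) / polar Q v r) • r, ?_, ?_, ?_, ?_⟩
    · rw [qadd, qsmul, h.q2, psr]
      field_simp
      ring
    · rw [pal, psl, c1, h.q4, mul_zero, add_zero]
    · rw [pal, psl, h.b2, mul_zero, add_zero]; exact c2
    · rw [pal, psl, hrr, mul_zero, add_zero]; exact c3
  · have hr'r : polar Q r' r ≠ 0 := by rw [pc]; exact hrr
    obtain ⟨z, hz1, hz2, hz3, hz4⟩ : ∃ z, polar Q z p = 0 ∧ polar Q z r = 0 ∧ polar Q z r' = 0 ∧ Q z ≠ 0 := by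
      by_contra hcon
      push Not at hcon
      obtain ⟨w, hw⟩ := exists_pne hQ h.ne1
      set lam := polar Q r r' with hlam
      set p' : V := w - (polar Q w r' / lam) • r - (polar Q w r / lam) • r' with hp'
      have e1 : polar Q p' p = 1 := by
        rw [hp', pdl, pdl, psl, psl, h.q4, h'.q4, hw]; ring
      have e2 : polar Q p' r = 0 := by
        rw [hp', pdl, pdl, psl, psl, h.b2, pc Q r' r, ← hlam]; field_simp; ring
      have e3 : polar Q p' r' = 0 := by
        rw [hp', pdl, pdl, psl, psl, h'.b2, ← hlam]; field_simp; ring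
      obtain ⟨z, hz0, hzp, hzr, hzr', hzp'⟩ := hB p r r' p'
      apply hz0
      apply hQ
      intro v
      set v' : V := v - polar Q v p • p' - (polar Q v r' / lam) • r - (polar Q v r / lam) • r' with hv'
      have f1 : polar Q v' p = 0 := by
        rw [hv', pdl, pdl, pdl, psl, psl, psl, h.q4, h'.q4, e1]; ring
      have f2 : polar Q v' r = 0 := by
        rw [hv', pdl, pdl, pdl, psl, psl, psl, h.b2, pc Q r' r, ← hlam, e2]; field_simp; ring
      have f3 : polar Q v' r' = 0 := by
        rw [hv', pdl, pdl, pdl, psl, psl, psl, h'.b2, ← hlam, e3]; field_simp; ring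
      have g1 := hcon z hzp hzr hzr'
      have g2 := hcon v' f1 f2 f3
      have g3 := hcon (z + v') (by rw [pal, hzp, f1, add_zero]) (by rw [pal, hzr, f2, add_zero]) (by rw [pal, hzr', f3, add_zero])
      rw [qadd, g1, g2, zero_add, zero_add, hv', pdr, pdr, pdr, psr, psr, psr, hzp', hzr, hzr'] at g3
      linear_combination g3
    refine ⟨r + (-(Q z) / polar Q r r') • r' + z, ?_, ?_, ?_, ?_⟩
    · rw [qadd, qadd, qsmul, h.q2, h'.q2, psr, pal, psl, pc Q r z, pc Q r' z, hz2, hz3]
      field_simp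
      ring
    · rw [pal, pal, psl, h.q4, h'.q4, hz1]; ring
    · rw [pal, pal, psl, h.b2, hz2, zero_add, add_zero, pc Q r' r, div_mul_cancel₀ _ hrr]
      exact neg_ne_zero.2 hz4
    · rw [pal, pal, psl, h'.b2, hz3, mul_zero, add_zero, add_zero]; exact hrr

theorem stepA (hQ : ND Q) (hB : Big Q) {p r r' : V} (h : Ln Q p r) (h' : Ln Q p r') :
    ∃ x y : V, Ln Q x y ∧ Opp F (sE Q p r) (sE Q x y) ∧ Opp F (sE Q x y) (sE Q p r') := by
  obtain ⟨y, hy1, hy2, hy3, hy4⟩ := exists_y hQ hB h h'
  -- `x`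
  have hli : ∀ s t : F, s • y + t • p = 0 → s = 0 ∧ t = 0 := by
    intro s t hst
    have h1 : polar Q (s • y + t • p) r = 0 := by rw [hst]; exact polar_zero_left Q r
    rw [pal, psl, psl, h.q3, mul_zero, add_zero] at h1
    have hs := (mul_eq_zero.1 h1).resolve_right hy3
    rw [hs, zero_smul, zero_add] at hst
    exact ⟨hs, (smul_eq_zero.1 hst).resolve_right h.ne1⟩
  obtain ⟨v, hv1, hv2⟩ := exists_dual hQ hli
  set x : V := v + (-(Q v)) • p with hx
  have x1 : Q x = 0 := by rw [hx, qadd, qsmul, h.q1, psr, hv2]; ring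
  have x2 : polar Q x y = 0 := by rw [hx, pal, psl, hv1, pc Q p y, hy2]; ring
  have x3 : polar Q x p = 1 := by rw [hx, pal, psl, hv2, h.b1]; ring
  have y0 : y ≠ 0 := by
    rintro rfl
    exact hy3 (polar_zero_left Q r)
  have hl : Ln Q x y := by
    refine ⟨?_, x1, hy1, x2⟩
    intro s t hst
    have h1 : polar Q (s • x + t • y) p = 0 := by rw [hst]; exact polar_zero_left Q p
    rw [pal, psl, psl, x3, hy2, mul_one, mul_zero, add_zero] at h1
    rw [h1, zero_smul, zero_add] at hst
    exact ⟨h1, (smul_eq_zero.1 hst).resolve_right y0⟩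
  refine ⟨x, y, hl, opp_of h hl ?_, opp_of hl h' ?_⟩
  · rw [pc Q p x, pc Q r y, pc Q p y, x3, hy2]
    simpa using hy3
  · rw [x3, hy2]
    simpa using hy4

theorem conn (hQ : ND Q) (hB : Big Q) : ∀ a ∈ NO Q, ∀ b ∈ NO Q,
    Relation.ReflTransGen (fun x y => x ∈ NO Q ∧ y ∈ NO Q ∧ Opp F x y) a b := by
  have step : ∀ {p r r' : V}, Ln Q p r → Ln Q p r' →
      Relation.ReflTransGen (fun x y => x ∈ NO Q ∧ y ∈ NO Q ∧ Opp F x y) (sE Q p r) (sE Q p r') := by
    intro p r r' h h'
    obtain ⟨x, y, hl, h1, h2⟩ := stepA hQ hB h h'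
    exact (Relation.ReflTransGen.single ⟨⟨p, r, h, rfl⟩, ⟨x, y, hl, rfl⟩, h1⟩).tail ⟨⟨x, y, hl, rfl⟩, ⟨p, r', h', rfl⟩, h2⟩
  rintro _ ⟨p1, p2, h, rfl⟩ _ ⟨s1, s2, h', rfl⟩
  obtain ⟨t, s', ht, hts, hs'⟩ : ∃ t s' : V, polar Q t p1 = 0 ∧ Ln Q t s' ∧ sE Q t s' = sE Q s1 s2 := by
    by_cases h1 : polar Q s1 p1 = 0
    · exact ⟨s1, s2, h1, h', rfl⟩
    · have ht0 : polar Q s2 p1 • s1 + (-(polar Q s1 p1)) • s2 ≠ 0 := fun h0 =>
        h1 (neg_eq_zero.1 (h'.li _ _ h0).2)
      obtain ⟨s', hl, he⟩ := base_change h' rfl ht0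
      exact ⟨_, s', by rw [pal, psl, psl]; ring, hl, he⟩
  rw [← hs']
  by_cases hli : ∀ a b : F, a • p1 + b • t = 0 → a = 0 ∧ b = 0
  · have hl : Ln Q p1 t := ⟨hli, h.q1, hts.q1, by rw [pc, ht]⟩
    have h1 := step h hl
    have h2 := step (hl.swap.smul2 (neg_ne_zero.2 one_ne_zero)) hts
    have h3 : sE Q t ((-1 : F) • p1) = sE Q p1 t := by
      rw [sE_smul2, sE_swap p1 t]; simp
    rw [h3] at h2
    exact h1.trans h2
  · push Not at hli
    obtain ⟨a, b, hab, hne⟩ := hli
    have hb : b ≠ 0 := by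
      rintro rfl
      rw [zero_smul, add_zero] at hab
      have ha := (smul_eq_zero.1 hab).resolve_right h.ne1
      exact hne ha rfl
    set κ : F := -(a / b) with hκ
    have htk : t = κ • p1 := by
      have h1 : b • t = -(a • p1) := eq_neg_of_add_eq_zero_right hab
      calc t = b⁻¹ • (b • t) := by rw [smul_smul, inv_mul_cancel₀ hb, one_smul]
        _ = _ := by rw [h1, hκ]; module
    have hκ0 : κ ≠ 0 := by
      intro h0
      exact hts.ne1 (by rw [htk, h0, zero_smul])
    have hl : Ln Q p1 (κ • s') := by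
      have h1 : Ln Q s' (κ⁻¹ • t) := hts.swap.smul2 (inv_ne_zero hκ0)
      rw [htk, smul_smul, inv_mul_cancel₀ hκ0, one_smul] at h1
      exact h1.swap.smul2 hκ0
    have h1 := step h hl
    rwa [sE_smul2, ← sE_smul1, ← htk] at h1

theorem T_eq (hQ : ND Q) {G : Type*} [Group G] (e : G ≃* ↥(OGrp Q)) {p r : V} (h : Ln Q p r) :
    Subgroup.closure {g : G | ∀ v : V, polar Q v p = 0 → polar Q v r = 0 → iG e g v = v} = X F (iG e) (sE Q p r) := by
  unfold X
  congr 1
  ext g
  constructor
  · intro hg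
    obtain ⟨y, hy1, hy2⟩ := exists_dual hQ h.li
    obtain ⟨x, hx2, hx1⟩ := exists_dual hQ h.swap.li
    set σ := iG e g with hσ
    set X := σ x - x with hX
    set Y := σ y - y with hY
    have hv : ∀ v : V, σ v = v + polar Q v p • X + polar Q v r • Y := by
      intro v
      set w : V := v - polar Q v p • x - polar Q v r • y with hw
      have h1 : σ w = w := by
        apply hg
        · rw [hw, pdl, pdl, psl, psl, hx1, hy1]; ring
        · rw [hw, pdl, pdl, psl, psl, hx2, hy2]; ring
      have h2 : v = w + polar Q v p • x + polar Q v r • y := by rw [hw]; abel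
      calc σ v = σ w + polar Q v p • σ x + polar Q v r • σ y := by
            conv_lhs => rw [h2]
            rw [map_add, map_add, map_smul, map_smul]
        _ = w + polar Q v p • (X + x) + polar Q v r • (Y + y) := by rw [h1, hX, hY]; simp
        _ = (w + polar Q v p • x + polar Q v r • y) + polar Q v p • X + polar Q v r • Y := by module
        _ = _ := by rw [← h2]
    have hfix : ∀ w : V, polar Q w p = 0 → polar Q w r = 0 → polar Q X w = 0 ∧ polar Q Y w = 0 := by
      intro w h1 h2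
      have h3 : σ w = w := hg w h1 h2
      constructor
      · rw [hX, pdl]
        nth_rewrite 1 [← h3]
        rw [iG_polar, sub_self]
      · rw [hY, pdl]
        nth_rewrite 1 [← h3]
        rw [iG_polar, sub_self]
    have hin : ∀ Z : V, (∀ w : V, polar Q w p = 0 → polar Q w r = 0 → polar Q Z w = 0) →
        Z = polar Q Z x • p + polar Q Z y • r := by
      intro Z hZ
      rw [← sub_eq_zero]
      apply hQ
      intro v
      have h1 := hZ (v - polar Q v p • x - polar Q v r • y) (by rw [pdl, pdl, psl, psl, hx1, hy1]; ring)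
        (by rw [pdl, pdl, psl, psl, hx2, hy2]; ring)
      rw [pdr, pdr, psr, psr] at h1
      rw [pdl, pal, psl, psl, pc Q p v, pc Q r v]
      linear_combination h1
    have hX1 := hin X fun w h1 h2 => (hfix w h1 h2).1
    have hY1 := hin Y fun w h1 h2 => (hfix w h1 h2).2
    have hQX : Q X = 0 := by rw [hX1, qadd, qsmul, qsmul, h.q1, h.q2, psl, psr, h.q3]; ring
    have hQY : Q Y = 0 := by rw [hY1, qadd, qsmul, qsmul, h.q1, h.q2, psl, psr, h.q3]; ring
    have hXY : polar Q X Y = 0 := by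
      rw [hX1, hY1, pal, par, par, psl, psl, psl, psl, psr, psr, psr, psr, h.b1, h.b2, h.q3, h.q4]; ring
    have k1 : polar Q X x = 0 := by
      have h1 := iG_q e g x
      have h2 : iG e g x = x + X := by rw [hX]; abel
      rw [h2, qadd, hQX, pc Q x X] at h1
      linear_combination h1
    have k2 : polar Q Y y = 0 := by
      have h1 := iG_q e g y
      have h2 : iG e g y = y + Y := by rw [hY]; abel
      rw [h2, qadd, hQY, pc Q y Y] at h1
      linear_combination h1
    have k3 : polar Q Y x + polar Q X y = 0 := by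
      have h1 := iG_polar e g x y
      have h2 : iG e g x = x + X := by rw [hX]; abel
      have h3 : iG e g y = y + Y := by rw [hY]; abel
      rw [h2, h3, pal, par, par, hXY, pc Q x Y] at h1
      linear_combination h1
    refine ⟨polar Q X y, ?_⟩
    ext v
    rw [← hσ, hv, LinearMap.add_apply, Module.End.one_apply, LinearMap.smul_apply, sE_apply]
    have e1 : X = polar Q X y • r := by
      conv_lhs => rw [hX1, k1]
      rw [zero_smul, zero_add]
    have e2 : Y = (-(polar Q X y)) • p := by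
      conv_lhs => rw [hY1, k2]
      rw [zero_smul, add_zero]
      congr 1
      linear_combination k3
    rw [e2]
    nth_rewrite 1 [e1]
    module
  · rintro ⟨c, hc⟩ v h1 h2
    rw [hc, LinearMap.add_apply, Module.End.one_apply, LinearMap.smul_apply, sE_apply, h1, h2]
    simp

theorem big_of_finrank [FiniteDimensional F V] (h : 4 < Module.finrank F V) : Big Q := by
  intro a b c d
  let f : V →ₗ[F] (Fin 4 → F) := LinearMap.pi ![(polarBilin Q).flip a, (polarBilin Q).flip b, (polarBilin Q).flip c,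
    (polarBilin Q).flip d]
  have h1 : LinearMap.ker f ≠ ⊥ := LinearMap.ker_ne_bot_of_finrank_lt (by rw [Module.finrank_fin_fun]; exact h)
  obtain ⟨z, hz, hz0⟩ := Submodule.exists_mem_ne_zero_of_ne_bot h1
  have h2 := LinearMap.mem_ker.1 hz
  exact ⟨z, hz0, congrFun h2 0, congrFun h2 1, congrFun h2 2, congrFun h2 3⟩

section final
variable (m : ℕ) (F : Type*) [Field F]

theorem nd_plus : ND (qfPlus m F) := fun u hu => (qfPlus_nondegenerate m F).1 u hu

/-- the bridge, with the type of the concrete group -/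
noncomputable def eP : ↥(Cfsg.isometryGroup F (Cfsg.quadFormPlus m F)) ≃* ↥(OGrp (qfPlus m F)) := bridge (qfPlus m F)

theorem set_eq : {A : Subgroup ↥(Cfsg.isometryGroup F (Cfsg.quadFormPlus m F)) | ∃ p r : Fin m ⊕ Fin m → F, LinearIndependent F ![p, r] ∧
          Cfsg.quadFormPlus m F p = 0 ∧ Cfsg.quadFormPlus m F r = 0 ∧
          Cfsg.quadFormPlus m F (p + r) = 0 ∧
          A = Subgroup.closure {σ : ↥(Cfsg.isometryGroup F (Cfsg.quadFormPlus m F)) | ∀ v : Fin m ⊕ Fin m → F,
            Cfsg.quadFormPlus m F (v + p) - Cfsg.quadFormPlus m F v - Cfsg.quadFormPlus m F p = 0 →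
            Cfsg.quadFormPlus m F (v + r) - Cfsg.quadFormPlus m F v - Cfsg.quadFormPlus m F r = 0 →
              Matrix.mulVec ((σ : Matrix.GeneralLinearGroup (Fin m ⊕ Fin m) F) : Matrix (Fin m ⊕ Fin m) (Fin m ⊕ Fin m) F) v = v}} =
    SX F (iG (eP m F)) (NO (qfPlus m F)) := by
  ext A
  constructor
  · rintro ⟨p, r, hli, h1, h2, h3, rfl⟩
    have hl : Ln (qfPlus m F) p r := by
      refine ⟨LinearIndependent.pair_iff.1 hli, h1, h2, ?_⟩
      show qfPlus m F (p + r) - qfPlus m F p - qfPlus m F r = 0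
      rw [coe_qfPlus, h1, h2, h3]; simp
    refine ⟨_, ⟨p, r, hl, rfl⟩, ?_⟩
    exact T_eq (nd_plus m F) (eP m F) hl
  · rintro ⟨_, ⟨p, r, hl, rfl⟩, rfl⟩
    refine ⟨p, r, LinearIndependent.pair_iff.2 hl.li, hl.q1, hl.q2, ?_, ?_⟩
    · show qfPlus m F (p + r) = 0
      rw [qadd, hl.q1, hl.q2, hl.q3]; simp
    · exact (T_eq (nd_plus m F) (eP m F) hl).symm

end final

end Cfsg.Agent.H84.RDO
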