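import Mathlib
import Cfsg.Agent.H84.RDat
import Cfsg.Agent.ClassBase.SL
set_option autoImplicit false

/-! Transvection subgroups of `SL_n(k)`. -/

namespace Cfsg.Agent.H84.RDSL

open Cfsg Matrix
open Cfsg.Agent.H84 Cfsg.Agent.H84.RD
open scoped commutatorElement

variable {k : Type*} [Field k] {n : Type*} [Fintype n] [DecidableEq n]

/-- inclusion of `SL_n` in the matrix ring -/
def iSL (n : Type*) [Fintype n] [DecidableEq n] (k : Type*) [Field k] : Matrix.SpecialLinearGroup n k →* Matrix n n k where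
  toFun g := g
  map_one' := rfl
  map_mul' _ _ := rfl

theorem iSL_inj : Function.Injective (iSL n k) := Subtype.val_injective

/-- rank one square-zero matrices -/
def NSL (n : Type*) [Fintype n] [DecidableEq n] (k : Type*) [Field k] : Set (Matrix n n k) :=
  {a | ∃ v φ : n → k, v ≠ 0 ∧ φ ≠ 0 ∧ φ ⬝ᵥ v = 0 ∧ a = vecMulVec v φ}

theorem vmul (v φ w ψ : n → k) : vecMulVec v φ * vecMulVec w ψ = (φ ⬝ᵥ w) • vecMulVec v ψ := by
  rw [vecMulVec_mul_vecMulVec, vecMulVec_smul]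

theorem vmul3 (v φ w ψ : n → k) : vecMulVec v φ * vecMulVec w ψ * vecMulVec v φ = ((φ ⬝ᵥ w) * (ψ ⬝ᵥ v)) • vecMulVec v φ := by
  rw [vmul, smul_mul_assoc, vmul, smul_smul]

theorem det_one_add_smul_vmv (v φ : n → k) (h : φ ⬝ᵥ v = 0) (c : k) : (1 + c • vecMulVec v φ).det = 1 := by
  have h1 := det_one_add_replicateCol_mul_replicateRow (ι := Unit) (c • v) φ
  rw [← vecMulVec_eq, smul_vecMulVec, dotProduct_smul, h, smul_zero, add_zero] at h1
  exact h1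

theorem dat : Dat k (iSL n k) (NSL n k) where
  inj := iSL_inj
  ne := by
    rintro _ ⟨v, φ, hv, hφ, _, rfl⟩ h
    rcases vecMulVec_eq_zero.1 h with h | h
    · exact hv h
    · exact hφ h
  sq := by
    rintro _ ⟨v, φ, hv, hφ, h, rfl⟩
    rw [vmul, h, zero_smul]
  lift := by
    rintro _ ⟨v, φ, hv, hφ, h, rfl⟩ c
    exact ⟨⟨1 + c • vecMulVec v φ, det_one_add_smul_vmv v φ h c⟩, rfl⟩
  conj := by
    rintro _ ⟨v, φ, hv, hφ, h, rfl⟩ g
    have e1 : ((g⁻¹ : Matrix.SpecialLinearGroup n k) : Matrix n n k) * (g : Matrix n n k) = 1 := by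
      rw [← Matrix.SpecialLinearGroup.coe_mul, inv_mul_cancel, Matrix.SpecialLinearGroup.coe_one]
    have e2 : (g : Matrix n n k) * ((g⁻¹ : Matrix.SpecialLinearGroup n k) : Matrix n n k) = 1 := by
      rw [← Matrix.SpecialLinearGroup.coe_mul, mul_inv_cancel, Matrix.SpecialLinearGroup.coe_one]
    refine ⟨vecMulVec ((g : Matrix n n k) *ᵥ v) (φ ᵥ* ((g⁻¹ : Matrix.SpecialLinearGroup n k) : Matrix n n k)),
      ⟨_, _, ?_, ?_, ?_, rfl⟩, 1, one_ne_zero, ?_⟩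
    · intro h0
      apply hv
      have := congrArg (fun w => ((g⁻¹ : Matrix.SpecialLinearGroup n k) : Matrix n n k) *ᵥ w) h0
      simpa only [mulVec_mulVec, e1, one_mulVec, mulVec_zero] using this
    · intro h0
      apply hφ
      have := congrArg (fun w => w ᵥ* (g : Matrix n n k)) h0
      simpa only [vecMul_vecMul, e1, vecMul_one, zero_vecMul] using this
    · rw [← dotProduct_mulVec, mulVec_mulVec, e1, one_mulVec, h]
    · rw [one_smul]
      show (g : Matrix n n k) * vecMulVec v φ = _ * (g : Matrix n n k)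
      rw [mul_vecMulVec, vecMulVec_mul, vecMul_vecMul, e1, vecMul_one]
  pair := by
    rintro _ ⟨v, φ, hv, hφ, h, rfl⟩ _ ⟨w, ψ, hw, hψ, h', rfl⟩
    by_cases h1 : φ ⬝ᵥ w = 0
    · right
      refine ⟨by rw [vmul3, h1, zero_mul, zero_smul], by rw [vmul3, h1, mul_zero, zero_smul], ?_⟩
      by_cases h2 : ψ ⬝ᵥ v = 0
      · left
        rw [vmul, vmul, h1, h2, zero_smul, zero_smul]
      · right
        refine ⟨vecMulVec w φ, ⟨w, φ, hw, hφ, h1, rfl⟩, -(ψ ⬝ᵥ v), neg_ne_zero.2 h2, ?_⟩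
        rw [vmul, vmul, h1, zero_smul, zero_sub, neg_smul]
    · by_cases h2 : ψ ⬝ᵥ v = 0
      · right
        refine ⟨by rw [vmul3, h2, mul_zero, zero_smul], by rw [vmul3, h2, zero_mul, zero_smul], Or.inr ?_⟩
        refine ⟨vecMulVec v ψ, ⟨v, ψ, hv, hψ, h2, rfl⟩, φ ⬝ᵥ w, h1, ?_⟩
        rw [vmul, vmul, h2, zero_smul, sub_zero]
      · left
        exact ⟨(φ ⬝ᵥ w) * (ψ ⬝ᵥ v), mul_ne_zero h1 h2, vmul3 _ _ _ _, by rw [vmul3, mul_comm]⟩

theorem opp_of {v φ w ψ : n → k} (h1 : φ ⬝ᵥ w ≠ 0) (h2 : ψ ⬝ᵥ v ≠ 0) : Opp k (vecMulVec v φ) (vecMulVec w ψ) :=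
  ⟨(φ ⬝ᵥ w) * (ψ ⬝ᵥ v), mul_ne_zero h1 h2, vmul3 _ _ _ _, by rw [vmul3, mul_comm]⟩

theorem exists_dot_ne {φ : n → k} (h : φ ≠ 0) : ∃ u : n → k, φ ⬝ᵥ u ≠ 0 := by
  by_contra hcon
  push Not at hcon
  exact h (by
    ext i
    have := hcon (Pi.single i 1)
    rwa [dotProduct_single_one] at this)

theorem conn : ∀ a ∈ NSL n k, ∀ b ∈ NSL n k,
    Relation.ReflTransGen (fun x y => x ∈ NSL n k ∧ y ∈ NSL n k ∧ Opp k x y) a b := by
  rintro _ ⟨v, φ, hv, hφ, h, rfl⟩ _ ⟨w, ψ, hw, hψ, h', rfl⟩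
  -- `u` outside both kernels
  obtain ⟨u, hu1, hu2⟩ : ∃ u : n → k, φ ⬝ᵥ u ≠ 0 ∧ ψ ⬝ᵥ u ≠ 0 := by
    obtain ⟨u1, h1⟩ := exists_dot_ne hφ
    obtain ⟨u2, h2⟩ := exists_dot_ne hψ
    by_cases h3 : ψ ⬝ᵥ u1 = 0
    · by_cases h4 : φ ⬝ᵥ u2 = 0
      · refine ⟨u1 + u2, ?_, ?_⟩
        · rw [dotProduct_add, h4, add_zero]; exact h1
        · rw [dotProduct_add, h3, zero_add]; exact h2
      · exact ⟨u2, h4, h2⟩
    · exact ⟨u1, h1, h3⟩
  have key : ∀ (v φ : n → k), v ≠ 0 → φ ⬝ᵥ v = 0 → φ ⬝ᵥ u ≠ 0 → ∃ χ : n → k, χ ⬝ᵥ u = 0 ∧ χ ⬝ᵥ v ≠ 0 := by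
    intro v φ hv h hu
    obtain ⟨χ, hχ⟩ := exists_dot_ne hv
    refine ⟨χ - ((χ ⬝ᵥ u) / (φ ⬝ᵥ u)) • φ, ?_, ?_⟩
    · rw [sub_dotProduct, smul_dotProduct, smul_eq_mul, div_mul_cancel₀ _ hu, sub_self]
    · rw [sub_dotProduct, smul_dotProduct, h, smul_zero, sub_zero, dotProduct_comm]; exact hχ
  obtain ⟨χ1, a1, a2⟩ := key v φ hv h hu1
  obtain ⟨χ2, b1, b2⟩ := key w ψ hw h' hu2
  obtain ⟨χ, c1, c2, c3⟩ : ∃ χ : n → k, χ ⬝ᵥ u = 0 ∧ χ ⬝ᵥ v ≠ 0 ∧ χ ⬝ᵥ w ≠ 0 := by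
    by_cases h3 : χ1 ⬝ᵥ w = 0
    · by_cases h4 : χ2 ⬝ᵥ v = 0
      · refine ⟨χ1 + χ2, ?_, ?_, ?_⟩
        · rw [add_dotProduct, a1, b1, add_zero]
        · rw [add_dotProduct, h4, add_zero]; exact a2
        · rw [add_dotProduct, h3, zero_add]; exact b2
      · exact ⟨χ2, b1, h4, b2⟩
    · exact ⟨χ1, a1, a2, h3⟩
  have hu0 : u ≠ 0 := by rintro rfl; exact hu1 (dotProduct_zero _)
  have hχ0 : χ ≠ 0 := by rintro rfl; exact c2 (zero_dotProduct _)
  have m1 : vecMulVec v φ ∈ NSL n k := ⟨v, φ, hv, hφ, h, rfl⟩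
  have m2 : vecMulVec u χ ∈ NSL n k := ⟨u, χ, hu0, hχ0, c1, rfl⟩
  have m3 : vecMulVec w ψ ∈ NSL n k := ⟨w, ψ, hw, hψ, h', rfl⟩
  exact (Relation.ReflTransGen.single ⟨m1, m2, opp_of hu1 c2⟩).tail ⟨m2, m3, opp_of c3 hu2⟩

theorem single_eq (i j : n) : (Matrix.single i j 1 : Matrix n n k) = vecMulVec (Pi.single i 1) (Pi.single j 1) := by
  ext a b
  rw [vecMulVec_apply, Matrix.single_apply, Pi.single_apply, Pi.single_apply]
  by_cases h1 : i = a <;> by_cases h2 : j = b <;> simp [h1, h2, eq_comm]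

theorem single_mem {i j : n} (h : i ≠ j) : (Matrix.single i j 1 : Matrix n n k) ∈ NSL n k := by
  refine ⟨Pi.single i 1, Pi.single j 1, ?_, ?_, ?_, single_eq i j⟩
  · intro h0; simpa using congrFun h0 i
  · intro h0; simpa using congrFun h0 j
  · rw [dotProduct_single_one, Pi.single_apply, if_neg h]

theorem gen [Nontrivial n] : (⨆ A ∈ SX k (iSL n k) (NSL n k), A) = ⊤ := by
  rw [eq_top_iff, ← Cfsg.Agent.ClassBase.closure_transvections, Subgroup.closure_le]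
  rintro g ⟨i, j, hij, a, rfl⟩
  have h1 : Matrix.SpecialLinearGroup.transvection hij a ∈ X k (iSL n k) (Matrix.single i j 1 : Matrix n n k) := by
    refine (mem_X (dat.sq _ (single_mem hij))).2 ⟨a, ?_⟩
    show (1 : Matrix n n k) + Matrix.single i j a = _
    rw [Matrix.smul_single, smul_eq_mul, mul_one]
  exact Subgroup.mem_iSup_of_mem (X k (iSL n k) (Matrix.single i j 1 : Matrix n n k))
    (Subgroup.mem_iSup_of_mem ⟨_, single_mem hij, rfl⟩ h1)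

theorem set_eq {i j : n} (hij : i ≠ j) : {A : Subgroup (Matrix.SpecialLinearGroup n k) |
        ∃ g : Matrix.SpecialLinearGroup n k,
          A = Cfsg.conjBy (Subgroup.closure {t : Matrix.SpecialLinearGroup n k |
            ∃ c : k, (t : Matrix n n k) = Matrix.transvection i j c}) g} = SX k (iSL n k) (NSL n k) := by
  have e : Subgroup.closure {t : Matrix.SpecialLinearGroup n k |
            ∃ c : k, (t : Matrix n n k) = Matrix.transvection i j c} = X k (iSL n k) (Matrix.single i j 1 : Matrix n n k) := by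
    unfold X
    congr 1
    ext t
    have : ∀ c : k, Matrix.transvection i j c = 1 + c • (Matrix.single i j 1 : Matrix n n k) := by
      intro c
      rw [Matrix.smul_single, smul_eq_mul, mul_one]; rfl
    simp only [this]
    rfl
  rw [e]
  ext A
  have hm : X k (iSL n k) (Matrix.single i j 1 : Matrix n n k) ∈ SX k (iSL n k) (NSL n k) := ⟨_, single_mem hij, rfl⟩
  constructor
  · rintro ⟨g, rfl⟩
    obtain ⟨b, hb, u, hu, h⟩ := dat.conj _ (single_mem (k := k) hij) g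
    exact ⟨b, hb, X_conj dat (single_mem hij) hb hu h⟩
  · intro hA
    exact (isClass dat ⟨_, single_mem hij⟩ conn).2 _ hm A hA

end Cfsg.Agent.H84.RDSL
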