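import Mathlib
import Cfsg.Agent.H84.RDatSub
import Cfsg.Agent.Uni.Eich
set_option autoImplicit false

/-! Transvection subgroups of `SU_n(q)`. -/

namespace Cfsg.Agent.H84.RDSU

open Cfsg Matrix
open Cfsg.Agent.H84 Cfsg.Agent.H84.RD Cfsg.Agent.Uni
open scoped commutatorElement

variable {F : Type*} [Field F] [Fintype F] {q n : ℕ}

/-- inclusion of `SU` in the matrix ring -/
def iSU (n : ℕ) (F : Type*) [Field F] (q : ℕ) : ↥(Cfsg.SU n F q) →* Matrix (Fin n) (Fin n) F where
  toFun g := ((g : Matrix.SpecialLinearGroup (Fin n) F) : Matrix (Fin n) (Fin n) F)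
  map_one' := rfl
  map_mul' _ _ := rfl

theorem iSU_mulVec (g : ↥(Cfsg.SU n F q)) (v : Fin n → F) : iSU n F q g *ᵥ v = act g v := rfl

/-- the unitary root elements -/
def ap (q : ℕ) (ε : F) (p : Fin n → F) : Matrix (Fin n) (Fin n) F := ε • vecMulVec p (fun j => p j ^ q)

/-- the set of unitary root elements -/
def NSU (n : ℕ) (q : ℕ) (ε : F) : Set (Matrix (Fin n) (Fin n) F) :=
  {a | ∃ p : Fin n → F, p ≠ 0 ∧ hermForm n F q p p = 0 ∧ a = ap q ε p}

omit [Fintype F] in
theorem ap_mulVec (ε : F) (p v : Fin n → F) : ap q ε p *ᵥ v = (ε * hermForm n F q v p) • p := by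
  unfold ap
  have e : hermForm n F q v p = (fun j => p j ^ q) ⬝ᵥ v := by
    rw [dotProduct_comm]; rfl
  rw [smul_mulVec, vecMulVec_mulVec, e]
  ext i
  simp [mul_comm, mul_assoc, mul_left_comm]

omit [Fintype F] in
theorem mat_ext {A B : Matrix (Fin n) (Fin n) F} (h : ∀ v, A *ᵥ v = B *ᵥ v) : A = B :=
  Matrix.ext_of_mulVec_single fun _ => h _

omit [Fintype F] in
theorem ap_mul3 (ε : F) (p r : Fin n → F) :
    ap q ε p * ap q ε r * ap q ε p = ((ε * ε) * (hermForm n F q p r * hermForm n F q r p)) • ap q ε p := by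
  apply mat_ext
  intro v
  rw [← mulVec_mulVec, ← mulVec_mulVec, smul_mulVec, ap_mulVec ε p v, mulVec_smul, ap_mulVec ε r p, mulVec_smul, mulVec_smul,
    ap_mulVec ε p r]
  module

omit [Fintype F] in
theorem ap_mul (ε : F) (p r : Fin n → F) (h : hermForm n F q r p = 0) : ap q ε p * ap q ε r = 0 := by
  apply mat_ext
  intro v
  rw [← mulVec_mulVec, ap_mulVec ε r v, mulVec_smul, ap_mulVec ε p r, h]
  simp

variable (hF : Fintype.card F = q ^ 2)
include hF

theorem skew_sq {ε : F} (hε : ε ^ q = -ε) : (ε * ε) ^ q = ε * ε := by rw [mul_pow, hε]; ring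

theorem norm_fix (p r : Fin n → F) : (hermForm n F q p r * hermForm n F q r p) ^ q = hermForm n F q p r * hermForm n F q r p := by
  rw [mul_pow, hermForm_symm hF, hermForm_symm hF, mul_comm]

section
variable {L : Type*} [Field L] [Algebra L F] (hL : ∀ c : F, c ^ q = c ↔ ∃ l : L, algebraMap L F l = c)
  {ε : F} (hε : ε ^ q = -ε) (hε0 : ε ≠ 0)
include hL hε hε0

theorem opp_of {p r : Fin n → F} (h : hermForm n F q p r ≠ 0) : Opp L (ap q ε p) (ap q ε r) := by
  have h' : hermForm n F q r p ≠ 0 := fun h0 => h ((hermForm_eq_zero_comm hF).1 h0)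
  obtain ⟨l, hl⟩ := (hL ((ε * ε) * (hermForm n F q p r * hermForm n F q r p))).1 (by
    rw [mul_pow, skew_sq hF hε, norm_fix hF])
  refine ⟨l, ?_, ?_, ?_⟩
  · rintro rfl
    rw [map_zero] at hl
    exact (mul_ne_zero (mul_ne_zero hε0 hε0) (mul_ne_zero h h')) hl.symm
  · rw [ap_mul3, ← algebraMap_smul F l, hl]
  · rw [ap_mul3, ← algebraMap_smul F l, hl, mul_comm (hermForm n F q r p)]

theorem dat : Dat L (iSU n F q) (NSU n q ε) where
  inj := fun g h hgh => SU_ext hgh
  ne := by
    rintro _ ⟨p, hp, hpp, rfl⟩ h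
    apply hp
    apply hermForm_nondeg' hF
    intro v
    have h1 := ap_mulVec (q := q) ε p v
    rw [h, zero_mulVec] at h1
    rcases smul_eq_zero.1 h1.symm with h2 | h2
    · exact (mul_eq_zero.1 h2).resolve_left hε0
    · exact absurd h2 hp
  sq := by
    rintro _ ⟨p, hp, hpp, rfl⟩
    exact ap_mul ε p p hpp
  lift := by
    rintro _ ⟨p, hp, hpp, rfl⟩ c
    have hc := (hL (algebraMap L F c)).2 ⟨c, rfl⟩
    obtain ⟨g, -, hg⟩ := exists_transv hF (a := algebraMap L F c * ε) hpp (by rw [mul_pow, hc, hε]; ring)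
    refine ⟨g, mat_ext fun v => ?_⟩
    rw [iSU_mulVec, hg, add_mulVec, one_mulVec, ← algebraMap_smul F c, smul_mulVec, ap_mulVec, smul_smul, mul_assoc]
  conj := by
    rintro _ ⟨p, hp, hpp, rfl⟩ g
    refine ⟨ap q ε (act g p), ⟨_, act_ne_zero hp, by rw [act_form, hpp], rfl⟩, 1, one_ne_zero, ?_⟩
    rw [one_smul]
    apply mat_ext
    intro v
    rw [← mulVec_mulVec, ← mulVec_mulVec, ap_mulVec, mulVec_smul, iSU_mulVec, iSU_mulVec, ap_mulVec, act_form]
  pair := by
    rintro _ ⟨p, hp, hpp, rfl⟩ _ ⟨r, hr, hrr, rfl⟩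
    by_cases h : hermForm n F q p r = 0
    · right
      have h' : hermForm n F q r p = 0 := (hermForm_eq_zero_comm hF).1 h
      rw [ap_mul ε p r h', ap_mul ε r p h]
      exact ⟨zero_mul _, zero_mul _, Or.inl rfl⟩
    · exact Or.inl (opp_of hF hL hε hε0 h)

theorem conn : ∀ a ∈ NSU n q ε, ∀ b ∈ NSU n q ε,
    Relation.ReflTransGen (fun x y => x ∈ NSU n q ε ∧ y ∈ NSU n q ε ∧ Opp L x y) a b := by
  rintro _ ⟨p, hp, hpp, rfl⟩ _ ⟨r, hr, hrr, rfl⟩
  by_cases h : hermForm n F q p r = 0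
  · have h' : hermForm n F q r p = 0 := (hermForm_eq_zero_comm hF).1 h
    obtain ⟨u1, h1⟩ : ∃ u, hermForm n F q u p ≠ 0 := by
      by_contra hcon
      push Not at hcon
      exact hp (hermForm_nondeg' hF hcon)
    obtain ⟨u2, h2⟩ : ∃ u, hermForm n F q u r ≠ 0 := by
      by_contra hcon
      push Not at hcon
      exact hr (hermForm_nondeg' hF hcon)
    obtain ⟨u, hu1, hu2⟩ : ∃ u, hermForm n F q u p ≠ 0 ∧ hermForm n F q u r ≠ 0 := by
      by_cases h3 : hermForm n F q u1 r = 0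
      · by_cases h4 : hermForm n F q u2 p = 0
        · refine ⟨u1 + u2, ?_, ?_⟩
          · rw [hermForm_add_left, h4, add_zero]; exact h1
          · rw [hermForm_add_left, h3, zero_add]; exact h2
        · exact ⟨u2, h4, h2⟩
      · exact ⟨u1, h1, h3⟩
    obtain ⟨x, hx⟩ := exists_trace_eq hF (c := -hermForm n F q u u) (by
      rw [neg_pow_q hF, hermForm_self_pow_q hF])
    have hpu : hermForm n F q p u ≠ 0 := fun h0 => hu1 ((hermForm_eq_zero_comm hF).1 h0)
    set c : F := x / hermForm n F q p u with hc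
    have hcx : c * hermForm n F q p u = x := div_mul_cancel₀ _ hpu
    set s : Fin n → F := u + c • p with hs
    have s1 : hermForm n F q s p ≠ 0 := by
      rw [hs, hermForm_add_left, hermForm_smul_left, hpp, mul_zero, add_zero]; exact hu1
    have s2 : hermForm n F q s r ≠ 0 := by
      rw [hs, hermForm_add_left, hermForm_smul_left, h, mul_zero, add_zero]; exact hu2
    have s3 : hermForm n F q s s = 0 := by
      have e1 : hermForm n F q s s = hermForm n F q u u + (c * hermForm n F q p u + (c * hermForm n F q p u) ^ q) := by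
        rw [mul_pow, hermForm_symm hF p u, hs]
        simp only [hermForm_add_left, hermForm_add_right hF, hermForm_smul_left, hermForm_smul_right, hpp]
        ring
      rw [e1, hcx, hx, add_neg_cancel]
    have s0 : s ≠ 0 := by
      intro h0
      rw [h0, hermForm_zero_left] at s1
      exact s1 rfl
    have m1 : ap q ε p ∈ NSU n q ε := ⟨p, hp, hpp, rfl⟩
    have m2 : ap q ε s ∈ NSU n q ε := ⟨s, s0, s3, rfl⟩
    have m3 : ap q ε r ∈ NSU n q ε := ⟨r, hr, hrr, rfl⟩
    have s1' : hermForm n F q p s ≠ 0 := fun h0 => s1 ((hermForm_eq_zero_comm hF).1 h0)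
    exact (Relation.ReflTransGen.single ⟨m1, m2, opp_of hF hL hε hε0 s1'⟩).tail ⟨m2, m3, opp_of hF hL hε hε0 s2⟩
  · exact Relation.ReflTransGen.single ⟨⟨p, hp, hpp, rfl⟩, ⟨r, hr, hrr, rfl⟩, opp_of hF hL hε hε0 h⟩

theorem deg : ∀ a ∈ NSU n q ε, ∀ b ∈ NSU n q ε, a * b = b * a ∨ Opp L a b := by
  rintro _ ⟨p, hp, hpp, rfl⟩ _ ⟨r, hr, hrr, rfl⟩
  by_cases h : hermForm n F q p r = 0
  · left
    have h' : hermForm n F q r p = 0 := (hermForm_eq_zero_comm hF).1 h
    rw [ap_mul ε p r h', ap_mul ε r p h]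
  · exact Or.inr (opp_of hF hL hε hε0 h)

theorem T_eq {p : Fin n → F} (hp : p ≠ 0) (hpp : hermForm n F q p p = 0) :
    Subgroup.closure {g : ↥(Cfsg.SU n F q) |
            (∀ v : Fin n → F, ∃ c : F, ((g : Matrix.SpecialLinearGroup (Fin n) F) : Matrix (Fin n) (Fin n) F) *ᵥ v = v + c • p) ∧
            ∀ v : Fin n → F, Cfsg.hermForm n F q v p = 0 →
              ((g : Matrix.SpecialLinearGroup (Fin n) F) : Matrix (Fin n) (Fin n) F) *ᵥ v = v} =
    X L (iSU n F q) (ap q ε p) := by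
  unfold X
  congr 1
  ext g
  have hmul : ∀ (l : L) (v : Fin n → F), (1 + l • ap q ε p) *ᵥ v = v + ((algebraMap L F l * ε) * hermForm n F q v p) • p := by
    intro l v
    rw [add_mulVec, one_mulVec, ← algebraMap_smul F l, smul_mulVec, ap_mulVec, smul_smul, mul_assoc]
  constructor
  · rintro ⟨h1, h2⟩
    obtain ⟨w, hw⟩ : ∃ w, hermForm n F q w p = 1 := by
      obtain ⟨u1, h1⟩ : ∃ u, hermForm n F q u p ≠ 0 := by
        by_contra hcon
        push Not at hcon
        exact hp (hermForm_nondeg' hF hcon)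
      exact ⟨(hermForm n F q u1 p)⁻¹ • u1, by rw [hermForm_smul_left, inv_mul_cancel₀ h1]⟩
    obtain ⟨c, hc⟩ := h1 w
    have hg : ∀ v, act g v = v + (c * hermForm n F q v p) • p := by
      intro v
      have e1 : act g (v - hermForm n F q v p • w) = v - hermForm n F q v p • w := by
        apply h2
        rw [hermForm_sub_left, hermForm_smul_left, hw, mul_one, sub_self]
      have e2 : act g w = w + c • p := hc
      have e3 : v = (v - hermForm n F q v p • w) + hermForm n F q v p • w := by abel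
      calc act g v = act g (v - hermForm n F q v p • w) + act g (hermForm n F q v p • w) := by
            rw [← act_add, ← e3]
        _ = _ := by rw [e1, act_smul, e2]; module
    have hcc : c ^ q = -c := by
      have h3 := act_form g w w
      have hpw : hermForm n F q p w = 1 := by rw [← hermForm_symm hF, hw, one_pow]
      rw [hg w, hw, mul_one] at h3
      simp only [hermForm_add_left, hermForm_add_right hF, hermForm_smul_left, hermForm_smul_right, hpp, hpw, hw] at h3
      linear_combination h3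
    obtain ⟨l, hl⟩ := (hL (c / ε)).1 (by rw [div_pow, hcc, hε, neg_div_neg_eq])
    refine ⟨l, mat_ext fun v => ?_⟩
    rw [iSU_mulVec, hg, hmul, hl, div_mul_cancel₀ _ hε0]
  · rintro ⟨l, hl⟩
    have hg : ∀ v, ((g : Matrix.SpecialLinearGroup (Fin n) F) : Matrix (Fin n) (Fin n) F) *ᵥ v =
        v + ((algebraMap L F l * ε) * hermForm n F q v p) • p := by
      intro v
      rw [← hmul, ← hl]; rfl
    refine ⟨fun v => ⟨_, hg v⟩, fun v hv => ?_⟩
    rw [hg, hv, mul_zero, zero_smul, add_zero]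

theorem set_eq : {A : Subgroup ↥(Cfsg.SU n F q) | ∃ p : Fin n → F, p ≠ 0 ∧ Cfsg.hermForm n F q p p = 0 ∧
          A = Subgroup.closure {g : ↥(Cfsg.SU n F q) |
            (∀ v : Fin n → F, ∃ c : F, ((g : Matrix.SpecialLinearGroup (Fin n) F) : Matrix (Fin n) (Fin n) F) *ᵥ v = v + c • p) ∧
            ∀ v : Fin n → F, Cfsg.hermForm n F q v p = 0 →
              ((g : Matrix.SpecialLinearGroup (Fin n) F) : Matrix (Fin n) (Fin n) F) *ᵥ v = v}} =
    SX L (iSU n F q) (NSU n q ε) := by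
  ext A
  constructor
  · rintro ⟨p, hp, hpp, rfl⟩
    exact ⟨_, ⟨p, hp, hpp, rfl⟩, T_eq hF hL hε hε0 hp hpp⟩
  · rintro ⟨_, ⟨p, hp, hpp, rfl⟩, rfl⟩
    exact ⟨p, hp, hpp, (T_eq hF hL hε hε0 hp hpp).symm⟩

end

theorem exists_iso : ∃ p : Fin (n + 2) → F, p ≠ 0 ∧ hermForm (n + 2) F q p p = 0 := by
  obtain ⟨y, hy⟩ := exists_norm_eq hF (c := -1) (by rw [neg_pow_q hF, one_pow])
  have h01 : (0 : Fin (n + 2)) ≠ 1 := by
    intro h
    have := congrArg Fin.val h
    simp at this
  refine ⟨Pi.single 0 1 + y • Pi.single 1 1, ?_, ?_⟩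
  · intro h
    have := congrFun h 0
    simp [h01] at this
  · simp only [hermForm_add_left, hermForm_add_right hF, hermForm_smul_left, hermForm_smul_right, hermForm_single_left]
    simp [h01, h01.symm, zero_pow_q hF]
    rw [← pow_succ, hy, add_neg_cancel]

omit hF in
theorem exists_L_aux {α : Type} (K : Subfield F) (e : α ≃ K) : ∃ (_ : Field α) (_ : Algebra α F),
    ∀ c : F, c ∈ K ↔ ∃ l : α, algebraMap α F l = c := by
  let i1 : Field α := e.field
  let e' : α ≃+* K := e.ringEquiv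
  let i2 : Algebra α F := (K.subtype.comp (e' : α →+* K)).toAlgebra
  refine ⟨i1, i2, ?_⟩
  intro c
  constructor
  · intro hc
    refine ⟨e'.symm ⟨c, hc⟩, ?_⟩
    show ((e' (e'.symm ⟨c, hc⟩) : K) : F) = c
    rw [e'.apply_symm_apply]
  · rintro ⟨l, rfl⟩
    exact (e' l).2

/-- a field with `q` elements in `Type` -/
theorem exists_L : ∃ (L : Type) (_ : Field L) (_ : Fintype L) (_ : Algebra L F), Fintype.card L = q ∧
    ∀ c : F, c ^ q = c ↔ ∃ l : L, algebraMap L F l = c := by
  classical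
  let K : Subfield F := (conjHom hF).eqLocusField (RingHom.id F)
  have hK : ∀ c : F, c ∈ K ↔ c ^ q = c := fun c => Iff.rfl
  have hcard : Nat.card K = q := card_fixed hF
  have : Finite K := inferInstance
  let e : Fin q ≃ K := (Finite.equivFinOfCardEq hcard).symm
  obtain ⟨i1, i2, h⟩ := exists_L_aux K e
  exact ⟨Fin q, i1, inferInstance, i2, Fintype.card_fin q, fun c => by rw [← hK, h]⟩

end Cfsg.Agent.H84.RDSU
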