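import Mathlib
import Cfsg.Agent.H84.RDatSL
import Cfsg.Agent.ClassSp.Order
set_option autoImplicit false

/-! Transvection subgroups of `Sp_{2n}(F)`. -/

namespace Cfsg.Agent.H84.RDSp

open Cfsg Matrix
open Cfsg.Agent.H84 Cfsg.Agent.H84.RD Cfsg.Agent.ClassSp
open scoped commutatorElement

variable {F : Type*} [Field F] {l : Type*} [Fintype l] [DecidableEq l]

/-- inclusion of `Sp` in the matrix ring -/
def iSp (l : Type*) [Fintype l] [DecidableEq l] (F : Type*) [Field F] : ↥(symplecticGroup l F) →* Matrix (l ⊕ l) (l ⊕ l) F where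
  toFun g := g
  map_one' := rfl
  map_mul' _ _ := rfl

/-- the symplectic root elements -/
def ap (p : l ⊕ l → F) : Matrix (l ⊕ l) (l ⊕ l) F := vecMulVec p (J l F *ᵥ p)

/-- rank one square-zero matrices -/
def NSp (l : Type*) [Fintype l] [DecidableEq l] (F : Type*) [Field F] : Set (Matrix (l ⊕ l) (l ⊕ l) F) :=
  {a | ∃ p : l ⊕ l → F, p ≠ 0 ∧ a = ap p}

theorem ap_mulVec (p v : l ⊕ l → F) : ap p *ᵥ v = (v ⬝ᵥ (J l F *ᵥ p)) • p := by
  unfold ap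
  rw [vecMulVec_mulVec, dotProduct_comm]
  ext i
  simp [mul_comm]

theorem dot_J (p v : l ⊕ l → F) : v ⬝ᵥ (J l F *ᵥ p) = - sf v p := by rw [sf_eq_dotProduct, neg_neg]

theorem mat_ext {A B : Matrix (l ⊕ l) (l ⊕ l) F} (h : ∀ v, A *ᵥ v = B *ᵥ v) : A = B :=
  Matrix.ext_of_mulVec_single fun _ => h _

theorem ap_mul3 (p r : l ⊕ l → F) : ap p * ap r * ap p = (- (sf p r * sf p r)) • ap p := by
  apply mat_ext
  intro v
  rw [← mulVec_mulVec, ← mulVec_mulVec, smul_mulVec, ap_mulVec p v, mulVec_smul, ap_mulVec r p, mulVec_smul, mulVec_smul,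
    ap_mulVec p r, dot_J, dot_J, dot_J, sf_swap r p]
  module

theorem ap_mul (p r : l ⊕ l → F) (h : sf p r = 0) : ap p * ap r = 0 := by
  apply mat_ext
  intro v
  rw [← mulVec_mulVec, ap_mulVec r v, mulVec_smul, ap_mulVec p r, dot_J p r, sf_swap r p, h]
  simp

theorem dat : Dat F (iSp l F) (NSp l F) where
  inj := Subtype.val_injective
  ne := by
    rintro _ ⟨p, hp, rfl⟩ h
    obtain ⟨u, hu⟩ := exists_sf_ne_zero hp
    have h1 := ap_mulVec p u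
    rw [h, zero_mulVec, dot_J] at h1
    rcases smul_eq_zero.1 h1.symm with h2 | h2
    · exact hu (neg_eq_zero.1 h2)
    · exact hp h2
  sq := by
    rintro _ ⟨p, hp, rfl⟩
    exact ap_mul p p (sf_self p)
  lift := by
    rintro _ ⟨p, hp, rfl⟩ c
    refine ⟨tv p (-c), mat_ext fun v => ?_⟩
    show (tv p (-c) : Matrix (l ⊕ l) (l ⊕ l) F) *ᵥ v = _
    rw [tv_mulVec, add_mulVec, one_mulVec, smul_mulVec, ap_mulVec, dot_J]
    module
  conj := by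
    rintro _ ⟨p, hp, rfl⟩ g
    refine ⟨ap ((g : Matrix (l ⊕ l) (l ⊕ l) F) *ᵥ p), ⟨_, ?_, rfl⟩, 1, one_ne_zero, ?_⟩
    · intro h
      apply hp
      rw [← inv_mulVec_mulVec g p, h, mulVec_zero]
    · rw [one_smul]
      apply mat_ext
      intro v
      show ((g : Matrix (l ⊕ l) (l ⊕ l) F) * _) *ᵥ v = (_ * (g : Matrix (l ⊕ l) (l ⊕ l) F)) *ᵥ v
      rw [← mulVec_mulVec, ← mulVec_mulVec, ap_mulVec, ap_mulVec, mulVec_smul, dot_J, dot_J, sf_mulVec]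
  pair := by
    rintro _ ⟨p, hp, rfl⟩ _ ⟨r, hr, rfl⟩
    by_cases h : sf p r = 0
    · right
      have h' : sf r p = 0 := by rw [sf_swap, h, neg_zero]
      rw [ap_mul p r h, ap_mul r p h']
      exact ⟨zero_mul _, zero_mul _, Or.inl rfl⟩
    · left
      refine ⟨- (sf p r * sf p r), neg_ne_zero.2 (mul_ne_zero h h), ap_mul3 p r, ?_⟩
      rw [ap_mul3 r p, sf_swap r p]
      congr 1
      ring

theorem opp_of {p r : l ⊕ l → F} (h : sf p r ≠ 0) : Opp F (ap p) (ap r) := by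
  refine ⟨- (sf p r * sf p r), neg_ne_zero.2 (mul_ne_zero h h), ap_mul3 p r, ?_⟩
  rw [ap_mul3 r p, sf_swap r p]
  congr 1
  ring

theorem conn : ∀ a ∈ NSp l F, ∀ b ∈ NSp l F,
    Relation.ReflTransGen (fun x y => x ∈ NSp l F ∧ y ∈ NSp l F ∧ Opp F x y) a b := by
  rintro _ ⟨p, hp, rfl⟩ _ ⟨r, hr, rfl⟩
  obtain ⟨w, h1, h2⟩ := exists_sf_ne_zero_both hp hr
  have hw : w ≠ 0 := sf_ne_zero_right h1
  exact (Relation.ReflTransGen.single ⟨⟨p, hp, rfl⟩, ⟨w, hw, rfl⟩, opp_of h1⟩).tail ⟨⟨w, hw, rfl⟩, ⟨r, hr, rfl⟩, opp_of h2⟩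

theorem gen : (⨆ A ∈ SX F (iSp l F) (NSp l F), A) = ⊤ := by
  rw [eq_top_iff, ← tvGroup_eq_top (F := F) l]
  unfold tvGroup
  rw [Subgroup.closure_le]
  rintro g ⟨w, c, rfl⟩
  by_cases hw : w = 0
  · have : tv w c = 1 := by
      apply ext_vec; intro v; rw [tv_mulVec, one_mulVec', hw]; simp
    rw [this]; exact one_mem _
  have hm : ap w ∈ NSp l F := ⟨w, hw, rfl⟩
  have h1 : tv w c ∈ X F (iSp l F) (ap w) := by
    refine (mem_X (dat.sq _ hm)).2 ⟨-c, mat_ext fun v => ?_⟩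
    show (tv w c : Matrix (l ⊕ l) (l ⊕ l) F) *ᵥ v = _
    rw [tv_mulVec, add_mulVec, one_mulVec, smul_mulVec, ap_mulVec, dot_J]
    module
  exact Subgroup.mem_iSup_of_mem (X F (iSp l F) (ap w)) (Subgroup.mem_iSup_of_mem ⟨_, hm, rfl⟩ h1)

theorem set_eq : {A : Subgroup ↥(Matrix.symplecticGroup l F) | ∃ p : l ⊕ l → F, p ≠ 0 ∧
        A = Subgroup.closure {g : ↥(Matrix.symplecticGroup l F) | ∃ c : F, ∀ v : l ⊕ l → F,
          (g : Matrix (l ⊕ l) (l ⊕ l) F) *ᵥ v =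
            v + (c * (v ⬝ᵥ (Matrix.J l F *ᵥ p))) • p}} = SX F (iSp l F) (NSp l F) := by
  have key : ∀ p : l ⊕ l → F, Subgroup.closure {g : ↥(Matrix.symplecticGroup l F) | ∃ c : F, ∀ v : l ⊕ l → F,
          (g : Matrix (l ⊕ l) (l ⊕ l) F) *ᵥ v = v + (c * (v ⬝ᵥ (Matrix.J l F *ᵥ p))) • p} = X F (iSp l F) (ap p) := by
    intro p
    unfold X
    congr 1
    ext g
    have e : ∀ (c : F) (v : l ⊕ l → F), v + (c * (v ⬝ᵥ (Matrix.J l F *ᵥ p))) • p = (1 + c • ap p) *ᵥ v := by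
      intro c v
      rw [add_mulVec, one_mulVec, smul_mulVec, ap_mulVec, smul_smul]
    simp only [e, Set.mem_ofPred_eq]
    constructor
    · rintro ⟨c, hc⟩
      exact ⟨c, mat_ext hc⟩
    · rintro ⟨c, hc⟩
      exact ⟨c, fun v => by rw [← hc]; rfl⟩
  ext A
  constructor
  · rintro ⟨p, hp, rfl⟩
    exact ⟨_, ⟨p, hp, rfl⟩, key p⟩
  · rintro ⟨_, ⟨p, hp, rfl⟩, rfl⟩
    exact ⟨p, hp, (key p).symm⟩

theorem deg : ∀ a ∈ NSp l F, ∀ b ∈ NSp l F, a * b = b * a ∨ Opp F a b := by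
  rintro _ ⟨p, hp, rfl⟩ _ ⟨r, hr, rfl⟩
  by_cases h : sf p r = 0
  · left
    have h' : sf r p = 0 := by rw [sf_swap, h, neg_zero]
    rw [ap_mul p r h, ap_mul r p h']
  · exact Or.inr (opp_of h)

end Cfsg.Agent.H84.RDSp
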