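import Mathlib
import Cfsg.Prelude.Def_RootSubgroups
import Cfsg.Agent.Solv.Core
set_option autoImplicit false

/-!
# Root involutions I: pairs of involutions, odd transpositions (helper84)
-/

namespace Cfsg.Agent.H84.RI

open Cfsg
open scoped commutatorElement

variable {G : Type*} [Group G]

section inv
variable {a b x : G}

/-- an element of odd order and of 2-power order -/
theorem eq_one_of_odd_pow {g : G} (h : Odd (orderOf g)) {k : ℕ} (h2 : g ^ (2 ^ k) = 1) : g = 1 := by
  have h3 : orderOf g ∣ 2 ^ k := orderOf_dvd_of_pow_eq_one h2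
  have h4 : Nat.Coprime (orderOf g) (2 ^ k) := Nat.Coprime.pow_right k (Nat.coprime_two_right.2 h)
  exact orderOf_eq_one_iff.1 (Nat.Coprime.eq_one_of_dvd h4 h3)

theorem eq_one_of_odd_sq {g : G} (h : Odd (orderOf g)) (h2 : g * g = 1) : g = 1 :=
  eq_one_of_odd_pow h (k := 1) (by rw [pow_one, pow_two]; exact h2)

theorem mul_inv_eq_self {a : G} (ha : a * a = 1) : a⁻¹ = a := inv_eq_of_mul_eq_one_left ha

end inv

section rset
variable {D : Set G}

theorem sq_one (hD : IsRootInvolutionSet D) {d : G} (hd : d ∈ D) : d * d = 1 := by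
  have := pow_orderOf_eq_one d
  rwa [hD.orderOf_eq d hd, pow_two] at this

theorem ne_one (hD : IsRootInvolutionSet D) {d : G} (hd : d ∈ D) : d ≠ 1 := by
  intro h
  have := hD.orderOf_eq d hd
  rw [h, orderOf_one] at this
  omega

theorem inv_self (hD : IsRootInvolutionSet D) {d : G} (hd : d ∈ D) : d⁻¹ = d := mul_inv_eq_self (sq_one hD hd)

end rset

section s5049
variable {D : Set G}

theorem odd_comm (hD : IsOddTranspositionSet D) {a b : G} (ha : a ∈ D) (hb : b ∈ D) {k : ℕ} (h : (a * b) ^ (2 ^ k) = 1) :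
    a * b = b * a := by
  rcases hD.1.pair a ha b hb with h1 | h1 | ⟨h1, -⟩
  · exact h1
  · have := eq_one_of_odd_pow h1 h
    have h2 : a = b := by
      rw [← inv_self hD.1 hb]
      exact eq_inv_of_mul_eq_one_left this
    rw [h2]
  · exact absurd h1 (hD.2 a ha b hb)

theorem s5049_aux [Finite G] (hD : IsOddTranspositionSet D) {a e q : G} (ha : a ∈ D) (he : e ∈ D) (hea : e * a = a * e)
    (hq : q ∈ pCore 2 G) : e * (q * a * q⁻¹) = (q * a * q⁻¹) * e := by
  have hq' := hD.1.conj_mem a ha q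
  have h1 : (e * (q * a * q⁻¹)) * (e * (q * a * q⁻¹)) ∈ pCore 2 G := by
    have hπ : ∀ g : G, g ∈ pCore 2 G ↔ (QuotientGroup.mk' (pCore 2 G)) g = 1 := fun g => by
      rw [QuotientGroup.mk'_apply, QuotientGroup.eq_one_iff]
    rw [hπ]
    have h2 := (hπ q).1 hq
    have h3 : e * a * (e * a) = 1 := by
      calc e * a * (e * a) = e * (a * e) * a := by group
        _ = e * e * (a * a) := by rw [← hea]; group
        _ = 1 := by rw [sq_one hD.1 he, sq_one hD.1 ha, one_mul]
    have h4 := congrArg (QuotientGroup.mk' (pCore 2 G)) h3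
    simp only [map_mul, map_inv, h2, one_mul, inv_one, mul_one, map_one] at h4 ⊢
    exact h4
  obtain ⟨k, hk⟩ := (Solv.pCore_isPGroup 2) ⟨_, h1⟩
  refine odd_comm hD he hq' (k := k + 1) ?_
  have h5 : ((e * (q * a * q⁻¹)) * (e * (q * a * q⁻¹))) ^ (2 ^ k) = 1 := congrArg Subtype.val hk
  rw [← pow_two, ← pow_mul] at h5
  rw [pow_succ, mul_comm (2 ^ k) 2]; exact h5

theorem s5049_one [Finite G] (hD : IsOddTranspositionSet D) {a : G} (ha : a ∈ D) :
    ∀ e ∈ commutingMembers D a, ∀ q ∈ ⁅pCore 2 G, Subgroup.zpowers a⁆, e * q = q * e := by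
  rintro e ⟨he, hea⟩ q hq
  have hle : ⁅pCore 2 G, Subgroup.zpowers a⁆ ≤ Subgroup.centralizer {e} := by
    rw [Subgroup.commutator_le]
    rintro q hq _ ⟨i, rfl⟩
    rw [Subgroup.mem_centralizer_iff]
    intro h hh
    rw [Set.mem_singleton_iff.1 hh]
    have h1 := s5049_aux hD ha he hea hq
    -- `⁅q, a ^ i⁆ = (q a q⁻¹) ^ i * a ^ (-i)`
    have h2 : ⁅q, a ^ i⁆ = (q * a * q⁻¹) ^ i * (a ^ i)⁻¹ := by
      rw [commutatorElement_def, conj_zpow]
    change e * ⁅q, a ^ i⁆ = ⁅q, a ^ i⁆ * e
    rw [h2]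
    exact ((Commute.zpow_right (h := (h1 : Commute e (q * a * q⁻¹))) i).mul_right
      ((Commute.zpow_right (h := (hea : Commute e a)) i).inv_right)).eq
  exact Subgroup.mem_centralizer_iff.1 (hle hq) e rfl

theorem s5049_two [Finite G] (hD : IsOddTranspositionSet D) {a : G} (ha : a ∈ D) :
    ∀ b ∈ oddPartners D a,
      pCore 2 G ⊓ Subgroup.centralizer {a * b} = pCore 2 G ⊓ Subgroup.centralizer {a} ⊓ Subgroup.centralizer {b} := by
  rintro b ⟨hb, hba, hodd⟩
  have hmem : ∀ (g x : G), x ∈ Subgroup.centralizer ({g} : Set G) ↔ g * x = x * g := by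
    intro g x
    rw [Subgroup.mem_centralizer_iff]
    exact ⟨fun h => h g rfl, fun h y hy => by rw [Set.mem_singleton_iff.1 hy]; exact h⟩
  have haa := sq_one hD.1 ha
  have hbb := sq_one hD.1 hb
  apply le_antisymm
  · intro x hx
    obtain ⟨hxQ, hx⟩ := Subgroup.mem_inf.1 hx
    rw [hmem] at hx
    -- `u = a * (x a x⁻¹)`
    obtain ⟨a', ha'⟩ : ∃ a', a' = x * a * x⁻¹ := ⟨_, rfl⟩
    have h1 : a * a' = a' * a := by rw [ha']; exact s5049_aux hD ha ha rfl hxQ
    have ha'D : a' ∈ D := by rw [ha']; exact hD.1.conj_mem a ha x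
    have ha'2 := sq_one hD.1 ha'D
    obtain ⟨u, hu⟩ : ∃ u, u = a * a' := ⟨_, rfl⟩
    have hu2 : u * u = 1 := by
      rw [hu]
      calc a * a' * (a * a') = a * (a' * a) * a' := by group
        _ = a * a * (a' * a') := by rw [← h1]; group
        _ = 1 := by rw [haa, ha'2, one_mul]
    have hua : Commute u a := by
      show u * a = a * u
      rw [hu, mul_assoc, ← h1]
    -- `u` commutes with `a * b`
    have hinv : a * (a * b) * a = (a * b)⁻¹ := by
      rw [mul_inv_rev, inv_self hD.1 ha, inv_self hD.1 hb, ← mul_assoc, haa, one_mul]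
    have hinv' : a' * (a * b) * a' = (a * b)⁻¹ := by
      have h2 : x * (a * b) * x⁻¹ = a * b := by rw [← hx, mul_inv_cancel_right]
      have h3 := congrArg (fun z => x * z * x⁻¹) hinv
      have h4 : x * (a * (a * b) * a) * x⁻¹ = (x * a * x⁻¹) * (x * (a * b) * x⁻¹) * (x * a * x⁻¹) := by group
      have h5 : x * (a * b)⁻¹ * x⁻¹ = (x * (a * b) * x⁻¹)⁻¹ := by group
      simp only [h4, h5, h2] at h3
      rw [ha']; exact h3
    have hug : Commute u (a * b) := by
      show u * (a * b) = (a * b) * u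
      have h6 : a' * (a * b) = (a * b)⁻¹ * a' := by
        rw [← hinv', mul_assoc _ a' a', ha'2, mul_one]
      have h7 : a * (a * b)⁻¹ = (a * b) * a := by
        have : a * (a * b)⁻¹ * a = a * b := by
          rw [← hinv]
          calc a * (a * (a * b) * a) * a = (a * a) * (a * b) * (a * a) := by group
            _ = a * b := by rw [haa, one_mul, mul_one]
        calc a * (a * b)⁻¹ = a * (a * b)⁻¹ * (a * a) := by rw [haa, mul_one]
          _ = (a * (a * b)⁻¹ * a) * a := by group
          _ = a * b * a := by rw [this]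
      calc u * (a * b) = a * (a' * (a * b)) := by rw [hu, mul_assoc]
        _ = (a * (a * b)⁻¹) * a' := by rw [h6, mul_assoc]
        _ = (a * b) * u := by rw [h7, hu, mul_assoc]
    -- `b' = x b x⁻¹ = b u`
    have hb' : x * b * x⁻¹ = b * u := by
      have h2 : x * (a * b) * x⁻¹ = a * b := by rw [← hx, mul_inv_cancel_right]
      have h3 : a' * (x * b * x⁻¹) = a * b := by
        rw [ha', ← h2]; group
      have h4 : x * b * x⁻¹ = a' * (a * b) := by
        rw [← h3, ← mul_assoc, ha'2, one_mul]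
      have h5 : a' = a * u := by rw [hu, ← mul_assoc, haa, one_mul]
      rw [h4, h5]
      calc a * u * (a * b) = a * (u * (a * b)) := by group
        _ = a * (a * b * u) := by rw [hug.eq]
        _ = (a * a) * (b * u) := by group
        _ = b * u := by rw [haa, one_mul]
    have hu1 : u = 1 := by
      by_contra hne
      have h3 : a * (x * b * x⁻¹) = (a * b) * u := by rw [hb', mul_assoc]
      have hbD := hD.1.conj_mem b hb x
      have hcop : Nat.Coprime (orderOf (a * b)) (orderOf u) := by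
        have : orderOf u ∣ 2 := orderOf_dvd_of_pow_eq_one (by rw [pow_two]; exact hu2)
        exact Nat.Coprime.coprime_dvd_right this (Nat.coprime_two_right.2 hodd)
      have hord : orderOf (a * (x * b * x⁻¹)) = orderOf (a * b) * orderOf u := by
        rw [h3]; exact hug.symm.orderOf_mul_eq_mul_orderOf_of_coprime hcop
      have hou : orderOf u = 2 := orderOf_eq_prime (by rw [pow_two]; exact hu2) hne
      rcases hD.1.pair a ha _ hbD with h4 | h4 | ⟨h4, -⟩
      · have h5 : (a * (x * b * x⁻¹)) * (a * (x * b * x⁻¹)) = 1 := by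
          have hs := sq_one hD.1 hbD
          calc _ = a * ((x * b * x⁻¹) * a) * (x * b * x⁻¹) := by group
            _ = a * a * ((x * b * x⁻¹) * (x * b * x⁻¹)) := by rw [← h4]; group
            _ = 1 := by rw [haa, hs, one_mul]
        have h6 : orderOf (a * (x * b * x⁻¹)) ∣ 2 := orderOf_dvd_of_pow_eq_one (by rw [pow_two]; exact h5)
        rw [hord, hou] at h6
        have h7 : orderOf (a * b) ∣ 1 := Nat.dvd_of_mul_dvd_mul_right (by norm_num : 0 < 2) (by rw [one_mul]; exact h6)
        have h8 := orderOf_eq_one_iff.1 (Nat.dvd_one.1 h7)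
        apply hba
        have : a⁻¹ = b := inv_eq_of_mul_eq_one_right h8
        rw [← this, inv_self hD.1 ha]
      · rw [hord, hou] at h4
        exact absurd h4 (by simp)
      · exact hD.2 a ha _ hbD h4
    have hax : a * x = x * a := by
      have h2 : a * a' = 1 := by rw [← hu, hu1]
      have h3 : a' = a := by rw [← inv_self hD.1 ha]; exact (inv_eq_of_mul_eq_one_right h2).symm
      rw [ha'] at h3
      calc a * x = (x * a * x⁻¹) * x := by rw [h3]
        _ = x * a := by group
    have hbx : b * x = x * b := by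
      rw [hu1, mul_one] at hb'
      calc b * x = (x * b * x⁻¹) * x := by rw [hb']
        _ = x * b := by group
    exact Subgroup.mem_inf.2 ⟨Subgroup.mem_inf.2 ⟨hxQ, (hmem _ _).2 hax⟩, (hmem _ _).2 hbx⟩
  · intro x hx
    obtain ⟨h1, hb'⟩ := Subgroup.mem_inf.1 hx
    obtain ⟨hQ, ha'⟩ := Subgroup.mem_inf.1 h1
    rw [hmem] at ha' hb'
    refine Subgroup.mem_inf.2 ⟨hQ, (hmem _ _).2 ?_⟩
    rw [mul_assoc, hb', ← mul_assoc, ha', mul_assoc]

end s5049

end Cfsg.Agent.H84.RI
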