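import Mathlib
import Cfsg.Prelude.Def_RootSubgroups
import Cfsg.Agent.H84.Root6
set_option autoImplicit false

/-!
# Abstract root subgroups VII: specialness in classes with commuting members (helper84)
-/

namespace Cfsg.Agent.H84

open Cfsg
open scoped commutatorElement

variable {G : Type*} [Group G] {A B C D E F M U : Subgroup G} {S : Set (Subgroup G)}

/-- `A` and `D` commute with the same other members. -/
def Bad (S : Set (Subgroup G)) (A D : Subgroup G) : Prop := ∀ B ∈ S, (B ≠ A ∧ Com B A) ↔ (B ≠ D ∧ Com B D)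

theorem Bad.symm (h : Bad S A D) : Bad S D A := fun B hB => (h B hB).symm

theorem Bad.trans (h : Bad S A D) (h' : Bad S D E) : Bad S A E := fun B hB => (h B hB).trans (h' B hB)

theorem Bad.refl : Bad S A A := fun _ _ => Iff.rfl

theorem Bad.conj (hS : IsRootSubgroupSet S) (h : Bad S A D) (g : G) : Bad S (conjBy A g) (conjBy D g) := by
  have key : ∀ X Y : Subgroup G, (X ≠ conjBy Y g ∧ Com X (conjBy Y g)) ↔ (conjBy X g⁻¹ ≠ Y ∧ Com (conjBy X g⁻¹) Y) := by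
    intro X Y
    constructor
    · rintro ⟨h1, h2⟩
      refine ⟨fun h' => h1 ?_, ?_⟩
      · rw [← h', conjBy_conjBy, mul_inv_cancel, conjBy_one]
      · have := h2.conj g⁻¹
        rwa [conjBy_conjBy, inv_mul_cancel, conjBy_one] at this
    · rintro ⟨h1, h2⟩
      refine ⟨fun h' => h1 ?_, ?_⟩
      · rw [h', conjBy_conjBy, inv_mul_cancel, conjBy_one]
      · have := h2.conj g
        rwa [conjBy_conjBy, mul_inv_cancel, conjBy_one] at this
  intro B hB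
  rw [key, key]
  exact h _ (hS.conj_mem _ hB _)

/-- the setting: `A ≠ C` commute, both rank one with `M`. -/
structure Tri (A C M : Subgroup G) : Prop where
  AM : IsRankOnePair A M
  CM : IsRankOnePair C M
  AC : Com A C
  ne : A ≠ C
  AA : Com A A
  CC : Com C C
  MM : Com M M

/-- the element `w`: it conjugates `A` to `C`, centralizes `M`, and is compatible with the action on `M`. -/
theorem Tri.exists_w (h : Tri A C M) : ∃ w : G, conjBy A w = C ∧ (∀ m ∈ M, w * m = m * w) ∧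
    ∀ a ∈ A, ∀ m ∈ M, conjBy A m = conjBy M a → conjBy C m = conjBy M (w * a * w⁻¹) := by
  obtain ⟨m, hm, hm1⟩ := le_iff_of_bot (r1_ne_bot' h.AM)
  obtain ⟨a, ha, ha1, h1⟩ := r1_right h.AM hm hm1
  obtain ⟨c, hc, hc1, h2⟩ := r1_right h.CM hm hm1
  obtain ⟨k1, -⟩ := g1 h.AM h.CM h.AC ha hc hm h1 h2
  set u := a⁻¹ * c with hu
  have huA : conjBy A u = A := by
    rw [hu, ← conjBy_conjBy, h.AC.conjBy_eq hc, conjBy_self (inv_mem ha)]
  have hac := h.AC _ (inv_mem ha) _ hc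
  have e1 : conjBy A (u * m * u⁻¹) = conjBy C m := by
    rw [← conjBy_conjBy, conjBy_inv_eq huA, ← conjBy_conjBy, h1, conjBy_conjBy, h2]
    congr 1
    rw [hu, hac]; group
  have hum : u * m * u⁻¹ ∈ conjBy M u := conj_mem_conjBy hm
  have hw : ∀ m' ∈ M, m⁻¹ * (u * m * u⁻¹) * m' = m' * (m⁻¹ * (u * m * u⁻¹)) := by
    intro m' hm'
    rw [mul_assoc, ← k1 m' hm' _ hum, ← mul_assoc, h.MM _ (inv_mem hm) _ hm', mul_assoc]
  have hwA : conjBy A (m⁻¹ * (u * m * u⁻¹)) = C := by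
    rw [← conjBy_conjBy, e1, conjBy_conjBy, inv_mul_cancel, conjBy_one]
  refine ⟨m⁻¹ * (u * m * u⁻¹), hwA, hw, fun a₁ ha₁ m₁ hm₁ h3 => ?_⟩
  have h4 := congrArg (fun X => conjBy X (m⁻¹ * (u * m * u⁻¹))) h3
  rw [conjBy_conjBy, hw m₁ hm₁, ← conjBy_conjBy, hwA] at h4
  rw [h4]
  have h5 : conjBy M (m⁻¹ * (u * m * u⁻¹)) = M := conjBy_of_comm fun x hx => (hw x hx).symm
  have h6 := conjBy_inv_eq h5
  rw [conjBy_conjBy, ← conjBy_conjBy M (m⁻¹ * (u * m * u⁻¹))⁻¹ (m⁻¹ * (u * m * u⁻¹) * a₁), h6]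

theorem conj_commute {x y g : G} (h : x * y = y * x) : (g * x * g⁻¹) * (g * y * g⁻¹) = (g * y * g⁻¹) * (g * x * g⁻¹) :=
  Conf.conj_comm h

/-- If `m ∈ M` has order `> 3`, there is a nontrivial element `a ∈ A` in the group generated by three members
`conjBy A w^i` (i = 1,2,3), all commuting with `A` and different from `A`. -/
theorem four_power (h : Tri A C M) {m : G} (hm : m ∈ M) (hm1 : m ≠ 1) (hm2 : m * m ≠ 1) (hm3 : m * m * m ≠ 1)
    {D : Subgroup G} (hD : ∀ w : G, conjBy A w ≠ A → Com A (conjBy A w) → Com D (conjBy A w)) :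
    ∃ a ∈ A, a ≠ 1 ∧ ∀ d ∈ D, d * a = a * d := by
  obtain ⟨a, ha, ha1, h1⟩ := r1_right h.AM hm hm1
  obtain ⟨c, hc, hc1, h2⟩ := r1_right h.CM hm hm1
  obtain ⟨k1, -⟩ := g1 h.AM h.CM h.AC ha hc hm h1 h2
  set u := a⁻¹ * c with hu
  have huA : conjBy A u = A := by
    rw [hu, ← conjBy_conjBy, h.AC.conjBy_eq hc, conjBy_self (inv_mem ha)]
  have hac := h.AC _ (inv_mem ha) _ hc
  have hac' := h.AC _ ha _ hc
  have e1 : conjBy A (u * m * u⁻¹) = conjBy C m := by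
    rw [← conjBy_conjBy, conjBy_inv_eq huA, ← conjBy_conjBy, h1, conjBy_conjBy, h2]
    congr 1
    rw [hu, hac]; group
  have hum : u * m * u⁻¹ ∈ conjBy M u := conj_mem_conjBy hm
  set w := m⁻¹ * (u * m * u⁻¹) with hw_def
  have hw : ∀ m' ∈ M, w * m' = m' * w := by
    intro m' hm'
    rw [hw_def, mul_assoc, ← k1 m' hm' _ hum, ← mul_assoc, h.MM _ (inv_mem hm) _ hm', mul_assoc]
  have hwA : conjBy A w = C := by
    rw [hw_def, ← conjBy_conjBy, e1, conjBy_conjBy, inv_mul_cancel, conjBy_one]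
  have hwM : conjBy M w = M := conjBy_of_comm fun x hx => (hw x hx).symm
  have F4 : ∀ a₁ ∈ A, ∀ m₁ ∈ M, conjBy A m₁ = conjBy M a₁ → conjBy C m₁ = conjBy M (w * a₁ * w⁻¹) := by
    intro a₁ ha₁ m₁ hm₁ h3
    have h4 := congrArg (fun X => conjBy X w) h3
    rw [conjBy_conjBy, hw m₁ hm₁, ← conjBy_conjBy, hwA] at h4
    rw [h4]
    have h6 := conjBy_inv_eq hwM
    rw [conjBy_conjBy, ← conjBy_conjBy M w⁻¹ (w * a₁), h6]
  have hwac : w * a * w⁻¹ = c := by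
    have h3 := F4 a ha m hm h1
    rw [h2] at h3
    refine (r1_regular' h.CM hc ?_ h3).symm
    rw [← hwA]; exact conj_mem_conjBy ha
  have F5 : ∀ a₁ ∈ A, Com M (conjBy M (a₁⁻¹ * (w * a₁ * w⁻¹))) := by
    intro a₁ ha₁
    by_cases ha₁1 : a₁ = 1
    · subst ha₁1
      have : (1 : G)⁻¹ * (w * 1 * w⁻¹) = 1 := by group
      rw [this, conjBy_one]; exact h.MM
    · obtain ⟨m₁, hm₁, -, h3⟩ := r1_left h.AM ha₁ ha₁1
      exact (g1 h.AM h.CM h.AC ha₁ (by rw [← hwA]; exact conj_mem_conjBy ha₁) hm₁ h3 (F4 a₁ ha₁ m₁ hm₁ h3)).1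
  -- `conjBy M u⁻¹` and `conjBy M u` commute
  have F6 : Com (conjBy M u⁻¹) (conjBy M u) := by
    have h3 := F5 (a * a) (mul_mem ha ha)
    have e2 : (a * a)⁻¹ * (w * (a * a) * w⁻¹) = u * u := by
      have : w * (a * a) * w⁻¹ = c * c := by rw [← hwac]; group
      rw [this, hu]
      calc (a * a)⁻¹ * (c * c) = a⁻¹ * (a⁻¹ * c) * c := by group
        _ = a⁻¹ * (c * a⁻¹) * c := by rw [hac]
        _ = a⁻¹ * c * (a⁻¹ * c) := by group
    rw [e2] at h3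
    have h4 := h3.conj u⁻¹
    rwa [conjBy_conjBy, inv_mul_cancel_left] at h4
  have F1' : Com (conjBy M u⁻¹) M := by
    have h4 := k1.conj u⁻¹
    rwa [conjBy_conjBy, inv_mul_cancel, conjBy_one] at h4
  -- `w` commutes with `u⁻¹ w u`
  have F7 : w * (u⁻¹ * w * u) = (u⁻¹ * w * u) * w := by
    have e2 : u⁻¹ * w * u = (u⁻¹ * m⁻¹ * u) * m := by rw [hw_def]; group
    have hmem : u⁻¹ * m⁻¹ * u ∈ conjBy M u⁻¹ := by
      have := conj_mem_conjBy (g := u⁻¹) (inv_mem hm)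
      rwa [inv_inv] at this
    have e3 : w * (u⁻¹ * m⁻¹ * u) = (u⁻¹ * m⁻¹ * u) * w := by
      have i1 := F1' _ hmem _ (inv_mem hm)
      have i2 := F6 _ hmem _ hum
      rw [hw_def]
      calc m⁻¹ * (u * m * u⁻¹) * (u⁻¹ * m⁻¹ * u) = m⁻¹ * ((u⁻¹ * m⁻¹ * u) * (u * m * u⁻¹)) := by rw [i2, mul_assoc]
        _ = (m⁻¹ * (u⁻¹ * m⁻¹ * u)) * (u * m * u⁻¹) := by group
        _ = _ := by rw [← i1, mul_assoc]
    rw [e2, ← mul_assoc, e3, mul_assoc, hw m hm]; group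
  -- z = u⁻¹ w u w⁻¹ = c⁻¹ a c⁻¹ c₂
  set c₂ := w * c * w⁻¹ with hc₂
  set c₃ := w * c₂ * w⁻¹ with hc₃
  have hz1 : u⁻¹ * w * u * w⁻¹ = c⁻¹ * a * c⁻¹ * c₂ := by
    have : w * u * w⁻¹ = c⁻¹ * c₂ := by rw [hu, hc₂, ← hwac]; group
    calc u⁻¹ * w * u * w⁻¹ = u⁻¹ * (w * u * w⁻¹) := by group
      _ = _ := by rw [this, hu]; group
  have hz2 : w * (u⁻¹ * w * u * w⁻¹) * w⁻¹ = u⁻¹ * w * u * w⁻¹ := by
    calc w * (u⁻¹ * w * u * w⁻¹) * w⁻¹ = (w * (u⁻¹ * w * u)) * w⁻¹ * w⁻¹ := by group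
      _ = _ := by rw [F7]; group
  have hz3 : c₂⁻¹ * c * c₂⁻¹ * c₃ = c⁻¹ * a * c⁻¹ * c₂ := by
    rw [hz1] at hz2
    calc c₂⁻¹ * c * c₂⁻¹ * c₃ = (w * c * w⁻¹)⁻¹ * (w * a * w⁻¹) * (w * c * w⁻¹)⁻¹ * (w * c₂ * w⁻¹) := by rw [hwac]
      _ = w * (c⁻¹ * a * c⁻¹ * c₂) * w⁻¹ := by group
      _ = _ := hz2
  have hfin : a = c * (c₂⁻¹ * c * c₂⁻¹ * c₃) * c₂⁻¹ * c := by rw [hz3]; group
  -- powers of `w`
  have hcomm : m⁻¹ * (u * m * u⁻¹) = (u * m * u⁻¹) * m⁻¹ := k1 _ (inv_mem hm) _ hum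
  have key : ∀ i : ℕ, w ^ i = (m ^ i)⁻¹ * (u * m ^ i * u⁻¹) := by
    intro i
    have : Commute m⁻¹ (u * m * u⁻¹) := hcomm
    rw [hw_def, this.mul_pow, inv_pow, conj_pow]
  have hMA : IsRankOnePair M A := RankOnePair_symm h.AM
  have hM'A : IsRankOnePair (conjBy M u) A := by
    have := r1_conj hMA u
    rwa [huA] at this
  have pw : ∀ i : ℕ, m ^ i ≠ 1 → conjBy A (w ^ i) ≠ A ∧ Com A (conjBy A (w ^ i)) := by
    intro i hi
    have hmi : m ^ i ∈ M := pow_mem hm i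
    obtain ⟨a', ha', ha'1, h3⟩ := r1_right h.AM hmi hi
    have hua : u * a' = a' * u := by
      have h6 := h.AA a' ha' _ (inv_mem ha)
      have h7 := h.AC a' ha' c hc
      rw [hu]
      calc a⁻¹ * c * a' = a⁻¹ * (a' * c) := by rw [h7]; group
        _ = _ := by rw [← mul_assoc, ← h6]; group
    have h4 : conjBy (conjBy M u) a' = conjBy A (u * m ^ i * u⁻¹) := by
      rw [conjBy_conjBy, ← hua, ← conjBy_conjBy M a' u, ← h3, ← conjBy_conjBy A u⁻¹ (u * m ^ i), conjBy_inv_eq huA,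
        conjBy_conjBy]
    obtain ⟨h5, -⟩ := g1 hMA hM'A k1 hmi (conj_mem_conjBy hmi) ha' h3.symm h4
    rw [← key] at h5
    refine ⟨fun h6 => ?_, h5⟩
    have h7 : conjBy A (u * m ^ i * u⁻¹) = conjBy A (m ^ i) := by
      have : u * m ^ i * u⁻¹ = m ^ i * w ^ i := by rw [key]; group
      rw [this, ← conjBy_conjBy, h6]
    rw [← h4, h3, conjBy_conjBy, ← conjBy_conjBy, conjBy_inj, hu, ← conjBy_conjBy, conjBy_eq_iff, inv_inv,
      ← h2, ← h1, conjBy_inj] at h7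
    exact h.ne h7.symm
  have hw1 := pw 1 (by rwa [pow_one])
  have hw2 := pw 2 (by rwa [pow_two])
  have hw3 := pw 3 (by rwa [pow_succ, pow_two])
  refine ⟨a, ha, ha1, fun d hd => ?_⟩
  have d1 : d * c = c * d := hD _ hw1.1 hw1.2 d hd c (by rw [pow_one, ← hwac]; exact conj_mem_conjBy ha)
  have d2 : d * c₂ = c₂ * d := hD _ hw2.1 hw2.2 d hd c₂ (by
    have : c₂ = w ^ 2 * a * (w ^ 2)⁻¹ := by
      simp only [hc₂, ← hwac, pow_succ, pow_zero, one_mul, mul_inv_rev, mul_assoc]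
    rw [this]; exact conj_mem_conjBy ha)
  have d3 : d * c₃ = c₃ * d := hD _ hw3.1 hw3.2 d hd c₃ (by
    have : c₃ = w ^ 3 * a * (w ^ 3)⁻¹ := by
      simp only [hc₃, hc₂, ← hwac, pow_succ, pow_zero, one_mul, mul_inv_rev, mul_assoc]
    rw [this]; exact conj_mem_conjBy ha)
  have q1 : Commute d c := d1
  have q2 : Commute d c₂ := d2
  have q3 : Commute d c₃ := d3
  rw [hfin]
  exact ((q1.mul_right (((q2.inv_right.mul_right q1).mul_right q2.inv_right).mul_right q3)).mul_right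
    q2.inv_right).mul_right q1

/-- In a bad pair `(A,D)` (with witnesses `C`, `M`), `X' ⊓ A = 1` for `X = ⟨A,D⟩`. -/
theorem bad_commutator (hS : IsRootSubgroupSet S) (hTA : Tri A C M) (hTD : Tri D C M) (hbad : Bad S A D)
    (hCS : C ∈ S) {x : G} (hx : x ∈ ⁅A ⊔ D, A ⊔ D⁆) (hxA : x ∈ A) : x = 1 := by
  obtain ⟨w, hw1, hw2, hw3⟩ := hTA.exists_w
  obtain ⟨v, hv1, hv2, hv3⟩ := hTD.exists_w
  -- conjBy M a ~ conjBy M (g a g⁻¹), g = v⁻¹ w
  have hg : conjBy A (v⁻¹ * w) = D := by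
    rw [← conjBy_conjBy, hw1, ← hv1, conjBy_conjBy, inv_mul_cancel, conjBy_one]
  have claim : ∀ a ∈ A, Bad S (conjBy M a) (conjBy M ((v⁻¹ * w) * a * (v⁻¹ * w)⁻¹)) := by
    intro a ha
    by_cases ha1 : a = 1
    · subst ha1
      have : v⁻¹ * w * 1 * (v⁻¹ * w)⁻¹ = 1 := by group
      rw [this]; exact Bad.refl
    · have hd : (v⁻¹ * w) * a * (v⁻¹ * w)⁻¹ ∈ D := by rw [← hg]; exact conj_mem_conjBy ha
      have hd1 : (v⁻¹ * w) * a * (v⁻¹ * w)⁻¹ ≠ 1 := fun h => ha1 (conj_eq_one_iff.mp h)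
      obtain ⟨m₁, hm₁, -, h1⟩ := r1_left hTA.AM ha ha1
      obtain ⟨m₂, hm₂, -, h2⟩ := r1_left hTD.AM hd hd1
      have h3 := hw3 a ha m₁ hm₁ h1
      have h4 := hv3 _ hd m₂ hm₂ h2
      have e : v * (v⁻¹ * w * a * (v⁻¹ * w)⁻¹) * v⁻¹ = w * a * w⁻¹ := by group
      rw [e, ← h3] at h4
      have h5 := r1_regular hTA.CM hm₂ hm₁ h4
      rw [← h1, ← h2, h5]
      exact hbad.conj hS m₁
  -- the action
  let Q : G → G → Prop := fun x t => ∀ a ∈ A, Bad S (conjBy M (x * a)) (conjBy M (t * a))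
  have Qmul : ∀ x t y s, t ∈ A → s ∈ A → Q x t → Q y s → Q (x * y) (t * s) := by
    intro x t y s ht hs hx hy a ha
    have h1 := (hy a ha).conj hS x
    rw [conjBy_conjBy, conjBy_conjBy, ← mul_assoc] at h1
    have h2 := hx (s * a) (mul_mem hs ha)
    rw [← mul_assoc t s a] at h2
    exact h1.trans h2
  have Qinv : ∀ x t, t ∈ A → Q x t → Q x⁻¹ t⁻¹ := by
    intro x t ht hx a ha
    have h1 := (hx (t⁻¹ * a) (mul_mem (inv_mem ht) ha)).conj hS x⁻¹
    rw [conjBy_conjBy, conjBy_conjBy, inv_mul_cancel_left, mul_inv_cancel_left] at h1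
    exact h1.symm
  have QA : ∀ a ∈ A, Q a a := fun a _ a₁ _ => Bad.refl
  have QD : ∀ a ∈ A, Q ((v⁻¹ * w) * a * (v⁻¹ * w)⁻¹) a := by
    intro a ha a₁ ha₁
    have h1 := (claim a₁ ha₁).conj hS ((v⁻¹ * w) * a * (v⁻¹ * w)⁻¹)
    rw [conjBy_conjBy, conjBy_conjBy] at h1
    refine h1.trans ?_
    have h2 := (claim (a * a₁) (mul_mem ha ha₁)).symm
    have e : (v⁻¹ * w) * a * (v⁻¹ * w)⁻¹ * ((v⁻¹ * w) * a₁ * (v⁻¹ * w)⁻¹) = (v⁻¹ * w) * (a * a₁) * (v⁻¹ * w)⁻¹ := by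
      group
    rw [e]; exact h2
  have QX : ∀ x ∈ A ⊔ D, ∃ t ∈ A, Q x t := by
    intro x hx
    rw [Subgroup.sup_eq_closure] at hx
    refine Subgroup.closure_induction (p := fun (x : G) _ => ∃ t ∈ A, Q x t) ?_ ?_ ?_ ?_ hx
    · rintro x (hx | hx)
      · exact ⟨x, hx, QA x hx⟩
      · have h1 : x ∈ conjBy A (v⁻¹ * w) := by rw [hg]; exact hx
        obtain ⟨a, ha, rfl⟩ := h1
        exact ⟨a, ha, QD a ha⟩
    · exact ⟨1, one_mem _, fun a _ => Bad.refl⟩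
    · rintro x y _ _ ⟨t, ht, h1⟩ ⟨s, hs, h2⟩
      exact ⟨t * s, mul_mem ht hs, Qmul x t y s ht hs h1 h2⟩
    · rintro x _ ⟨t, ht, h1⟩
      exact ⟨t⁻¹, inv_mem ht, Qinv x t ht h1⟩
  have Qc : Q x 1 := by
    have hx' := hx
    rw [Subgroup.commutator_def] at hx'
    refine Subgroup.closure_induction (p := fun (x : G) _ => Q x 1) ?_ ?_ ?_ ?_ hx'
    · rintro _ ⟨y, hy, z, hz, rfl⟩
      obtain ⟨t, ht, h1⟩ := QX y hy
      obtain ⟨s, hs, h2⟩ := QX z hz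
      have h3 := Qmul _ _ _ _ (mul_mem (mul_mem ht hs) (inv_mem ht)) (inv_mem hs)
        (Qmul _ _ _ _ (mul_mem ht hs) (inv_mem ht) (Qmul y t z s ht hs h1 h2) (Qinv y t ht h1)) (Qinv z s hs h2)
      have e : t * s * t⁻¹ * s⁻¹ = 1 := by rw [hTA.AA t ht s hs]; group
      rw [e] at h3
      exact h3
    · intro a _; exact Bad.refl
    · intro y z _ _ h1 h2
      have := Qmul y 1 z 1 (one_mem _) (one_mem _) h1 h2
      rwa [one_mul] at this
    · intro y _ h1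
      have := Qinv y 1 (one_mem _) h1
      rwa [inv_one] at this
  by_contra hx1
  have h1 := Qc 1 (one_mem _)
  rw [mul_one, mul_one, conjBy_one] at h1
  obtain ⟨m, hm, -, h2⟩ := r1_left hTA.AM hxA hx1
  rw [← h2] at h1
  have h3 := h1.conj hS m⁻¹
  rw [conjBy_conjBy, inv_mul_cancel, conjBy_one, conjBy_self (inv_mem hm)] at h3
  have h4 := (h3 C hCS).mp ⟨hTA.ne.symm, hTA.AC.symm⟩
  exact r1_not_com hTA.CM h4.2

/-- existence of `C`, `M`. -/
theorem exM (hc : IsRootSubgroupClass S) (hd : IsDegenerateRootSet S) (hA : A ∈ S) (hD : D ∈ S) (hAD : IsRankOnePair A D)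
    (hcomm : ∃ C ∈ S, C ≠ A ∧ Com C A) :
    ∃ C ∈ S, C ≠ A ∧ Com C A ∧ ∃ M ∈ S, IsRankOnePair A M ∧ IsRankOnePair C M := by
  have hS := hc.1
  by_contra hcon
  push Not at hcon
  have hall : ∀ C ∈ S, C ≠ A → Com C A → ∀ M ∈ S, IsRankOnePair A M → Com C M := by
    intro C hC hCA hCA' M hM hAM
    rcases rs_pair hS hC hM with h | h | h
    · exact h
    · exact absurd h (hcon C hC hCA hCA' M hM hAM)
    · exact absurd h (hd C hC M hM)
  -- H = generated by A and its rank one partners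
  set H : Subgroup G := A ⊔ ⨆ M ∈ rankOnePartners S A, M with hH
  have hHC : ∀ C ∈ S, C ≠ A → Com C A → Com C H := by
    intro C hC hCA hCA'
    refine hCA'.sup_right ?_
    have : (⨆ M ∈ rankOnePartners S A, M) ≤ Subgroup.centralizer (C : Set G) := by
      refine iSup₂_le fun M hM m hm => Subgroup.mem_centralizer_iff.mpr fun c hc' => ?_
      exact hall C hC hCA hCA' M hM.1 hM.2 c hc' m hm
    intro c hc' m hm
    exact Subgroup.mem_centralizer_iff.mp (this hm) c hc'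
  have hconj : ∀ g : G, ∃ h ∈ H, conjBy A g = conjBy A h := by
    intro g
    refine gen_induction hS (P := fun g => ∃ h ∈ H, conjBy A g = conjBy A h) ⟨1, one_mem _, rfl⟩ ?_ g
    rintro x ⟨hx1, B, hB, hxB⟩ y ⟨h, hh, hyh⟩
    have hstep : conjBy A (x * y) = conjBy (conjBy A h) x := by rw [← hyh, conjBy_conjBy]
    rw [hstep]
    by_cases hBA : B = A
    · subst hBA
      exact ⟨x * h, mul_mem (Subgroup.mem_sup_left hxB) hh, conjBy_conjBy _ _ _⟩
    · rcases rs_pair hS hB hA with h1 | h1 | h1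
      · refine ⟨h, hh, ?_⟩
        have h2 := hHC B hB hBA h1 x hxB h hh
        rw [conjBy_conjBy, h2, ← conjBy_conjBy, h1.symm.conjBy_eq hxB]
      · refine ⟨x * h, mul_mem ?_ hh, conjBy_conjBy _ _ _⟩
        exact Subgroup.mem_sup_right ((le_iSup₂_of_le B ⟨hB, RankOnePair_symm h1⟩ le_rfl : B ≤ _) hxB)
      · exact absurd h1 (hd B hB A hA)
  obtain ⟨C, hC, hCA, hCA'⟩ := hcomm
  obtain ⟨g, hg⟩ := hc.2.2 A hA C hC
  obtain ⟨h, hh, hgh⟩ := hconj g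
  rw [hgh] at hg
  have hCH : C ≤ H := by rw [hg]; exact conjBy_le_of_mem le_sup_left hh
  -- C commutes with all members
  have hCB : ∀ B ∈ S, Com C B := by
    intro B hB
    by_cases hBA : B = A
    · rw [hBA]; exact hCA'
    · rcases rs_pair hS hB hA with h1 | h1 | h1
      · exact ((hHC B hB hBA h1).mono le_rfl hCH).symm
      · exact hall C hC hCA hCA' B hB (RankOnePair_symm h1)
      · exact absurd h1 (hd B hB A hA)
  have hCc : ∀ g : G, conjBy C g = C := by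
    intro g
    refine gen_induction hS (P := fun g => conjBy C g = C) (conjBy_one C) ?_ g
    rintro x ⟨-, B, hB, hxB⟩ y hy
    rw [← conjBy_conjBy, hy, (hCB B hB).conjBy_eq hxB]
  have : conjBy C h⁻¹ = A := by
    rw [hg, conjBy_conjBy, inv_mul_cancel, conjBy_one]
  rw [hCc] at this
  exact hCA this

end Cfsg.Agent.H84
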