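import Cfsg.Agent.RankOne.Basic
import Cfsg.Agent.H49.Core
import Cfsg.Agent.H67.SZ

/-!
TI subgroups: an elementary abelian 2-subgroup `V`, TI in `G`, maximal abelian normal in
`M = N(V)`, `F*(M) = O_2(M) = Q`, with a conjugate `≠ V` inside `Q`.
-/

set_option autoImplicit false
set_option linter.unusedSectionVars false
set_option linter.style.haveILetI false

namespace Cfsg.Agent.H84.TI

open Cfsg Cfsg.Agent.RankOne Subgroup
open scoped commutatorElement

variable {G : Type*} [Group G] [Finite G]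

/-- the configuration -/
structure Cfg (V Q : Subgroup G) : Prop where
  sq : ∀ v ∈ V, v * v = 1
  VQ : V ≤ Q
  QM : Q ≤ normalizer (V : Set G)
  Qn : normalizer (V : Set G) ≤ normalizer (Q : Set G)
  Qp : IsPGroup 2 Q
  core : ∀ N : Subgroup G, N ≤ normalizer (V : Set G) → normalizer (V : Set G) ≤ normalizer (N : Set G) →
    IsPGroup 2 N → N ≤ Q
  cent : ∀ x ∈ normalizer (V : Set G), (∀ y ∈ Q, x * y = y * x) → x ∈ Q
  max : ∀ A : Subgroup G, V ≤ A → A ≤ normalizer (V : Set G) → (∀ a ∈ A, ∀ b ∈ A, a * b = b * a) →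
    normalizer (V : Set G) ≤ normalizer (A : Set G) → A = V
  ti : ∀ x : G, conjBy V x = V ∨ conjBy V x ⊓ V = ⊥
  ne : ∃ x : G, conjBy V x ≠ V

theorem mem_normalizer_conjBy {A : Subgroup G} {x g : G} :
    g ∈ normalizer (conjBy A x : Set G) ↔ x⁻¹ * g * x ∈ normalizer (A : Set G) := by
  rw [← conjBy_eq_self_iff, ← conjBy_eq_self_iff, conjBy_conjBy]
  constructor
  · intro h
    have := congrArg (fun B => conjBy B x⁻¹) h
    simp only [conjBy_conjBy] at this
    rw [inv_mul_cancel, conjBy_one] at this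
    rwa [mul_assoc]
  · intro h
    have := congrArg (fun B => conjBy B x) h
    simp only [conjBy_conjBy] at this
    have e : x * (x⁻¹ * g * x) = g * x := by group
    rwa [e] at this

theorem normalizer_conjBy (A : Subgroup G) (x : G) :
    normalizer (conjBy A x : Set G) = conjBy (normalizer (A : Set G)) x := by
  ext g
  rw [mem_normalizer_conjBy, mem_conjBy]

theorem le_conjBy_iff {A B : Subgroup G} {x : G} : A ≤ conjBy B x ↔ conjBy A x⁻¹ ≤ B := by
  rw [← conjBy_le_conjBy (g := x⁻¹) (A := A), conjBy_conjBy, inv_mul_cancel, conjBy_one]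

namespace Cfg

variable {V Q : Subgroup G} (h : Cfg V Q)

include h

theorem conj (x : G) : Cfg (conjBy V x) (conjBy Q x) where
  sq := by
    intro v hv
    rw [mem_conjBy] at hv
    have := h.sq _ hv
    have e : x⁻¹ * v * x * (x⁻¹ * v * x) = x⁻¹ * (v * v) * x := by group
    rw [e] at this
    have e2 : v * v = x * (x⁻¹ * (v * v) * x) * x⁻¹ := by group
    rw [e2, this]; group
  VQ := conjBy_mono h.VQ x
  QM := by rw [normalizer_conjBy]; exact conjBy_mono h.QM x
  Qn := by rw [normalizer_conjBy, normalizer_conjBy]; exact conjBy_mono h.Qn x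
  Qp := h.Qp.map _
  core := by
    intro N hN hNn hp
    rw [normalizer_conjBy] at hN hNn
    rw [le_conjBy_iff]
    apply h.core
    · have := conjBy_mono hN x⁻¹
      rwa [conjBy_conjBy, inv_mul_cancel, conjBy_one] at this
    · have := conjBy_mono hNn x⁻¹
      rwa [conjBy_conjBy, inv_mul_cancel, conjBy_one, ← normalizer_conjBy] at this
    · exact hp.map _
  cent := by
    intro y hy hc
    rw [mem_normalizer_conjBy] at hy
    rw [mem_conjBy]
    apply h.cent _ hy
    intro z hz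
    have h1 := hc _ (conj_mem_conjBy x hz)
    calc x⁻¹ * y * x * z = x⁻¹ * (y * (x * z * x⁻¹)) * x := by group
      _ = x⁻¹ * (x * z * x⁻¹ * y) * x := by rw [h1]
      _ = _ := by group
  max := by
    intro A h1 h2 h3 h4
    rw [normalizer_conjBy] at h2 h4
    have := h.max (conjBy A x⁻¹) ?_ ?_ ?_ ?_
    · rw [← this, conjBy_conjBy, mul_inv_cancel, conjBy_one]
    · have := conjBy_mono h1 x⁻¹
      rwa [conjBy_conjBy, inv_mul_cancel, conjBy_one] at this
    · have := conjBy_mono h2 x⁻¹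
      rwa [conjBy_conjBy, inv_mul_cancel, conjBy_one] at this
    · intro a ha b hb
      rw [mem_conjBy, inv_inv] at ha hb
      have := h3 _ ha _ hb
      have e1 : a * b = x⁻¹ * (x * a * x⁻¹ * (x * b * x⁻¹)) * x := by group
      have e2 : b * a = x⁻¹ * (x * b * x⁻¹ * (x * a * x⁻¹)) * x := by group
      rw [e1, e2, this]
    · have := conjBy_mono h4 x⁻¹
      rwa [conjBy_conjBy, inv_mul_cancel, conjBy_one, ← normalizer_conjBy] at this
  ti := by
    intro y
    rcases h.ti (x⁻¹ * y * x) with h1 | h1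
    · left
      rw [conjBy_conjBy]
      have := congrArg (fun B => conjBy B x) h1
      simp only [conjBy_conjBy] at this
      have e : x * (x⁻¹ * y * x) = y * x := by group
      rwa [e] at this
    · right
      rw [← conjBy_eq_bot (g := x), conjBy_inf, conjBy_conjBy] at h1
      have e : x * (x⁻¹ * y * x) = y * x := by group
      rw [e] at h1
      rw [conjBy_conjBy]
      exact h1
  ne := by
    obtain ⟨y, hy⟩ := h.ne
    refine ⟨x * y * x⁻¹, fun h1 => hy ?_⟩
    rw [conjBy_conjBy] at h1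
    have := congrArg (fun B => conjBy B x⁻¹) h1
    simp only [conjBy_conjBy] at this
    have e : x⁻¹ * (x * y * x⁻¹ * x) = y := by group
    rw [e, inv_mul_cancel, conjBy_one] at this
    exact this

theorem Vc {v w : G} (hv : v ∈ V) (hw : w ∈ V) : v * w = w * v := by
  have h1 := h.sq _ hv
  have h2 := h.sq _ hw
  have h3 := h.sq _ (V.mul_mem hv hw)
  calc v * w = v * (v * w * (v * w)) * w := by rw [h3, mul_one]
    _ = (v * v) * (w * v) * (w * w) := by group
    _ = w * v := by rw [h1, h2, one_mul, mul_one]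

theorem inv_eq {v : G} (hv : v ∈ V) : v⁻¹ = v := inv_eq_of_mul_eq_one_left (h.sq _ hv)

theorem Vne : V ≠ ⊥ := by
  rintro rfl
  obtain ⟨x, hx⟩ := h.ne
  exact hx (conjBy_bot x)

theorem exists_ne : ∃ v ∈ V, v ≠ 1 := by
  by_contra hcon
  push Not at hcon
  exact h.Vne ((Subgroup.eq_bot_iff_forall _).mpr hcon)

theorem ti2 (x y : G) : conjBy V x = conjBy V y ∨ conjBy V x ⊓ conjBy V y = ⊥ := by
  rcases h.ti (y⁻¹ * x) with h1 | h1
  · left
    have := congrArg (fun B => conjBy B y) h1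
    simp only [conjBy_conjBy] at this
    rwa [mul_inv_cancel_left] at this
  · right
    rw [← conjBy_eq_bot (g := y), conjBy_inf, conjBy_conjBy, mul_inv_cancel_left] at h1
    exact h1

theorem eq_of_mem {x y w : G} (hw : w ≠ 1) (hx : w ∈ conjBy V x) (hy : w ∈ conjBy V y) :
    conjBy V x = conjBy V y := by
  rcases h.ti2 x y with h1 | h1
  · exact h1
  · exfalso
    apply hw
    rw [← Subgroup.mem_bot, ← h1]
    exact ⟨hx, hy⟩

theorem mem_N {g v : G} (hv : v ∈ V) (hv1 : v ≠ 1) (hgv : g * v * g⁻¹ ∈ V) : g ∈ normalizer (V : Set G) := by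
  rw [← conjBy_eq_self_iff]
  have h1 : g * v * g⁻¹ ≠ 1 := fun h0 => hv1 (by
    have : v = g⁻¹ * (g * v * g⁻¹) * g := by group
    rw [this, h0]; group)
  have := h.eq_of_mem (x := g) (y := 1) h1 (conj_mem_conjBy g hv) (by rw [conjBy_one]; exact hgv)
  rwa [conjBy_one] at this

theorem mem_N_of_comm {g v : G} (hv : v ∈ V) (hv1 : v ≠ 1) (hgv : g * v = v * g) :
    g ∈ normalizer (V : Set G) := by
  apply h.mem_N hv hv1
  rw [hgv, mul_inv_cancel_right]; exact hv

theorem card_conj (x : G) : Nat.card (conjBy V x) = Nat.card V :=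
  Subgroup.card_map_of_injective (MulAut.conj x).injective

end Cfg

/-- an out-neighbour: a conjugate of `V`, different from `V`, contained in `Q`. -/
structure Out (V Q U : Subgroup G) : Prop where
  ex : ∃ x : G, U = conjBy V x
  ne : U ≠ V
  le : U ≤ Q

/-- the centralizer of `V` in `Q` -/
def PP (V Q : Subgroup G) : Subgroup G := Q ⊓ centralizer (V : Set G)

theorem mem_PP {V Q : Subgroup G} {x : G} : x ∈ PP V Q ↔ x ∈ Q ∧ ∀ v ∈ V, v * x = x * v := by
  rw [PP, Subgroup.mem_inf, Subgroup.mem_centralizer_iff]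
  rfl

namespace Cfg

variable {V Q : Subgroup G} (h : Cfg V Q)

include h

theorem out_cfg {U : Subgroup G} (hU : Out V Q U) : ∃ QU, Cfg U QU := by
  obtain ⟨x, rfl⟩ := hU.ex
  exact ⟨_, h.conj x⟩

theorem out_inf {U : Subgroup G} (hU : Out V Q U) : ∀ w, w ∈ U → w ∈ V → w = 1 := by
  obtain ⟨x, hx⟩ := hU.ex
  intro w hw hwV
  by_contra hw1
  apply hU.ne
  rw [hx] at hw ⊢
  have := h.eq_of_mem hw1 hw (by rwa [conjBy_one] : w ∈ conjBy V 1)
  rwa [conjBy_one] at this

theorem out_conj {U : Subgroup G} (hU : Out V Q U) {m : G} (hm : m ∈ normalizer (V : Set G)) :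
    Out V Q (conjBy U m) where
  ex := by
    obtain ⟨x, rfl⟩ := hU.ex
    exact ⟨m * x, by rw [conjBy_conjBy]⟩
  ne := by
    intro h1
    apply hU.ne
    have h2 : conjBy V m = V := conjBy_eq_self_iff.mpr hm
    rw [← h2] at h1
    exact conjBy_inj.mp h1
  le := by
    have h1 : conjBy Q m = Q := conjBy_eq_self_iff.mpr (h.Qn hm)
    rw [← h1]
    exact conjBy_mono hU.le m

theorem out_card {U : Subgroup G} (hU : Out V Q U) : Nat.card U = Nat.card V := by
  obtain ⟨x, rfl⟩ := hU.ex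
  exact h.card_conj x

/-- Step 1 -/
theorem out_comm {U : Subgroup G} (hU : Out V Q U) : ∀ u ∈ U, ∀ v ∈ V, u * v = v * u := by
  obtain ⟨QU, hUc⟩ := h.out_cfg hU
  have hUV := h.out_inf hU
  have hnormal : ∀ u ∈ U, ∀ v ∈ V, u * v * u⁻¹ ∈ V := fun u hu v hv =>
    (mem_normalizer_iff.mp (h.QM (hU.le hu)) v).mp hv
  -- if v commutes with one u then with all
  have key : ∀ v ∈ V, ∀ u ∈ U, u ≠ 1 → v * u = u * v → ∀ u' ∈ U, u' * v = v * u' := by
    intro v hv u hu hu1 hc u' hu'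
    have hvN := hUc.mem_N_of_comm hu hu1 hc
    have h1 : v * u' * v⁻¹ * u'⁻¹ ∈ U :=
      U.mul_mem ((mem_normalizer_iff.mp hvN u').mp hu') (U.inv_mem hu')
    have h2 : v * u' * v⁻¹ * u'⁻¹ ∈ V := by
      have : v * u' * v⁻¹ * u'⁻¹ = v * (u' * v⁻¹ * u'⁻¹) := by group
      rw [this]
      exact V.mul_mem hv (hnormal u' hu' _ (V.inv_mem hv))
    have h3 := hUV _ h1 h2
    have h4 : v * u' = u' * v := by
      have e : v * u' = (v * u' * v⁻¹ * u'⁻¹) * (u' * v) := by group
      rw [e, h3, one_mul]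
    exact h4.symm
  let C : Subgroup G := V ⊓ centralizer (U : Set G)
  by_contra hcon
  push Not at hcon
  obtain ⟨u₀, hu₀, v, hv, huv⟩ := hcon
  have hvC : ∀ u ∈ U, u ≠ 1 → v * u ≠ u * v := fun u hu hu1 hc => huv (key v hv u hu hu1 hc u₀ hu₀)
  have hmem : ∀ u ∈ U, v * u * v⁻¹ * u⁻¹ ∈ C := by
    intro u hu
    have e0 : v * u * v⁻¹ * u⁻¹ = v * (u * v * u⁻¹) := by rw [h.inv_eq hv]; group
    have hVm : v * (u * v * u⁻¹) ∈ V := V.mul_mem hv (hnormal u hu v hv)
    refine ⟨by rw [e0]; exact hVm, ?_⟩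
    rw [e0]
    refine mem_centralizer_iff.mpr ?_
    by_cases hu1 : u = 1
    · intro y _
      rw [hu1]
      have : v * (1 * v * 1⁻¹) = 1 := by
        rw [one_mul, inv_one, mul_one]; exact h.sq _ hv
      rw [this]; simp
    · have hcu : (v * (u * v * u⁻¹)) * u = u * (v * (u * v * u⁻¹)) := by
        have hus := hUc.sq u hu
        have hw := h.Vc hv (hnormal u hu v hv)
        calc (v * (u * v * u⁻¹)) * u = v * u * v := by group
          _ = u * (u * v * u⁻¹) * u * u * v := by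
              rw [hUc.inv_eq hu]
              calc v * u * v = 1 * v * 1 * u * v := by group
                _ = (u * u) * v * (u * u) * u * v := by rw [hus]
                _ = _ := by group
          _ = u * ((u * v * u⁻¹) * (u * u) * v) := by group
          _ = u * ((u * v * u⁻¹) * v) := by rw [hus, mul_one]
          _ = u * (v * (u * v * u⁻¹)) := by rw [hw]
      intro y hy
      exact key _ hVm u hu hu1 hcu y hy
  let f : U → C := fun u => ⟨v * u * v⁻¹ * (u:G)⁻¹, hmem u u.2⟩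
  have hf : Function.Injective f := by
    intro a b hab
    have h1 : v * (a:G) * v⁻¹ * (a:G)⁻¹ = v * (b:G) * v⁻¹ * (b:G)⁻¹ := congrArg Subtype.val hab
    by_contra hne
    apply hvC ((b:G)⁻¹ * a) (U.mul_mem (U.inv_mem b.2) a.2)
    · intro h0
      apply hne
      apply Subtype.ext
      calc (a:G) = b * ((b:G)⁻¹ * a) := by group
        _ = b := by rw [h0, mul_one]
    · have h2 : (a:G) * v⁻¹ * (a:G)⁻¹ = (b:G) * v⁻¹ * (b:G)⁻¹ := by
        have e : ∀ c : G, c * v⁻¹ * c⁻¹ = v⁻¹ * (v * c * v⁻¹ * c⁻¹) := fun c => by group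
        rw [e a, e b, h1]
      rw [h.inv_eq hv] at h2
      have h3 : (b:G)⁻¹ * a * v = v * ((b:G)⁻¹ * a) := by
        calc (b:G)⁻¹ * a * v = (b:G)⁻¹ * (a * v * (a:G)⁻¹) * a := by group
          _ = (b:G)⁻¹ * (b * v * (b:G)⁻¹) * a := by rw [h2]
          _ = _ := by group
      exact h3.symm
  have hcard : Nat.card U ≤ Nat.card C := Nat.card_le_card_of_injective f hf
  have hCV : C = V := by
    apply Subgroup.eq_of_le_of_card_ge inf_le_left
    rw [← h.out_card hU]; exact hcard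
  apply huv
  have h1 : v ∈ C := by rw [hCV]; exact hv
  exact (mem_centralizer_iff.mp h1.2 u₀ hu₀)

theorem out_le_PP {U : Subgroup G} (hU : Out V Q U) : U ≤ PP V Q := fun u hu =>
  mem_PP.mpr ⟨hU.le hu, fun v hv => (h.out_comm hU u hu v hv).symm⟩

theorem V_le_PP : V ≤ PP V Q := fun _ hv => mem_PP.mpr ⟨h.VQ hv, fun _ hw => h.Vc hw hv⟩

theorem PP_norm : normalizer (V : Set G) ≤ normalizer (PP V Q : Set G) := by
  intro m hm
  rw [← conjBy_eq_self_iff]
  have h1 : conjBy Q m = Q := conjBy_eq_self_iff.mpr (h.Qn hm)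
  have h2 : conjBy V m = V := conjBy_eq_self_iff.mpr hm
  have h3 : conjBy V m⁻¹ = V := by rw [← conjBy_inv_eq.mp h2]
  ext x
  rw [mem_conjBy, mem_PP, mem_PP]
  constructor
  · rintro ⟨hx, hx'⟩
    refine ⟨by rw [← h1, mem_conjBy]; exact hx, fun v hv => ?_⟩
    have hv' : m⁻¹ * v * m ∈ V := by rw [← h2, mem_conjBy] at hv; exact hv
    have := hx' _ hv'
    calc v * x = m * (m⁻¹ * v * m * (m⁻¹ * x * m)) * m⁻¹ := by group
      _ = m * (m⁻¹ * x * m * (m⁻¹ * v * m)) * m⁻¹ := by rw [this]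
      _ = _ := by group
  · rintro ⟨hx, hx'⟩
    refine ⟨by rw [← h1, mem_conjBy] at hx; exact hx, fun v hv => ?_⟩
    have hv' : m * v * m⁻¹ ∈ V := by rw [← h3, mem_conjBy, inv_inv] at hv; exact hv
    have := hx' _ hv'
    calc v * (m⁻¹ * x * m) = m⁻¹ * (m * v * m⁻¹ * x) * m := by group
      _ = m⁻¹ * (x * (m * v * m⁻¹)) * m := by rw [this]
      _ = _ := by group

theorem PP_le_N : PP V Q ≤ normalizer (V : Set G) := inf_le_left.trans h.QM

theorem PP_isPGroup : IsPGroup 2 (PP V Q) := h.Qp.to_le inf_le_left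

end Cfg

/-- a nontrivial normal subgroup of a `2`-group meets the centre: element version modulo `V` -/
theorem exists_mod {P V B : Subgroup G} (hP : IsPGroup 2 P) (hVP : V ≤ P) (hVn : P ≤ normalizer (V : Set G))
    (hBP : B ≤ P) (hBn : P ≤ normalizer (B : Set G)) (hVB : V ≤ B) (hne : B ≠ V) :
    ∃ y ∈ B, y ∉ V ∧ y * y ∈ V ∧ ∀ a ∈ P, y * a * y⁻¹ * a⁻¹ ∈ V := by
  haveI : Fact (Nat.Prime 2) := ⟨Nat.prime_two⟩
  haveI hVN : (V.subgroupOf P).Normal := (normal_subgroupOf_iff_le_normalizer hVP).2 hVn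
  haveI hBN : (B.subgroupOf P).Normal := (normal_subgroupOf_iff_le_normalizer hBP).2 hBn
  set π := QuotientGroup.mk' (V.subgroupOf P) with hπ
  have hp : IsPGroup 2 (P ⧸ V.subgroupOf P) := hP.to_quotient _
  set B' := (B.subgroupOf P).map π with hB'
  haveI : B'.Normal := hBN.map π (QuotientGroup.mk'_surjective _)
  have hB'ne : B' ≠ ⊥ := by
    intro h0
    apply hne
    apply le_antisymm _ hVB
    intro b hb
    have h1 : π ⟨b, hBP hb⟩ ∈ B' := ⟨⟨b, hBP hb⟩, hb, rfl⟩
    rw [h0, mem_bot, ← MonoidHom.mem_ker, hπ, QuotientGroup.ker_mk'] at h1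
    exact h1
  obtain ⟨v, hv, hv1, hvc⟩ := H67.exists_fixed_of_pgroup (p := 2) (⊤ : Subgroup (P ⧸ V.subgroupOf P)) B'
    (hp.to_subgroup _) (hp.to_subgroup _) hB'ne (by rw [normalizer_eq_top]; )
  -- take a power of order 2
  obtain ⟨k, hk⟩ := hp v
  have hk' : ∃ k, v ^ 2 ^ k ≠ 1 ∧ (v ^ 2 ^ k) ^ 2 = 1 := by
    classical
    have hex : ∃ k, v ^ 2 ^ k = 1 := ⟨k, hk⟩
    have hpos : Nat.find hex ≠ 0 := by
      intro h0
      have := Nat.find_spec hex
      rw [h0, pow_zero, pow_one] at this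
      exact hv1 this
    obtain ⟨j, hj⟩ := Nat.exists_eq_succ_of_ne_zero hpos
    refine ⟨j, Nat.find_min hex (by omega), ?_⟩
    rw [← pow_mul, ← pow_succ]
    have := Nat.find_spec hex
    rwa [hj] at this
  obtain ⟨k, hk1, hk2⟩ := hk'
  have hw : v ^ 2 ^ k ∈ B' := B'.pow_mem hv _
  obtain ⟨⟨y, hyP⟩, hyB, hy⟩ := hw
  have hcen : ∀ t, t * (v ^ 2 ^ k) * t⁻¹ = v ^ 2 ^ k := by
    intro t
    have h1 := hvc t (mem_top t)
    have h2 : t * v ^ 2 ^ k * t⁻¹ = (t * v * t⁻¹) ^ 2 ^ k := by rw [conj_pow]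
    rw [h2, h1]
  refine ⟨y, hyB, ?_, ?_, ?_⟩
  · intro h0
    apply hk1
    rw [← hy, ← MonoidHom.mem_ker, hπ, QuotientGroup.ker_mk']
    exact h0
  · rw [← hy, ← map_pow, ← MonoidHom.mem_ker, hπ, QuotientGroup.ker_mk', pow_two] at hk2
    exact hk2
  · intro a ha
    have h1 := hcen (π ⟨a, ha⟩)
    rw [← hy] at h1
    have h2 : π (⟨y, hyP⟩ * ⟨a, ha⟩ * ⟨y, hyP⟩⁻¹ * ⟨a, ha⟩⁻¹) = 1 := by
      rw [map_mul, map_mul, map_mul, map_inv, map_inv]
      have h3 : π ⟨a, ha⟩ * π ⟨y, hyP⟩ = π ⟨y, hyP⟩ * π ⟨a, ha⟩ := mul_inv_eq_iff_eq_mul.mp h1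
      rw [← h3]; group
    rw [← MonoidHom.mem_ker, hπ, QuotientGroup.ker_mk'] at h2
    exact h2

end Cfsg.Agent.H84.TI
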