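import Cfsg.Agent.H84.TI1

/-! TI subgroups, part 2: structure of `P = C_Q(V)`. -/

set_option autoImplicit false
set_option linter.unusedSectionVars false
set_option linter.style.haveILetI false

namespace Cfsg.Agent.H84.TI

open Cfsg Cfsg.Agent.RankOne Subgroup
open scoped commutatorElement

variable {G : Type*} [Group G] [Finite G]

namespace Cfg

variable {V Q : Subgroup G} (h : Cfg V Q)

include h

theorem norm_mem {m v : G} (hm : m ∈ normalizer (V : Set G)) (hv : v ∈ V) : m * v * m⁻¹ ∈ V :=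
  (mem_normalizer_iff.mp hm v).mp hv

theorem norm_mem' {m v : G} (hm : m ∈ normalizer (V : Set G)) (hv : v ∈ V) : m⁻¹ * v * m ∈ V := by
  have := h.norm_mem (inv_mem hm) hv
  rwa [inv_inv] at this

theorem norm_PP {m v : G} (hm : m ∈ normalizer (V : Set G)) (hv : v ∈ PP V Q) : m * v * m⁻¹ ∈ PP V Q :=
  (mem_normalizer_iff.mp (h.PP_norm hm) v).mp hv

theorem norm_PP' {m v : G} (hm : m ∈ normalizer (V : Set G)) (hv : v ∈ PP V Q) : m⁻¹ * v * m ∈ PP V Q := by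
  have := h.norm_PP (inv_mem hm) hv
  rwa [inv_inv] at this

theorem conj_inv_mem {m : G} (hm : m ∈ normalizer (V : Set G)) {S : Subgroup G}
    (hS : ∀ m ∈ normalizer (V : Set G), ∀ s ∈ S, m * s * m⁻¹ ∈ S) : m ∈ normalizer (S : Set G) := by
  rw [mem_normalizer_iff]
  intro s
  constructor
  · exact fun hs => hS m hm s hs
  · intro hs
    have := hS m⁻¹ (inv_mem hm) _ hs
    have e : m⁻¹ * (m * s * m⁻¹) * m⁻¹⁻¹ = s := by group
    rwa [e] at this

theorem PV_comm {a v : G} (ha : a ∈ PP V Q) (hv : v ∈ V) : a * v = v * a :=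
  ((mem_PP.mp ha).2 v hv).symm

theorem PV_conj {a v : G} (ha : a ∈ PP V Q) (hv : v ∈ V) : a * v * a⁻¹ = v := by
  rw [h.PV_comm ha hv, mul_inv_cancel_right]

/-- the centre of `P` -/
theorem PP_center {c : G} (hc : c ∈ PP V Q) (hcc : ∀ a ∈ PP V Q, c * a = a * c) : c ∈ V := by
  have hA : (PP V Q ⊓ centralizer (PP V Q : Set G)) = V := by
    apply h.max
    · intro v hv
      exact ⟨h.V_le_PP hv, mem_centralizer_iff.mpr fun a ha => h.PV_comm ha hv⟩
    · exact inf_le_left.trans h.PP_le_N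
    · intro a ha b hb
      exact (mem_centralizer_iff.mp ha.2 b hb.1).symm
    · intro m hm
      apply h.conj_inv_mem hm
      intro m hm s hs
      refine ⟨h.norm_PP hm hs.1, mem_centralizer_iff.mpr fun a ha => ?_⟩
      have h1 := mem_centralizer_iff.mp hs.2 _ (h.norm_PP' hm ha)
      calc a * (m * s * m⁻¹) = m * (m⁻¹ * a * m * s) * m⁻¹ := by group
        _ = m * (s * (m⁻¹ * a * m)) * m⁻¹ := by rw [h1]
        _ = _ := by group
  rw [← hA]
  exact ⟨hc, mem_centralizer_iff.mpr fun a ha => (hcc a ha).symm⟩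

/-- `Ω₁ Z(P/V)` -/
def XX : Subgroup G where
  carrier := {x | x ∈ PP V Q ∧ x * x ∈ V ∧ ∀ a ∈ PP V Q, x * a * x⁻¹ * a⁻¹ ∈ V}
  one_mem' := ⟨one_mem _, by simp, fun a _ => by simp⟩
  mul_mem' := by
    rintro x y ⟨hx, hx2, hx3⟩ ⟨hy, hy2, hy3⟩
    refine ⟨mul_mem hx hy, ?_, fun a ha => ?_⟩
    · have e : x * y * (x * y) = x * x * (x⁻¹ * (y * x * y⁻¹ * x⁻¹) * x) * (y * y) := by group
      rw [e]
      exact V.mul_mem (V.mul_mem hx2 (h.norm_mem' (h.PP_le_N hx) (hy3 x hx))) hy2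
    · have e : x * y * a * (x * y)⁻¹ * a⁻¹ = x * (y * a * y⁻¹ * a⁻¹) * x⁻¹ * (x * a * x⁻¹ * a⁻¹) := by group
      rw [e]
      exact V.mul_mem (h.norm_mem (h.PP_le_N hx) (hy3 a ha)) (hx3 a ha)
  inv_mem' := by
    rintro x ⟨hx, hx2, hx3⟩
    refine ⟨inv_mem hx, ?_, fun a ha => ?_⟩
    · have e : x⁻¹ * x⁻¹ = (x * x)⁻¹ := by group
      rw [e]; exact V.inv_mem hx2
    · have e : x⁻¹ * a * x⁻¹⁻¹ * a⁻¹ = x⁻¹ * (x * a * x⁻¹ * a⁻¹)⁻¹ * x := by group
      rw [e]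
      exact h.norm_mem' (h.PP_le_N hx) (V.inv_mem (hx3 a ha))

theorem mem_XX {x : G} : x ∈ h.XX ↔ x ∈ PP V Q ∧ x * x ∈ V ∧ ∀ a ∈ PP V Q, x * a * x⁻¹ * a⁻¹ ∈ V := Iff.rfl

theorem XX_norm {m : G} (hm : m ∈ normalizer (V : Set G)) {x : G} (hx : x ∈ h.XX) : m * x * m⁻¹ ∈ h.XX := by
  obtain ⟨hx, hx2, hx3⟩ := hx
  refine ⟨h.norm_PP hm hx, ?_, fun a ha => ?_⟩
  · have e : m * x * m⁻¹ * (m * x * m⁻¹) = m * (x * x) * m⁻¹ := by group
    rw [e]; exact h.norm_mem hm hx2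
  · have e : m * x * m⁻¹ * a * (m * x * m⁻¹)⁻¹ * a⁻¹ =
      m * (x * (m⁻¹ * a * m) * x⁻¹ * (m⁻¹ * a * m)⁻¹) * m⁻¹ := by group
    rw [e]
    exact h.norm_mem hm (hx3 _ (h.norm_PP' hm ha))

theorem V_le_XX : V ≤ h.XX := by
  intro v hv
  refine ⟨h.V_le_PP hv, by rw [h.sq v hv]; exact one_mem _, fun a ha => ?_⟩
  have e : v * a * v⁻¹ * a⁻¹ = v * (a * v⁻¹ * a⁻¹) := by group
  rw [e, h.PV_conj ha (V.inv_mem hv), mul_inv_cancel]; exact one_mem _

/-- `Z(X) = V` -/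
theorem XX_center : h.XX ⊓ centralizer (h.XX : Set G) = V := by
  apply h.max
  · intro v hv
    exact ⟨h.V_le_XX hv, mem_centralizer_iff.mpr fun a ha => h.PV_comm ha.1 hv⟩
  · intro x hx; exact h.PP_le_N hx.1.1
  · intro a ha b hb
    exact (mem_centralizer_iff.mp ha.2 b hb.1).symm
  · intro m hm
    apply h.conj_inv_mem hm
    intro m hm s hs
    refine ⟨h.XX_norm hm hs.1, mem_centralizer_iff.mpr fun a ha => ?_⟩
    have h0 : m⁻¹ * a * m ∈ h.XX := by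
      have := h.XX_norm (inv_mem hm) ha
      rwa [inv_inv] at this
    have h1 := mem_centralizer_iff.mp hs.2 _ h0
    calc a * (m * s * m⁻¹) = m * (m⁻¹ * a * m * s) * m⁻¹ := by group
      _ = m * (s * (m⁻¹ * a * m)) * m⁻¹ := by rw [h1]
      _ = _ := by group

/-- `C_P(X) = V` -/
theorem centralizer_XX {c : G} (hc : c ∈ PP V Q) (hcc : ∀ x ∈ h.XX, c * x = x * c) : c ∈ V := by
  set B : Subgroup G := PP V Q ⊓ centralizer (h.XX : Set G) with hB
  by_cases hne : B = V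
  · rw [← hne]
    exact ⟨hc, mem_centralizer_iff.mpr fun x hx => (hcc x hx).symm⟩
  exfalso
  have hVB : V ≤ B := fun v hv => ⟨h.V_le_PP hv, mem_centralizer_iff.mpr fun a ha => h.PV_comm ha.1 hv⟩
  have hBn : PP V Q ≤ normalizer (B : Set G) := by
    intro m hm
    apply h.conj_inv_mem (h.PP_le_N hm)
    intro m hm s hs
    refine ⟨h.norm_PP hm hs.1, mem_centralizer_iff.mpr fun a ha => ?_⟩
    have h0 : m⁻¹ * a * m ∈ h.XX := by
      have := h.XX_norm (inv_mem hm) ha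
      rwa [inv_inv] at this
    have h1 := mem_centralizer_iff.mp hs.2 _ h0
    calc a * (m * s * m⁻¹) = m * (m⁻¹ * a * m * s) * m⁻¹ := by group
      _ = m * (s * (m⁻¹ * a * m)) * m⁻¹ := by rw [h1]
      _ = _ := by group
  obtain ⟨y, hyB, hyV, hy2, hya⟩ := exists_mod h.PP_isPGroup h.V_le_PP h.PP_le_N inf_le_left hBn hVB hne
  apply hyV
  rw [← h.XX_center]
  exact ⟨⟨hyB.1, hy2, hya⟩, hyB.2⟩

theorem PP_sq {a : G} (ha : a ∈ PP V Q) : a * a ∈ V := by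
  apply h.centralizer_XX (mul_mem ha ha)
  intro x hx
  have hz := hx.2.2 a ha
  set z := x * a * x⁻¹ * a⁻¹ with hz'
  have hz2 := h.sq z hz
  have hax : a * x = z⁻¹ * x * a := by rw [hz']; group
  rw [h.inv_eq hz] at hax
  have haz := h.PV_comm ha hz
  calc a * a * x = a * (a * x) := by group
    _ = a * (z * x * a) := by rw [hax]
    _ = (a * z) * x * a := by group
    _ = (z * a) * x * a := by rw [haz]
    _ = z * (a * x) * a := by group
    _ = z * (z * x * a) * a := by rw [hax]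
    _ = (z * z) * x * (a * a) := by group
    _ = x * (a * a) := by rw [hz2, one_mul]

theorem PP_comm {a b : G} (ha : a ∈ PP V Q) (hb : b ∈ PP V Q) : a * b * a⁻¹ * b⁻¹ ∈ V := by
  apply h.centralizer_XX (mul_mem (mul_mem (mul_mem ha hb) (inv_mem ha)) (inv_mem hb))
  intro x hx
  -- each element c of P: c x = ζ_c x c with ζ_c ∈ V, and ab, ba have the same ζ
  have key : ∀ c ∈ PP V Q, ∃ z ∈ V, c * x = z * x * c := by
    intro c hc
    refine ⟨(x * c * x⁻¹ * c⁻¹)⁻¹, V.inv_mem (hx.2.2 c hc), by group⟩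
  obtain ⟨z, hz, hza⟩ := key a ha
  obtain ⟨w, hw, hwb⟩ := key b hb
  have h1 : a * b * x = (z * w) * x * (a * b) := by
    calc a * b * x = a * (b * x) := by group
      _ = (a * w) * x * b := by rw [hwb]; group
      _ = w * (a * x) * b := by rw [h.PV_comm ha hw]; group
      _ = w * (z * x * a) * b := by rw [hza]
      _ = (w * z) * x * (a * b) := by group
      _ = _ := by rw [h.Vc hw hz]
  have h2 : b * a * x = (z * w) * x * (b * a) := by
    calc b * a * x = b * (a * x) := by group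
      _ = (b * z) * x * a := by rw [hza]; group
      _ = z * (b * x) * a := by rw [h.PV_comm hb hz]; group
      _ = z * (w * x * b) * a := by rw [hwb]
      _ = _ := by group
  have h3 : (b * a)⁻¹ * (z * w) * x = x * (b * a)⁻¹ := by
    calc (b * a)⁻¹ * (z * w) * x = (b * a)⁻¹ * ((z * w) * x * (b * a)) * (b * a)⁻¹ := by group
      _ = (b * a)⁻¹ * (b * a * x) * (b * a)⁻¹ := by rw [h2]
      _ = _ := by group
  have hzw : z * w ∈ V := V.mul_mem hz hw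
  have hcomm : (b * a)⁻¹ * (z * w) = (z * w) * (b * a)⁻¹ := h.PV_comm (inv_mem (mul_mem hb ha)) hzw
  have h4 : (z * w) * ((b * a)⁻¹ * x) = x * (b * a)⁻¹ := by rw [← h3, hcomm]; group
  calc a * b * a⁻¹ * b⁻¹ * x = a * b * ((b * a)⁻¹ * x) := by group
    _ = a * b * ((z * w)⁻¹ * ((z * w) * ((b * a)⁻¹ * x))) := by group
    _ = a * b * ((z * w)⁻¹ * (x * (b * a)⁻¹)) := by rw [h4]
    _ = (a * b * (z * w)⁻¹) * x * (b * a)⁻¹ := by group
    _ = ((z * w)⁻¹ * (a * b)) * x * (b * a)⁻¹ := by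
        rw [h.PV_comm (mul_mem ha hb) (V.inv_mem hzw)]
    _ = (z * w)⁻¹ * (a * b * x) * (b * a)⁻¹ := by group
    _ = (z * w)⁻¹ * ((z * w) * x * (a * b)) * (b * a)⁻¹ := by rw [h1]
    _ = _ := by group

theorem comm_mem {a b : G} (ha : a ∈ PP V Q) (hb : b ∈ PP V Q) : ⁅a, b⁆ ∈ V := h.PP_comm ha hb

theorem comm_mul_left {a b c : G} (ha : a ∈ PP V Q) (hb : b ∈ PP V Q) (hc : c ∈ PP V Q) :
    ⁅a * b, c⁆ = ⁅a, c⁆ * ⁅b, c⁆ := by
  have e : ⁅a * b, c⁆ = a * ⁅b, c⁆ * a⁻¹ * ⁅a, c⁆ := by simp only [commutatorElement_def]; group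
  rw [e, h.PV_conj ha (h.comm_mem hb hc), h.Vc (h.comm_mem hb hc) (h.comm_mem ha hc)]

theorem comm_mul_right {a b c : G} (ha : a ∈ PP V Q) (hb : b ∈ PP V Q) (hc : c ∈ PP V Q) :
    ⁅a, b * c⁆ = ⁅a, b⁆ * ⁅a, c⁆ := by
  have e : ⁅a, b * c⁆ = ⁅a, b⁆ * (b * ⁅a, c⁆ * b⁻¹) := by simp only [commutatorElement_def]; group
  rw [e, h.PV_conj hb (h.comm_mem ha hc)]

theorem comm_symm {a b : G} (ha : a ∈ PP V Q) (hb : b ∈ PP V Q) : ⁅a, b⁆ = ⁅b, a⁆ := by
  rw [← commutatorElement_inv b a, h.inv_eq (h.comm_mem hb ha)]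

theorem comm_inv_left {a c : G} (ha : a ∈ PP V Q) (hc : c ∈ PP V Q) : ⁅a⁻¹, c⁆ = ⁅a, c⁆ := by
  have := h.comm_mul_left ha (inv_mem ha) hc
  rw [mul_inv_cancel, commutatorElement_one_left] at this
  have h2 := inv_eq_of_mul_eq_one_right this.symm
  rw [← h2, h.inv_eq (h.comm_mem ha hc)]

end Cfg

end Cfsg.Agent.H84.TI
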