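import Cfsg.Agent.H84.TI2

/-! TI subgroups, part 3: out-neighbours. -/

set_option autoImplicit false
set_option linter.unusedSectionVars false
set_option linter.style.haveILetI false

namespace Cfsg.Agent.H84.TI

open Cfsg Cfsg.Agent.RankOne Subgroup
open scoped commutatorElement

variable {G : Type*} [Group G] [Finite G]

theorem comm_eq_one_iff {a b : G} : ⁅a, b⁆ = 1 ↔ a * b = b * a := commutatorElement_eq_one_iff_mul_comm

namespace Cfg

variable {V Q : Subgroup G} (h : Cfg V Q)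

include h

variable {U : Subgroup G} (hU : Out V Q U)

include hU

theorem out_ne_bot : ∃ u ∈ U, u ≠ 1 := by
  obtain ⟨QU, hc⟩ := h.out_cfg hU
  exact hc.exists_ne

theorem out_sq {u : G} (hu : u ∈ U) : u * u = 1 := by
  obtain ⟨QU, hc⟩ := h.out_cfg hU
  exact hc.sq u hu

theorem out_inv {u : G} (hu : u ∈ U) : u⁻¹ = u := inv_eq_of_mul_eq_one_left (h.out_sq hU hu)

theorem out_mem_PP {u : G} (hu : u ∈ U) : u ∈ PP V Q := h.out_le_PP hU hu

theorem out_cent {a u : G} (ha : a ∈ PP V Q) (hu : u ∈ U) (hu1 : u ≠ 1) (hc : a * u = u * a) :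
    ∀ u' ∈ U, a * u' = u' * a := by
  obtain ⟨QU, hUc⟩ := h.out_cfg hU
  have haN := hUc.mem_N_of_comm hu hu1 hc
  intro u' hu'
  rw [← comm_eq_one_iff]
  apply h.out_inf hU _ _ (h.comm_mem ha (h.out_mem_PP hU hu'))
  exact U.mul_mem (hUc.norm_mem haN hu') (U.inv_mem hu')

theorem out_inj {a u u' : G} (ha : a ∈ PP V Q) (hna : ¬ ∀ u ∈ U, a * u = u * a) (hu : u ∈ U) (hu' : u' ∈ U)
    (he : ⁅a, u⁆ = ⁅a, u'⁆) : u = u' := by
  by_contra hne
  apply hna
  apply h.out_cent hU ha (U.mul_mem hu hu')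
  · intro h0
    apply hne
    rw [← h.out_inv hU hu', ← mul_eq_one_iff_eq_inv]; exact h0
  · rw [← comm_eq_one_iff, h.comm_mul_right ha (h.out_mem_PP hU hu) (h.out_mem_PP hU hu'), he]
    exact h.sq _ (h.comm_mem ha (h.out_mem_PP hU hu'))

theorem out_surj {a v : G} (ha : a ∈ PP V Q) (hna : ¬ ∀ u ∈ U, a * u = u * a) (hv : v ∈ V) :
    ∃ u ∈ U, ⁅a, u⁆ = v := by
  let f : U → V := fun u => ⟨⁅a, (u:G)⁆, h.comm_mem ha (h.out_mem_PP hU u.2)⟩
  have hf : Function.Injective f := fun u u' he =>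
    Subtype.ext (h.out_inj hU ha hna u.2 u'.2 (congrArg Subtype.val he))
  have hb := (Nat.bijective_iff_injective_and_card f).mpr ⟨hf, h.out_card hU⟩
  obtain ⟨u, hu⟩ := hb.2 ⟨v, hv⟩
  exact ⟨u, u.2, congrArg Subtype.val hu⟩

/-- there is a non commuting `M`-conjugate -/
theorem exists_noncomm : ∃ m ∈ normalizer (V : Set G), ∃ u ∈ U, ∃ u' ∈ conjBy U m, u * u' ≠ u' * u := by
  by_contra hcon
  push Not at hcon
  -- all conjugates commute
  have hcc : ∀ m ∈ normalizer (V : Set G), ∀ n ∈ normalizer (V : Set G), ∀ x ∈ conjBy U m, ∀ y ∈ conjBy U n,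
      x * y = y * x := by
    intro m hm n hn x hx y hy
    rw [mem_conjBy] at hx
    have h1 : m⁻¹ * y * m ∈ conjBy U (m⁻¹ * n) := by
      rw [mem_conjBy] at hy ⊢
      have e : (m⁻¹ * n)⁻¹ * (m⁻¹ * y * m) * (m⁻¹ * n) = n⁻¹ * y * n := by group
      rw [e]; exact hy
    have h2 := hcon (m⁻¹ * n) (mul_mem (inv_mem hm) hn) _ hx _ h1
    calc x * y = m * (m⁻¹ * x * m * (m⁻¹ * y * m)) * m⁻¹ := by group
      _ = m * (m⁻¹ * y * m * (m⁻¹ * x * m)) * m⁻¹ := by rw [h2]
      _ = _ := by group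
  set S : Set G := (V : Set G) ∪ {x | ∃ m ∈ normalizer (V : Set G), x ∈ conjBy U m} with hS
  have hSc : ∀ x ∈ S, ∀ y ∈ S, x * y = y * x := by
    rintro x (hx | ⟨m, hm, hx⟩) y (hy | ⟨n, hn, hy⟩)
    · exact h.Vc hx hy
    · exact (h.PV_comm (h.out_mem_PP (h.out_conj hU hn) hy) hx).symm
    · exact h.PV_comm (h.out_mem_PP (h.out_conj hU hm) hx) hy
    · exact hcc m hm n hn x hx y hy
  have hSn : ∀ g ∈ normalizer (V : Set G), ∀ x ∈ S, g * x * g⁻¹ ∈ S := by
    rintro g hg x (hx | ⟨m, hm, hx⟩)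
    · exact Or.inl (h.norm_mem hg hx)
    · refine Or.inr ⟨g * m, mul_mem hg hm, ?_⟩
      rw [← conjBy_conjBy]
      exact conj_mem_conjBy g hx
  have hSP : ∀ x ∈ S, x ∈ PP V Q := by
    rintro x (hx | ⟨m, hm, hx⟩)
    · exact h.V_le_PP hx
    · exact h.out_mem_PP (h.out_conj hU hm) hx
  have hA : closure S = V := by
    apply h.max
    · exact fun v hv => subset_closure (Or.inl hv)
    · rw [closure_le]; exact fun x hx => h.PP_le_N (hSP x hx)
    · have hle : closure S ≤ centralizer (closure S : Set G) := by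
        rw [closure_le]
        intro x hx
        refine mem_centralizer_iff.mpr ?_
        intro y hy
        have : closure S ≤ centralizer ({x} : Set G) := by
          rw [closure_le]
          intro z hz
          refine mem_centralizer_iff.mpr ?_
          intro w hw
          rw [Set.mem_singleton_iff.mp hw]
          exact hSc x hx z hz
        have h3 := mem_centralizer_iff.mp (this hy) x rfl
        exact h3.symm
      intro a ha b hb
      exact (mem_centralizer_iff.mp (hle ha) b hb).symm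
    · intro m hm
      apply h.conj_inv_mem hm
      intro m hm s hs
      have hle : closure S ≤ (closure S).comap (MulAut.conj m).toMonoidHom := by
        rw [closure_le]
        intro x hx
        exact subset_closure (hSn m hm x hx)
      exact hle hs
  obtain ⟨u, hu, hu1⟩ := h.out_ne_bot hU
  apply hu1
  apply h.out_inf hU u hu
  rw [← hA]
  exact subset_closure (Or.inr ⟨1, one_mem _, by rw [conjBy_one]; exact hu⟩)

/-- a second out-neighbour, nowhere commuting with the first -/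
theorem exists_second : ∃ U', Out V Q U' ∧ (∃ m ∈ normalizer (V : Set G), U' = conjBy U m) ∧
    ∀ u ∈ U, u ≠ 1 → ∀ u' ∈ U', u' ≠ 1 → u * u' ≠ u' * u := by
  obtain ⟨m, hm, u₀, hu₀, u₁, hu₁, hne⟩ := h.exists_noncomm hU
  refine ⟨_, h.out_conj hU hm, ⟨m, hm, rfl⟩, ?_⟩
  intro u hu hu1 u' hu' hu'1 hc
  have h1 := h.out_cent (h.out_conj hU hm) (h.out_mem_PP hU hu) hu' hu'1 hc
  -- u commutes with all of U'
  apply hne
  have h2 := h1 u₁ hu₁
  exact (h.out_cent hU (h.out_mem_PP (h.out_conj hU hm) hu₁) hu hu1 h2.symm u₀ hu₀).symm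

theorem exists_comm_eq {u v : G} (hu : u ∈ U) (hu1 : u ≠ 1) (hv : v ∈ V) : ∃ a ∈ PP V Q, ⁅a, u⁆ = v := by
  obtain ⟨U', hU', -, hnc⟩ := h.exists_second hU
  have huP := h.out_mem_PP hU hu
  obtain ⟨a, ha, hav⟩ := h.out_surj hU' huP (fun hall => by
    obtain ⟨u', hu', hu'1⟩ := h.out_ne_bot hU'
    exact hnc u hu hu1 u' hu' hu'1 (hall u' hu')) hv
  exact ⟨a, h.out_mem_PP hU' ha, by rw [← hav, h.comm_symm (h.out_mem_PP hU' ha) huP]⟩

/-- Step 5 -/
theorem exists_conj_eq {u v : G} (hu : u ∈ U) (hu1 : u ≠ 1) (hv : v ∈ V) :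
    ∃ a ∈ PP V Q, a * u * a⁻¹ = v * u := by
  obtain ⟨a, ha, hav⟩ := h.exists_comm_eq hU hu hu1 hv
  refine ⟨a, ha, ?_⟩
  rw [← hav, commutatorElement_def]; group

/-- Step 6 -/
theorem cent_D {c : G} (hc : c ∈ PP V Q)
    (hcD : ∀ d ∈ PP V Q, (∀ u ∈ U, d * u = u * d) → c * d = d * c) : ∃ v ∈ V, ∃ u ∈ U, c = v * u := by
  obtain ⟨U', hU', -, hnc⟩ := h.exists_second hU
  obtain ⟨w, hw, hw1⟩ := h.out_ne_bot hU'
  have hwP := h.out_mem_PP hU' hw
  obtain ⟨u, hu, huw⟩ := h.out_surj hU hwP (fun hall => by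
    obtain ⟨u', hu', hu'1⟩ := h.out_ne_bot hU
    exact hnc u' hu' hu'1 w hw hw1 (hall u' hu').symm) (h.comm_mem hwP hc)
  have huP := h.out_mem_PP hU hu
  -- c' = c u⁻¹ commutes with w hence with U'
  have hc'P : c * u ∈ PP V Q := mul_mem hc huP
  have h1 : (c * u) * w = w * (c * u) := by
    rw [eq_comm, ← comm_eq_one_iff, h.comm_mul_right hwP hc huP, huw]
    exact h.sq _ (h.comm_mem hwP hc)
  have h2 := h.out_cent hU' hc'P hw hw1 h1
  -- c' commutes with P
  have h3 : c * u ∈ V := by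
    apply h.PP_center hc'P
    intro a ha
    obtain ⟨u₀, hu₀, hu₀1⟩ := h.out_ne_bot hU
    have hu₀P := h.out_mem_PP hU hu₀
    obtain ⟨b, hb, hbv⟩ := h.out_surj hU' hu₀P (fun hall => hnc u₀ hu₀ hu₀1 w hw hw1 (hall w hw))
      (h.comm_mem hu₀P ha)
    have hbP := h.out_mem_PP hU' hb
    -- b a commutes with u₀
    have hd : (b * a) * u₀ = u₀ * (b * a) := by
      rw [eq_comm, ← comm_eq_one_iff, h.comm_mul_right hu₀P hbP ha, hbv]
      exact h.sq _ (h.comm_mem hu₀P ha)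
    have hd' := h.out_cent hU (mul_mem hbP ha) hu₀ hu₀1 hd
    have h4 := hcD _ (mul_mem hbP ha) hd'
    have h5 : (c * u) * (b * a) = (b * a) * (c * u) := by
      calc (c * u) * (b * a) = c * (u * (b * a)) := by group
        _ = c * ((b * a) * u) := by rw [hd' u hu]
        _ = (c * (b * a)) * u := by group
        _ = _ := by rw [h4]; group
    have h6 := h2 b hb
    have h7 : a = b⁻¹ * (b * a) := by group
    have h8 : (c * u) * b⁻¹ = b⁻¹ * (c * u) := by
      calc (c * u) * b⁻¹ = b⁻¹ * (b * (c * u)) * b⁻¹ := by group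
        _ = b⁻¹ * (c * u * b) * b⁻¹ := by rw [h6]
        _ = _ := by group
    calc c * u * a = (c * u) * b⁻¹ * (b * a) := by group
      _ = b⁻¹ * ((c * u) * (b * a)) := by rw [h8]; group
      _ = a * (c * u) := by rw [h5]; group
  refine ⟨c * u, h3, u, hu, ?_⟩
  rw [mul_assoc, h.out_sq hU hu, mul_one]

omit hU in
/-- Step 7 -/
theorem K_le {x : G} (hxV : ∀ v ∈ V, v * x = x * v) (hxP : ∀ a ∈ PP V Q, x * a * x⁻¹ * a⁻¹ ∈ V) :
    x ∈ PP V Q := by
  haveI : Fact (Nat.Prime 2) := ⟨Nat.prime_two⟩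
  have hcN : ∀ y : G, (∀ v ∈ V, v * y = y * v) → y ∈ normalizer (V : Set G) := by
    intro y hy
    obtain ⟨v, hv, hv1⟩ := h.exists_ne
    exact h.mem_N_of_comm hv hv1 (hy v hv).symm
  let K : Subgroup G :=
    { carrier := {x | (∀ v ∈ V, v * x = x * v) ∧ ∀ a ∈ PP V Q, x * a * x⁻¹ * a⁻¹ ∈ V}
      one_mem' := ⟨fun v _ => by simp, fun a _ => by simp⟩
      mul_mem' := by
        rintro x y ⟨hx, hx'⟩ ⟨hy, hy'⟩
        refine ⟨fun v hv => by rw [← mul_assoc, hx v hv, mul_assoc, hy v hv, mul_assoc], fun a ha => ?_⟩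
        have e : x * y * a * (x * y)⁻¹ * a⁻¹ = x * (y * a * y⁻¹ * a⁻¹) * x⁻¹ * (x * a * x⁻¹ * a⁻¹) := by group
        rw [e]
        exact V.mul_mem (h.norm_mem (hcN x hx) (hy' a ha)) (hx' a ha)
      inv_mem' := by
        rintro x ⟨hx, hx'⟩
        refine ⟨fun v hv => ?_, fun a ha => ?_⟩
        · have := hx v hv
          calc v * x⁻¹ = x⁻¹ * (x * v) * x⁻¹ := by group
            _ = x⁻¹ * (v * x) * x⁻¹ := by rw [this]
            _ = _ := by group
        · have e : x⁻¹ * a * x⁻¹⁻¹ * a⁻¹ = x⁻¹ * (x * a * x⁻¹ * a⁻¹)⁻¹ * x := by group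
          rw [e]
          exact h.norm_mem' (hcN x hx) (V.inv_mem (hx' a ha)) }
  have hKN : K ≤ normalizer (V : Set G) := fun y hy => hcN y hy.1
  have hKn : normalizer (V : Set G) ≤ normalizer (K : Set G) := by
    intro m hm
    apply h.conj_inv_mem hm
    intro m hm s hs
    obtain ⟨hs1, hs2⟩ := hs
    refine ⟨fun v hv => ?_, fun a ha => ?_⟩
    · have := hs1 _ (h.norm_mem' hm hv)
      calc v * (m * s * m⁻¹) = m * (m⁻¹ * v * m * s) * m⁻¹ := by group
        _ = m * (s * (m⁻¹ * v * m)) * m⁻¹ := by rw [this]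
        _ = _ := by group
    · have := h.norm_mem hm (hs2 _ (h.norm_PP' hm ha))
      have e : m * s * m⁻¹ * a * (m * s * m⁻¹)⁻¹ * a⁻¹ =
        m * (s * (m⁻¹ * a * m) * s⁻¹ * (m⁻¹ * a * m)⁻¹) * m⁻¹ := by group
      rw [e]; exact this
  have hKp : IsPGroup 2 K := by
    apply H49.isPGroup_of_coprime_eq_one
    intro c hc hord
    -- c centralizes P
    have hcP : ∀ a ∈ PP V Q, a * c = c * a := by
      intro a ha
      have := H49.commute_of_commute_commutator h.Qp (c := c) (x := a) hord (h.VQ (hc.2 a ha))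
        (hc.1 _ (hc.2 a ha)).symm
      exact this.symm
    have hcQ := H49.thompson_AB (p := 2) (A := V) (b := c) (h.Qp.to_le h.VQ) hord
      (mem_centralizer_iff.mpr hc.1) Q h.Qp (h.VQ.trans le_normalizer) (h.Qn (hKN hc))
      (mem_centralizer_iff.mpr hcP)
    have hcQ' : c ∈ Q := h.cent c (hKN hc) (fun y hy => (mem_centralizer_iff.mp hcQ y hy).symm)
    exact H49.eq_one_of_coprime_of_pGroup h.Qp hcQ' hord (pow_orderOf_eq_one c)
  have hKQ := h.core K hKN hKn hKp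
  exact mem_PP.mpr ⟨hKQ ⟨hxV, hxP⟩, hxV⟩

end Cfg

end Cfsg.Agent.H84.TI
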