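import Cfsg.Agent.H84.TI3

/-! TI subgroups, part 4: the group `W = V V'`. -/

set_option autoImplicit false
set_option linter.unusedSectionVars false
set_option linter.style.haveILetI false

namespace Cfsg.Agent.H84.TI

open Cfsg Cfsg.Agent.RankOne Subgroup
open scoped commutatorElement

variable {G : Type*} [Group G] [Finite G]

theorem mem_sup_of_comm {V U : Subgroup G} (hc : ∀ u ∈ U, ∀ v ∈ V, u * v = v * u) {w : G} :
    w ∈ V ⊔ U ↔ ∃ v ∈ V, ∃ u ∈ U, w = v * u := by
  constructor
  · intro hw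
    let W : Subgroup G :=
      { carrier := {w | ∃ v ∈ V, ∃ u ∈ U, w = v * u}
        one_mem' := ⟨1, one_mem _, 1, one_mem _, by simp⟩
        mul_mem' := by
          rintro _ _ ⟨v, hv, u, hu, rfl⟩ ⟨v', hv', u', hu', rfl⟩
          refine ⟨v * v', mul_mem hv hv', u * u', mul_mem hu hu', ?_⟩
          calc v * u * (v' * u') = v * (u * v') * u' := by group
            _ = v * (v' * u) * u' := by rw [hc u hu v' hv']
            _ = _ := by group
        inv_mem' := by
          rintro _ ⟨v, hv, u, hu, rfl⟩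
          refine ⟨v⁻¹, inv_mem hv, u⁻¹, inv_mem hu, ?_⟩
          rw [← mul_inv_rev, hc u hu v hv] }
    have hle : V ⊔ U ≤ W := sup_le (fun v hv => ⟨v, hv, 1, one_mem _, by simp⟩)
      (fun u hu => ⟨1, one_mem _, u, hu, by simp⟩)
    exact hle hw
  · rintro ⟨v, hv, u, hu, rfl⟩
    exact mul_mem (mem_sup_left hv) (mem_sup_right hu)

/-- `O_2(C(W))` -/
def OW (W : Subgroup G) : Subgroup G := (Cfsg.pCore 2 (centralizer (W : Set G))).map (centralizer (W : Set G)).subtype

theorem OW_le (W : Subgroup G) : OW W ≤ centralizer (W : Set G) := H49.pCoreOf_le 2 _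

theorem OW_isPGroup (W : Subgroup G) : IsPGroup 2 (OW W) := H49.isPGroup_pCoreOf 2 _

theorem centralizer_norm (W : Subgroup G) :
    normalizer (W : Set G) ≤ normalizer ((centralizer (W : Set G) : Subgroup G) : Set G) := by
  intro n hn
  rw [mem_normalizer_iff]
  have key : ∀ n ∈ normalizer (W : Set G), ∀ c ∈ centralizer (W : Set G), n * c * n⁻¹ ∈ centralizer (W : Set G) := by
    intro n hn c hc
    refine mem_centralizer_iff.mpr ?_
    intro w hw
    have h1 : n⁻¹ * w * n ∈ W := by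
      have := (mem_normalizer_iff.mp (inv_mem hn) w).mp hw
      rwa [inv_inv] at this
    have h2 := mem_centralizer_iff.mp hc _ h1
    calc w * (n * c * n⁻¹) = n * (n⁻¹ * w * n * c) * n⁻¹ := by group
      _ = n * (c * (n⁻¹ * w * n)) * n⁻¹ := by rw [h2]
      _ = _ := by group
  intro c
  constructor
  · exact key n hn c
  · intro hc
    have := key n⁻¹ (inv_mem hn) _ hc
    have e : n⁻¹ * (n * c * n⁻¹) * n⁻¹⁻¹ = c := by group
    rwa [e] at this

theorem OW_norm (W : Subgroup G) : normalizer (W : Set G) ≤ normalizer (OW W : Set G) :=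
  (centralizer_norm W).trans (H49.normalizer_le_normalizer_pCoreOf 2 _)

namespace Cfg

variable {V Q : Subgroup G} (h : Cfg V Q)

include h

theorem cent_le_N : centralizer (V : Set G) ≤ normalizer (V : Set G) := by
  intro x hx
  obtain ⟨v, hv, hv1⟩ := h.exists_ne
  exact h.mem_N_of_comm hv hv1 (mem_centralizer_iff.mp hx v hv).symm

/-- `D ≤ O_2(C(W))` -/
theorem D_le_OW (U : Subgroup G) : PP V Q ⊓ centralizer (U : Set G) ≤ OW (V ⊔ U) := by
  have hCV : centralizer ((V ⊔ U : Subgroup G) : Set G) ≤ centralizer (V : Set G) :=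
    centralizer_le (fun x hx => mem_sup_left hx)
  have hCU : centralizer ((V ⊔ U : Subgroup G) : Set G) ≤ centralizer (U : Set G) :=
    centralizer_le (fun x hx => mem_sup_right hx)
  apply H49.le_pCoreOf
  · intro d hd
    refine mem_centralizer_iff.mpr ?_
    intro w hw
    have h1 : V ⊔ U ≤ centralizer ({d} : Set G) := by
      apply sup_le
      · intro v hv
        refine mem_centralizer_iff.mpr ?_
        intro y hy
        rw [Set.mem_singleton_iff.mp hy]
        exact h.PV_comm hd.1 hv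
      · intro u hu
        refine mem_centralizer_iff.mpr ?_
        intro y hy
        rw [Set.mem_singleton_iff.mp hy]
        exact (mem_centralizer_iff.mp hd.2 u hu).symm
    exact (mem_centralizer_iff.mp (h1 hw) d rfl).symm
  · intro c hc
    have key : ∀ c ∈ centralizer ((V ⊔ U : Subgroup G) : Set G), ∀ d ∈ PP V Q ⊓ centralizer (U : Set G),
        c * d * c⁻¹ ∈ PP V Q ⊓ centralizer (U : Set G) := by
      intro c hc d hd
      refine ⟨h.norm_PP (h.cent_le_N (hCV hc)) hd.1, ?_⟩
      change c * d * c⁻¹ ∈ centralizer (U : Set G)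
      exact mul_mem (mul_mem (hCU hc) hd.2) (inv_mem (hCU hc))
    rw [mem_normalizer_iff]
    intro d
    constructor
    · exact key c hc d
    · intro hd
      have := key c⁻¹ (inv_mem hc) _ hd
      have e : c⁻¹ * (c * d * c⁻¹) * c⁻¹⁻¹ = d := by group
      rwa [e] at this
  · exact h.PP_isPGroup.to_le inf_le_left

variable {U : Subgroup G} (hU : Out V Q U)

include hU

theorem mem_W {w : G} : w ∈ V ⊔ U ↔ ∃ v ∈ V, ∃ u ∈ U, w = v * u := mem_sup_of_comm (h.out_comm hU)

theorem W_le_PP : V ⊔ U ≤ PP V Q := sup_le h.V_le_PP (h.out_le_PP hU)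

theorem W_sq {w : G} (hw : w ∈ V ⊔ U) : w * w = 1 := by
  obtain ⟨v, hv, u, hu, rfl⟩ := (h.mem_W hU).mp hw
  calc v * u * (v * u) = v * (u * v) * u := by group
    _ = v * (v * u) * u := by rw [h.out_comm hU u hu v hv]
    _ = (v * v) * (u * u) := by group
    _ = 1 := by rw [h.sq v hv, h.out_sq hU hu, one_mul]

theorem W_comm {w w' : G} (hw : w ∈ V ⊔ U) (hw' : w' ∈ V ⊔ U) : w * w' = w' * w := by
  have h1 := h.W_sq hU hw
  have h2 := h.W_sq hU hw'
  have h3 := h.W_sq hU (mul_mem hw hw')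
  calc w * w' = w * (w * w' * (w * w')) * w' := by rw [h3, mul_one]
    _ = (w * w) * (w' * w) * (w' * w') := by group
    _ = w' * w := by rw [h1, h2, one_mul, mul_one]

theorem W_le_centralizer : V ⊔ U ≤ centralizer ((V ⊔ U : Subgroup G) : Set G) := by
  intro w hw
  refine mem_centralizer_iff.mpr ?_
  intro w' hw'
  exact h.W_comm hU hw' hw

/-- Step 5: elements of `W` outside `V` -/
theorem W_conj {w : G} (hw : w ∈ V ⊔ U) (hwV : w ∉ V) : ∃ p ∈ PP V Q, w ∈ conjBy U p := by
  obtain ⟨v, hv, u, hu, rfl⟩ := (h.mem_W hU).mp hw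
  have hu1 : u ≠ 1 := by
    rintro rfl
    apply hwV; rw [mul_one]; exact hv
  obtain ⟨p, hp, hpu⟩ := h.exists_conj_eq hU hu hu1 hv
  exact ⟨p, hp, by rw [← hpu]; exact conj_mem_conjBy p hu⟩

/-- `P` normalizes `W` -/
theorem PP_le_NW : PP V Q ≤ normalizer ((V ⊔ U : Subgroup G) : Set G) := by
  intro p hp
  have key : ∀ p ∈ PP V Q, ∀ w ∈ V ⊔ U, p * w * p⁻¹ ∈ V ⊔ U := by
    intro p hp w hw
    have e : p * w * p⁻¹ = ⁅p, w⁆ * w := by rw [commutatorElement_def]; group
    rw [e]
    exact mul_mem (mem_sup_left (h.comm_mem hp (h.W_le_PP hU hw))) hw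
  rw [mem_normalizer_iff]
  intro w
  constructor
  · exact key p hp w
  · intro hw
    have := key p⁻¹ (inv_mem hp) _ hw
    have e : p⁻¹ * (p * w * p⁻¹) * p⁻¹⁻¹ = w := by group
    rwa [e] at this

/-- a conjugate of `V` meeting `W` nontrivially lies in `W` -/
theorem conj_le_W {x w : G} (hw : w ∈ V ⊔ U) (hw1 : w ≠ 1) (hx : w ∈ conjBy V x) : conjBy V x ≤ V ⊔ U := by
  by_cases hwV : w ∈ V
  · have := h.eq_of_mem hw1 hx (by rwa [conjBy_one] : w ∈ conjBy V 1)
    rw [conjBy_one] at this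
    rw [this]; exact le_sup_left
  · obtain ⟨p, hp, hpw⟩ := h.W_conj hU hw hwV
    obtain ⟨g, hg⟩ := hU.ex
    have h1 : conjBy V x = conjBy U p := by
      rw [hg, conjBy_conjBy]
      apply h.eq_of_mem hw1 hx
      rw [← conjBy_conjBy, ← hg]; exact hpw
    rw [h1]
    have h2 : conjBy (V ⊔ U) p = V ⊔ U := conjBy_eq_self_iff.mpr (h.PP_le_NW hU hp)
    rw [← h2]
    exact conjBy_mono le_sup_right p

theorem W_le_OW : V ⊔ U ≤ OW (V ⊔ U) := by
  apply H49.le_pCoreOf (h.W_le_centralizer hU)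
  · exact H49.centralizer_le_normalizer' _
  · exact h.PP_isPGroup.to_le (h.W_le_PP hU)

/-- Step 8 -/
theorem Z_le {z : G} (hz : z ∈ OW (V ⊔ U)) (hz2 : z * z = 1) (hzc : ∀ y ∈ OW (V ⊔ U), z * y = y * z) :
    z ∈ V ⊔ U := by
  have hzC := OW_le _ hz
  have hzV : ∀ v ∈ V, v * z = z * v := fun v hv => mem_centralizer_iff.mp hzC v (mem_sup_left hv)
  have hzU : ∀ u ∈ U, u * z = z * u := fun u hu => mem_centralizer_iff.mp hzC u (mem_sup_right hu)
  have hzN : z ∈ normalizer (V : Set G) := h.cent_le_N (mem_centralizer_iff.mpr hzV)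
  have hzinv : z⁻¹ = z := inv_eq_of_mul_eq_one_left hz2
  have hDO : ∀ d ∈ PP V Q, (∀ u ∈ U, d * u = u * d) → d ∈ OW (V ⊔ U) := fun d hd hdu =>
    h.D_le_OW U ⟨hd, mem_centralizer_iff.mpr fun u hu => (hdu u hu).symm⟩
  have hzP : z ∈ PP V Q := by
    apply h.K_le hzV
    intro a ha
    -- t = [z, a]
    have hzainv : z * a * z⁻¹ * a⁻¹ = z * (a * z * a⁻¹) := by rw [hzinv]; group
    have haN : a ∈ normalizer (OW (V ⊔ U) : Set G) := OW_norm _ (h.PP_le_NW hU ha)
    have ha' : a * z * a⁻¹ ∈ OW (V ⊔ U) := (mem_normalizer_iff.mp haN z).mp hz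
    have hac : ∀ y ∈ OW (V ⊔ U), (a * z * a⁻¹) * y = y * (a * z * a⁻¹) := by
      intro y hy
      have hy' : a⁻¹ * y * a ∈ OW (V ⊔ U) := by
        have := (mem_normalizer_iff.mp (inv_mem haN) y).mp hy
        rwa [inv_inv] at this
      have := hzc _ hy'
      calc (a * z * a⁻¹) * y = a * (z * (a⁻¹ * y * a)) * a⁻¹ := by group
        _ = a * ((a⁻¹ * y * a) * z) * a⁻¹ := by rw [this]
        _ = _ := by group
    have htP : z * (a * z * a⁻¹) ∈ PP V Q := by
      rw [← hzainv]
      exact mul_mem (h.norm_PP hzN ha) (inv_mem ha)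
    have htD : ∀ d ∈ PP V Q, (∀ u ∈ U, d * u = u * d) → z * (a * z * a⁻¹) * d = d * (z * (a * z * a⁻¹)) := by
      intro d hd hdu
      have hd' := hDO d hd hdu
      calc z * (a * z * a⁻¹) * d = z * ((a * z * a⁻¹) * d) := by group
        _ = (z * d) * (a * z * a⁻¹) := by rw [hac d hd']; group
        _ = _ := by rw [hzc d hd']; group
    obtain ⟨v, hv, u, hu, hvu⟩ := h.cent_D hU htP htD
    -- t commutes with a
    have hta : a * (z * (a * z * a⁻¹)) = (z * (a * z * a⁻¹)) * a := by
      have ha2 := h.PP_sq ha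
      have h1 := hzV _ ha2
      have h2 := hzc _ ha'
      calc a * (z * (a * z * a⁻¹)) = (a * z * a⁻¹) * ((a * a) * z) * a⁻¹ := by group
        _ = (a * z * a⁻¹) * (z * (a * a)) * a⁻¹ := by rw [h1]
        _ = ((a * z * a⁻¹) * z) * a := by group
        _ = _ := by rw [← h2]
    rw [hzainv, hvu]
    by_cases hau : ∀ u ∈ U, a * u = u * a
    · -- a in D
      have haO := hDO a ha hau
      have : z * (a * z * a⁻¹) = 1 := by
        have h1 := hzc a haO
        calc z * (a * z * a⁻¹) = z * ((a * z) * a⁻¹) := by group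
          _ = z * ((z * a) * a⁻¹) := by rw [h1]
          _ = z * z := by group
          _ = 1 := hz2
      rw [← hvu, this]; exact one_mem _
    · have hu1 : u = 1 := by
        by_contra hu1
        apply hau
        apply h.out_cent hU ha hu hu1
        rw [hvu] at hta
        have h1 := h.PV_comm ha hv
        have h2 : v * (a * u) = v * (u * a) := by
          calc v * (a * u) = (v * a) * u := by group
            _ = (a * v) * u := by rw [h1]
            _ = a * (v * u) := by group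
            _ = v * u * a := hta
            _ = _ := by group
        exact mul_left_cancel h2
      rw [hu1, mul_one]; exact hv
  obtain ⟨v, hv, u, hu, rfl⟩ := h.cent_D hU hzP (fun d hd hdu => hzc d (hDO d hd hdu))
  exact mul_mem (mem_sup_left hv) (mem_sup_right hu)

/-- `N(O) ≤ N(W)` -/
theorem NO_le_NW : normalizer (OW (V ⊔ U) : Set G) ≤ normalizer ((V ⊔ U : Subgroup G) : Set G) := by
  intro n hn
  have key : ∀ n ∈ normalizer (OW (V ⊔ U) : Set G), ∀ w ∈ V ⊔ U, n * w * n⁻¹ ∈ V ⊔ U := by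
    intro n hn w hw
    apply h.Z_le hU
    · exact (mem_normalizer_iff.mp hn w).mp (h.W_le_OW hU hw)
    · have e : n * w * n⁻¹ * (n * w * n⁻¹) = n * (w * w) * n⁻¹ := by group
      rw [e, h.W_sq hU hw]; group
    · intro y hy
      have hy' : n⁻¹ * y * n ∈ OW (V ⊔ U) := by
        have := (mem_normalizer_iff.mp (inv_mem hn) y).mp hy
        rwa [inv_inv] at this
      have := mem_centralizer_iff.mp (OW_le _ hy') w hw
      calc (n * w * n⁻¹) * y = n * (w * (n⁻¹ * y * n)) * n⁻¹ := by group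
        _ = n * ((n⁻¹ * y * n) * w) * n⁻¹ := by rw [this]
        _ = _ := by group
  rw [mem_normalizer_iff]
  intro w
  constructor
  · exact key n hn w
  · intro hw
    have := key n⁻¹ (inv_mem hn) _ hw
    have e : n⁻¹ * (n * w * n⁻¹) * n⁻¹⁻¹ = w := by group
    rwa [e] at this

end Cfg

end Cfsg.Agent.H84.TI
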