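import Cfsg.Agent.H84.TI4
import Cfsg.Agent.Transfer.Frobenius

/-! TI subgroups, part 5: the relation is symmetric; consequences. -/

set_option autoImplicit false
set_option linter.unusedSectionVars false
set_option linter.style.haveILetI false

namespace Cfsg.Agent.H84.TI

open Cfsg Cfsg.Agent.RankOne Subgroup
open scoped commutatorElement Pointwise

variable {G : Type*} [Group G] [Finite G]

theorem conjBy_eq_of_le {A : Subgroup G} {x : G} (hle : conjBy A x ≤ A) : conjBy A x = A := by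
  apply Subgroup.eq_of_le_of_card_ge hle
  rw [Subgroup.card_map_of_injective (MulAut.conj x).injective]

namespace Cfg

variable {V Q : Subgroup G} (h : Cfg V Q)

include h

/-- Step 9, part one: some element of `P'` moves `V` inside `W`. -/
theorem exists_move {U QU : Subgroup G} (hU : Out V Q U) (h' : Cfg U QU) :
    ∃ b ∈ PP U QU, conjBy V b ≤ V ⊔ U ∧ conjBy V b ≠ V := by
  have hVU := h.out_comm hU
  by_cases hA : ∃ v ∈ V, v ≠ 1 ∧ v ∈ PP U QU
  · obtain ⟨v, hv, hv1, hvP⟩ := hA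
    have hvU : v ∉ U := fun hvU => hv1 (h.out_inf hU v hvU hv)
    have hx : ∃ x ∈ PP U QU, v * x ≠ x * v := by
      by_contra hcon
      push Not at hcon
      exact hvU (h'.PP_center hvP hcon)
    obtain ⟨x, hx, hxv⟩ := hx
    have hxU : ⁅x, v⁆ ∈ U := h'.comm_mem hx hvP
    have e : x * v * x⁻¹ = ⁅x, v⁆ * v := by rw [commutatorElement_def]; group
    have hw : x * v * x⁻¹ ∈ V ⊔ U := by
      rw [e]; exact mul_mem (mem_sup_right hxU) (mem_sup_left hv)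
    refine ⟨x, hx, ?_, ?_⟩
    · apply h.conj_le_W hU hw _ (conj_mem_conjBy x hv)
      intro h0
      apply hv1
      have : v = x⁻¹ * (x * v * x⁻¹) * x := by group
      rw [this, h0]; group
    · intro h0
      have hxN : x ∈ normalizer (V : Set G) := conjBy_eq_self_iff.mp h0
      have h1 : ⁅x, v⁆ ∈ V := by
        rw [commutatorElement_def]
        exact mul_mem (h.norm_mem hxN hv) (inv_mem hv)
      have h2 := h.out_inf hU _ hxU h1
      exact hxv (comm_eq_one_iff.mp h2).symm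
  · push Not at hA
    -- P' does not centralize V
    have hne : ∃ b₀ ∈ PP U QU, ∃ v ∈ V, b₀ * v ≠ v * b₀ := by
      by_contra hcon
      push Not at hcon
      obtain ⟨v, hv, hv1⟩ := h.exists_ne
      apply hA v hv hv1
      apply h'.K_le
      · exact fun u hu => hVU u hu v hv
      · intro a ha
        rw [← hcon a ha v hv, mul_inv_cancel_right, mul_inv_cancel]; exact one_mem _
    obtain ⟨b₀, hb₀, v₀, hv₀, hbv⟩ := hne
    have hOC := OW_le (V ⊔ U)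
    have hOV : ∀ o ∈ OW (V ⊔ U), ∀ v ∈ V, o * v = v * o := fun o ho v hv =>
      (mem_centralizer_iff.mp (hOC ho) v (mem_sup_left hv)).symm
    have hOU : ∀ o ∈ OW (V ⊔ U), ∀ u ∈ U, u * o = o * u := fun o ho u hu =>
      (mem_centralizer_iff.mp (hOC ho) u (mem_sup_right hu))
    have hb₀O : b₀ ∉ OW (V ⊔ U) := fun hb => hbv (hOV b₀ hb v₀ hv₀)
    have hON : OW (V ⊔ U) ≤ normalizer (PP U QU : Set G) := fun o ho =>
      h'.PP_norm (h'.cent_le_N (mem_centralizer_iff.mpr (hOU o ho)))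
    have hR : IsPGroup 2 (OW (V ⊔ U) ⊔ PP U QU : Subgroup G) :=
      IsPGroup.to_sup_of_normal_right' (OW_isPGroup _) h'.PP_isPGroup hON
    have hlt : OW (V ⊔ U) < OW (V ⊔ U) ⊔ PP U QU :=
      lt_of_le_of_ne le_sup_left (fun h0 => hb₀O (by rw [h0]; exact mem_sup_right hb₀))
    haveI : Fact (Nat.Prime 2) := ⟨Nat.prime_two⟩
    have h1 := Transfer.lt_normalizer_inf_of_isPGroup hR hlt
    obtain ⟨x, hx, hxO⟩ := SetLike.exists_of_lt h1
    obtain ⟨o, ho, b, hb, rfl⟩ : ∃ o ∈ OW (V ⊔ U), ∃ b ∈ PP U QU, o * b = x := by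
      have h2 := hx.2
      have h3 : ((OW (V ⊔ U) ⊔ PP U QU : Subgroup G) : Set G) = (OW (V ⊔ U) : Set G) * (PP U QU : Set G) :=
        Subgroup.coe_mul_of_left_le_normalizer_right _ _ hON
      have h4 : x ∈ ((OW (V ⊔ U) ⊔ PP U QU : Subgroup G) : Set G) := h2
      rw [h3] at h4
      exact Set.mem_mul.mp h4
    have hbO : b ∉ OW (V ⊔ U) := fun hbO => hxO (mul_mem ho hbO)
    have hbN : b ∈ normalizer (OW (V ⊔ U) : Set G) := by
      have : b = o⁻¹ * (o * b) := by group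
      rw [this]
      exact mul_mem (inv_mem (le_normalizer ho)) hx.1
    have hbW : conjBy (V ⊔ U) b = V ⊔ U := conjBy_eq_self_iff.mpr (h.NO_le_NW hU hbN)
    refine ⟨b, hb, ?_, ?_⟩
    · rw [← hbW]; exact conjBy_mono le_sup_left b
    · intro h0
      have hbNV : b ∈ normalizer (V : Set G) := conjBy_eq_self_iff.mp h0
      apply hbO
      have hbU : ∀ u ∈ U, b * u = u * b := fun u hu => h'.PV_comm hb hu
      have hbV : ∀ v ∈ V, b * v = v * b := by
        intro v hv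
        rw [← comm_eq_one_iff]
        have h2 : ⁅b, v⁆ ∈ V := by
          rw [commutatorElement_def]
          exact mul_mem (h.norm_mem hbNV hv) (inv_mem hv)
        have h3 : ⁅b, v⁆ ∈ PP U QU := by
          have hvN : v ∈ normalizer (U : Set G) := h'.cent_le_N
            (mem_centralizer_iff.mpr fun u hu => hVU u hu v hv)
          have e : ⁅b, v⁆ = b * (v * b⁻¹ * v⁻¹) := by rw [commutatorElement_def]; group
          rw [e]
          exact mul_mem hb (h'.norm_PP hvN (inv_mem hb))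
        by_contra hne1
        exact hA _ h2 hne1 h3
      have h4 := h'.D_le_OW V
      rw [sup_comm] at h4
      exact h4 ⟨hb, mem_centralizer_iff.mpr fun v hv => (hbV v hv).symm⟩

end Cfg

/-- the symmetric situation -/
structure Pr (V Q U QU : Subgroup G) : Prop where
  h : Cfg V Q
  h' : Cfg U QU
  o : Out V Q U
  o' : Out U QU V
  conj : ∃ g : G, U = conjBy V g ∧ QU = conjBy Q g

theorem Cfg.pr {V Q : Subgroup G} (h : Cfg V Q) {g : G} (hg : conjBy V g ≠ V) (hgQ : conjBy V g ≤ Q) :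
    Pr V Q (conjBy V g) (conjBy Q g) := by
  have hU : Out V Q (conjBy V g) := ⟨⟨g, rfl⟩, hg, hgQ⟩
  have h' := h.conj g
  obtain ⟨b, hb, hbW, hbV⟩ := h.exists_move hU h'
  -- pick a nontrivial element of V^b
  obtain ⟨v, hv, hv1⟩ := h.exists_ne
  have hw1 : b * v * b⁻¹ ≠ 1 := by
    intro h0
    apply hv1
    have : v = b⁻¹ * (b * v * b⁻¹) * b := by group
    rw [this, h0]; group
  have hwb : b * v * b⁻¹ ∈ conjBy V b := conj_mem_conjBy b hv
  have hwV : b * v * b⁻¹ ∉ V := by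
    intro hwV
    apply hbV
    have := h.eq_of_mem hw1 hwb (by rwa [conjBy_one] : b * v * b⁻¹ ∈ conjBy V 1)
    rwa [conjBy_one] at this
  obtain ⟨p, hp, hpw⟩ := h.W_conj hU (hbW hwb) hwV
  have h1 : conjBy V b = conjBy V (p * g) := by
    apply h.eq_of_mem hw1 hwb
    rw [← conjBy_conjBy]; exact hpw
  set n := p⁻¹ * b with hn
  have hnV : conjBy V n = conjBy V g := by
    rw [hn, ← conjBy_conjBy, h1, conjBy_conjBy]
    congr 1; group
  have hnQ : conjBy Q n = conjBy Q g := by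
    have h2 : g⁻¹ * n ∈ normalizer (V : Set G) := by
      rw [← conjBy_eq_self_iff, ← conjBy_conjBy, hnV, conjBy_conjBy, inv_mul_cancel, conjBy_one]
    have h3 : conjBy Q (g⁻¹ * n) = Q := conjBy_eq_self_iff.mpr (h.Qn h2)
    rw [← conjBy_conjBy] at h3
    have := congrArg (fun B => conjBy B g) h3
    simp only [conjBy_conjBy, ] at this
    rwa [mul_inv_cancel_left] at this
  have hbU : conjBy (conjBy V g) b = conjBy V g :=
    conjBy_eq_self_iff.mpr (h'.PP_le_N hb)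
  have hnW : conjBy (V ⊔ conjBy V g) n = V ⊔ conjBy V g := by
    have h2 : conjBy (V ⊔ conjBy V g) b = V ⊔ conjBy V g := by
      apply conjBy_eq_of_le
      rw [conjBy_sup, hbU]
      exact sup_le hbW le_sup_right
    have h3 : conjBy (V ⊔ conjBy V g) p⁻¹ = V ⊔ conjBy V g :=
      conjBy_eq_self_iff.mpr (inv_mem (h.PP_le_NW hU hp))
    rw [hn, ← conjBy_conjBy, h2, h3]
  have hVQ : V ≤ conjBy Q g := by
    have h2 : V ⊔ conjBy V g ≤ Q := sup_le h.VQ hgQ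
    have h3 := conjBy_mono h2 n
    rw [hnW, hnQ] at h3
    exact le_sup_left.trans h3
  refine ⟨h, h', hU, ⟨⟨g⁻¹, ?_⟩, hg.symm, hVQ⟩, ⟨g, rfl, rfl⟩⟩
  rw [conjBy_conjBy, inv_mul_cancel, conjBy_one]

namespace Pr

variable {V Q U QU : Subgroup G} (p : Pr V Q U QU)

include p

theorem symm : Pr U QU V Q := by
  obtain ⟨g, hg, hg'⟩ := p.conj
  refine ⟨p.h', p.h, p.o', p.o, g⁻¹, ?_, ?_⟩
  · rw [hg, conjBy_conjBy, inv_mul_cancel, conjBy_one]
  · rw [hg', conjBy_conjBy, inv_mul_cancel, conjBy_one]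

/-- for `a ∈ P ∖ D` there is `b ∈ P'` with `b⁻¹ a : U → V`, acting as `u ↦ [a,u]` -/
theorem exists_n {a : G} (ha : a ∈ PP V Q) (hna : ¬ ∀ u ∈ U, a * u = u * a) :
    ∃ b ∈ PP U QU, conjBy U (b⁻¹ * a) = V ∧ (∀ u ∈ U, (b⁻¹ * a) * u * (b⁻¹ * a)⁻¹ = ⁅a, u⁆) ∧
      ∀ u ∈ U, ⁅b, ⁅a, u⁆⁆ = u := by
  obtain ⟨g, hg, hg'⟩ := p.conj
  obtain ⟨u₀, hu₀, hu₀1⟩ := p.h.out_ne_bot p.o
  have hw1 : a * u₀ * a⁻¹ ≠ 1 := by
    intro h0
    apply hu₀1
    have : u₀ = a⁻¹ * (a * u₀ * a⁻¹) * a := by group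
    rw [this, h0]; group
  have hwa : a * u₀ * a⁻¹ ∈ conjBy U a := conj_mem_conjBy a hu₀
  have hwW : a * u₀ * a⁻¹ ∈ V ⊔ U := (mem_normalizer_iff.mp (p.h.PP_le_NW p.o ha) u₀).mp (mem_sup_right hu₀)
  have hwU : a * u₀ * a⁻¹ ∉ U := by
    intro hwU
    apply hna
    apply p.h.out_cent p.o ha hu₀ hu₀1
    rw [← comm_eq_one_iff]
    apply p.h.out_inf p.o _ _ (p.h.comm_mem ha (p.h.out_mem_PP p.o hu₀))
    rw [commutatorElement_def]
    exact mul_mem hwU (inv_mem hu₀)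
  have hwW' : a * u₀ * a⁻¹ ∈ U ⊔ V := by rwa [sup_comm]
  obtain ⟨b, hb, hbw⟩ := p.h'.W_conj p.o' hwW' hwU
  have h1 : conjBy U a = conjBy V b := by
    rw [hg, conjBy_conjBy]
    apply p.h.eq_of_mem hw1 _ hbw
    rw [← conjBy_conjBy, ← hg]; exact hwa
  have hnV : conjBy U (b⁻¹ * a) = V := by
    rw [← conjBy_conjBy, h1, conjBy_conjBy, inv_mul_cancel, conjBy_one]
  have hmain : ∀ u ∈ U, (b⁻¹ * a) * u * (b⁻¹ * a)⁻¹ = ⁅a, u⁆ ∧ ⁅b, ⁅a, u⁆⁆ = u := by
   intro u hu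
   set x := ⁅a, u⁆ with hx
   have hxV : x ∈ V := p.h.comm_mem ha (p.h.out_mem_PP p.o hu)
   have hau : a * u * a⁻¹ = x * u := by rw [hx, commutatorElement_def]; group
   have hbu : b * u = u * b := p.h'.PV_comm hb hu
   have hy : ⁅x⁻¹, b⁻¹⁆ ∈ U := p.h'.comm_mem (inv_mem (p.symm.h.out_mem_PP p.symm.o hxV)) (inv_mem hb)
   have h2 : (b⁻¹ * a) * u * (b⁻¹ * a)⁻¹ = x * (⁅x⁻¹, b⁻¹⁆ * u) := by
     calc (b⁻¹ * a) * u * (b⁻¹ * a)⁻¹ = b⁻¹ * (a * u * a⁻¹) * b := by group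
       _ = b⁻¹ * (x * u) * b := by rw [hau]
       _ = b⁻¹ * x * (u * b) := by group
       _ = b⁻¹ * x * (b * u) := by rw [hbu]
       _ = _ := by rw [commutatorElement_def]; group
   have h3 : (b⁻¹ * a) * u * (b⁻¹ * a)⁻¹ ∈ V := by
     have := conj_mem_conjBy (b⁻¹ * a) hu
     rwa [hnV] at this
   rw [h2] at h3
   have h4 : ⁅x⁻¹, b⁻¹⁆ * u ∈ V := by
     have := mul_mem (inv_mem hxV) h3
     rwa [inv_mul_cancel_left] at this
   have h5 := p.h.out_inf p.o _ (mul_mem hy hu) h4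
   refine ⟨by rw [h2, h5, mul_one], ?_⟩
   have hxP' := p.symm.h.out_mem_PP p.symm.o hxV
   rw [p.h'.comm_inv_left hxP' (inv_mem hb), p.h'.comm_symm hxP' (inv_mem hb),
     p.h'.comm_inv_left hb hxP'] at h5
   rw [eq_inv_of_mul_eq_one_left h5, p.h'.inv_eq hu]
  exact ⟨b, hb, hnV, fun u hu => (hmain u hu).1, fun u hu => (hmain u hu).2⟩

theorem not_cent_of {a u : G} (hu : u ∈ U) (hne : ⁅a, u⁆ ≠ 1) : ¬ ∀ u ∈ U, a * u = u * a :=
  fun hall => hne (comm_eq_one_iff.mpr (hall u hu))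

/-- `M` is transitive on `V#` -/
theorem trans {x y : G} (hx : x ∈ V) (hx1 : x ≠ 1) (hy : y ∈ V) (hy1 : y ≠ 1) :
    ∃ m ∈ normalizer (V : Set G), m * x * m⁻¹ = y := by
  obtain ⟨u₀, hu₀, hu₀1⟩ := p.h.out_ne_bot p.o
  obtain ⟨a, ha, hax⟩ := p.h.exists_comm_eq p.o hu₀ hu₀1 hx
  obtain ⟨a', ha', hay⟩ := p.h.exists_comm_eq p.o hu₀ hu₀1 hy
  obtain ⟨b, hb, hn, hn', -⟩ := p.exists_n ha (p.not_cent_of hu₀ (by rw [hax]; exact hx1))
  obtain ⟨b', hb', hm, hm', -⟩ := p.exists_n ha' (p.not_cent_of hu₀ (by rw [hay]; exact hy1))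
  refine ⟨(b'⁻¹ * a') * (b⁻¹ * a)⁻¹, ?_, ?_⟩
  · rw [← conjBy_eq_self_iff, ← conjBy_conjBy]
    have : conjBy V (b⁻¹ * a)⁻¹ = U := by
      rw [← hn, conjBy_conjBy, inv_mul_cancel, conjBy_one]
    rw [this, hm]
  · have e1 := hn' u₀ hu₀
    have e2 := hm' u₀ hu₀
    rw [hax] at e1
    rw [hay] at e2
    rw [← e2, ← e1]
    group

theorem Q_cent : Q ≤ centralizer (V : Set G) := by
  haveI : Fact (Nat.Prime 2) := ⟨Nat.prime_two⟩
  obtain ⟨v, hv, hv1, hvc⟩ := H67.exists_fixed_of_pgroup (p := 2) Q V p.h.Qp (p.h.Qp.to_le p.h.VQ) p.h.Vne p.h.QM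
  intro x hx
  refine mem_centralizer_iff.mpr ?_
  intro y hy
  by_cases hy1 : y = 1
  · rw [hy1]; simp
  obtain ⟨m, hm, hmy⟩ := p.trans hv hv1 hy hy1
  have h1 : m⁻¹ * x * m ∈ Q := by
    have := (mem_normalizer_iff.mp (p.h.Qn (inv_mem hm)) x).mp hx
    rwa [inv_inv] at this
  have h2 := hvc _ h1
  have h3 : (m⁻¹ * x * m) * v = v * (m⁻¹ * x * m) := mul_inv_eq_iff_eq_mul.mp h2
  rw [← hmy]
  calc m * v * m⁻¹ * x = m * (v * (m⁻¹ * x * m)) * m⁻¹ := by group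
    _ = m * ((m⁻¹ * x * m) * v) * m⁻¹ := by rw [h3]
    _ = _ := by group

theorem PP_eq : PP V Q = Q := inf_eq_left.mpr p.Q_cent

end Pr

end Cfsg.Agent.H84.TI
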